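import Cfsg.Agent.Jf18.Orbits
import Cfsg.Agent.Jf18.M22
import Cfsg.Agent.J4Type67.OfType
import Cfsg.Agent.J4Type13.Invol
import Cfsg.Agent.LargeFischer45.Top
import Cfsg.Agent.LargeExtraspecial.Pair

/-!
Janko-four type: the elementary abelian subgroups of order `2 ^ 11` in the whole group, their
Sylow 2-subgroups and their centralisers.
-/

set_option autoImplicit false
set_option linter.unusedSectionVars false
set_option linter.style.haveILetI false

namespace CfsgLib.J4Type67.Setup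

universe u

variable {H : Type u} [Group H] [Finite H] (d : Setup H)

include d in
/-- The order of the centraliser. -/
theorem card_eq_amb : Nat.card H = 2 ^ 21 * 10395 := by
  have h := Subgroup.card_mul_index d.π.ker
  rw [d.cardKer, Subgroup.index_ker, MonoidHom.range_eq_top.2 d.surj,
    Nat.card_congr Subgroup.topEquiv.toEquiv, card_mulAut] at h
  omega

include d in
theorem card_sylow_amb (T : Sylow 2 H) : Nat.card ↥(T : Subgroup H) = 2 ^ 21 := by
  haveI : Fact (Nat.Prime 2) := ⟨Nat.prime_two⟩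
  rw [Sylow.card_eq_multiplicity, d.card_eq_amb, Nat.factorization_mul (by norm_num) (by norm_num),
    Finsupp.add_apply, Nat.Prime.factorization_pow Nat.prime_two, Finsupp.single_eq_same,
    Nat.factorization_eq_zero_of_not_dvd (by norm_num : ¬(2 ∣ 10395))]

include d in
/-- An element centralising an elementary abelian subgroup of order `2 ^ 11` lies in it. -/
theorem mem_of_centralizes {V : Subgroup H} (hVs : ∀ a ∈ V, a * a = 1)
    (hV : Nat.card V = 2 ^ 11) {x : H} (hx : ∀ v ∈ V, Commute x v) : x ∈ V := by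
  obtain ⟨B, rfl⟩ := Jf18.exists_bigElem d hVs hV
  have hD : ∀ u ∈ B.D, Commute x u := fun u hu => hx u hu.1
  -- the square lies in the centre
  have hxx : x * x ∈ d.Z := by
    have key : ∀ b ∈ d.E, Commute (x * x) b := by
      intro b hb
      set δ := b⁻¹ * (x * b * x⁻¹) with hδ
      have hδE : δ ∈ d.E := mul_mem (inv_mem hb) (d.normalE x b hb)
      have hδD : δ ∈ B.D := by
        refine B.cent_D.le ⟨hδE, Subgroup.mem_centralizer_iff.2 fun u hu => ?_⟩
        have hu' : x * u * x⁻¹ = u := mul_inv_eq_iff_eq_mul.2 (hD u hu).eq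
        obtain ⟨ζ, hζ, hbu⟩ : ∃ ζ ∈ d.Z, b * u = ζ * (u * b) :=
          ⟨b * u * b⁻¹ * u⁻¹, d.commE' hb hu.2, by group⟩
        have hζ' : x * ζ * x⁻¹ = ζ := d.z_conj x hζ
        have h1 : x * b * x⁻¹ * u = ζ * (u * (x * b * x⁻¹)) := by
          calc x * b * x⁻¹ * u = x * b * x⁻¹ * (x * u * x⁻¹) := by rw [hu']
            _ = x * (b * u) * x⁻¹ := by group
            _ = x * ζ * x⁻¹ * ((x * u * x⁻¹) * (x * b * x⁻¹)) := by rw [hbu]; group
            _ = _ := by rw [hζ', hu']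
        have h2 : b⁻¹ * ζ = ζ * b⁻¹ := by
          rcases d.mem_Z.1 hζ with e | e <;> rw [e]
          · simp
          · exact (d.zc b⁻¹).eq.symm
        symm
        calc δ * u = b⁻¹ * (x * b * x⁻¹ * u) := by rw [hδ]; group
          _ = b⁻¹ * ζ * u * (x * b * x⁻¹) := by rw [h1]; group
          _ = ζ * (b⁻¹ * u) * (x * b * x⁻¹) := by rw [h2]; group
          _ = ζ * (b⁻¹ * u) * b * δ := by rw [hδ]; group
          _ = b⁻¹ * (ζ * (u * b)) * δ := by
              rw [← mul_assoc ζ b⁻¹ u, ← h2]; group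
          _ = u * δ := by rw [← hbu]; group
      have hδx : x * δ * x⁻¹ = δ := mul_inv_eq_iff_eq_mul.2 (hD δ hδD).eq
      have hδδ : δ * δ = 1 := B.sq δ hδD.1
      have hxb : x * b * x⁻¹ = b * δ := by rw [hδ]; group
      refine mul_inv_eq_iff_eq_mul.1 ?_
      calc x * x * b * (x * x)⁻¹ = x * (x * b * x⁻¹) * x⁻¹ := by group
        _ = x * (b * δ) * x⁻¹ := by rw [hxb]
        _ = x * b * x⁻¹ * (x * δ * x⁻¹) := by group
        _ = b := by rw [hxb, hδx, mul_assoc, hδδ, mul_one]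
    exact d.mem_Z.2 (d.centE _ (d.self _ key) key)
  -- it induces an inner automorphism
  have hin : d.π x ∈ (MulAut.conj : M →* MulAut M).range := by
    by_contra hτI
    obtain ⟨a, ha, hπa⟩ := d.exists_normalizer x
    have hainv : a * d.p * a⁻¹ = d.p⁻¹ := by
      refine (d.conj_p ha).resolve_left fun e => hτI ?_
      rw [← hπa, ← d.map_C]
      exact ⟨a, d.mem_C.2 (mul_inv_eq_iff_eq_mul.1 e), rfl⟩
    obtain ⟨i, hi⟩ := d.ker_decomp (n := x * a⁻¹) (by
      rw [MonoidHom.mem_ker, map_mul, map_inv, hπa, mul_inv_cancel])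
    have hEact : ∀ e ∈ d.E, d.actH e = 1 := fun e he => MulEquiv.ext fun w => by
      obtain ⟨b, hb, rfl⟩ := d.q_surj w
      exact (d.conj_mem_Z hb).2 (d.commE' he hb)
    have hrel : d.actH x * d.actH d.p * (d.actH x)⁻¹ = (d.actH d.p)⁻¹ := by
      have hτ : x = (x * a⁻¹ * d.p ^ i) * ((d.p ^ i)⁻¹ * a) := by group
      have hτ' : d.actH x = (d.actH d.p ^ i)⁻¹ * d.actH a := by
        conv_lhs => rw [hτ]
        rw [map_mul, hEact _ hi, one_mul, map_mul, map_inv, map_zpow]
      have hai : d.actH a * d.actH d.p * (d.actH a)⁻¹ = (d.actH d.p)⁻¹ := by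
        rw [← map_inv, ← map_mul, ← map_mul, hainv, map_inv]
      rw [hτ', show (d.actH d.p ^ i)⁻¹ * d.actH a * d.actH d.p * ((d.actH d.p ^ i)⁻¹ * d.actH a)⁻¹ =
        (d.actH d.p ^ i)⁻¹ * (d.actH a * d.actH d.p * (d.actH a)⁻¹) * d.actH d.p ^ i by group, hai]
      group
    have hfix : ∀ u, ∀ hu : u ∈ B.D, d.actH x (d.q u hu.2) = d.q u hu.2 := by
      intro u hu
      rw [d.conj_mem_Z hu.2, (hD u hu).eq, mul_inv_cancel_right, mul_inv_cancel]
      exact one_mem _
    have hle : B.D ≤ d.Z := by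
      intro u hu
      have hup : d.p * u * d.p⁻¹ ∈ B.D := ⟨B.conj_p hu.1, d.normalE _ _ hu.2⟩
      have h1 := hfix u hu
      have h2 := hfix _ hup
      rw [← d.actH_q d.p hu.2] at h2
      set w := d.q u hu.2
      have h3 : d.actH x (d.actH d.p w) = (d.actH d.p)⁻¹ w := by
        have := congrArg (fun φ : MulAut d.W => φ (d.actH x w)) hrel
        simp only [MulAut.mul_apply, MulAut.inv_apply_self] at this
        rwa [h1] at this
      rw [h2] at h3
      have h4 : d.actH d.p (d.actH d.p w) = w := by rw [h3, MulAut.apply_inv_self]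
      have hp3 : d.actH d.p (d.actH d.p (d.actH d.p w)) = w := by
        rw [← MulAut.mul_apply, ← MulAut.mul_apply, ← map_mul, ← map_mul, ← pow_three', d.p3,
          map_one, MulAut.one_apply]
      rw [h4] at hp3
      exact (d.q_one_iff).1 (d.rep.fpf w hp3)
    have h1 := Subgroup.card_le_of_le hle
    rw [B.card_D, d.card_Z] at h1
    norm_num at h1
  obtain ⟨b, hb⟩ := hin
  have hcomm : ∀ a ∈ B.A, Commute b a := by
    intro a ha
    obtain ⟨v, hv, hva⟩ := B.exists_over ha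
    have h := congrArg d.π (hx v hv).eq
    rw [map_mul, map_mul, hva, ← hb, ← map_mul, ← map_mul] at h
    exact conj_injective_M h
  have hb2 : b ^ 2 ^ 1 = 1 := by
    apply conj_injective_M
    rw [pow_one, pow_two, map_mul, hb, map_one, ← map_mul]
    exact MonoidHom.mem_ker.1 (d.E_le (d.Z_le_E hxx))
  exact B.mem_V_of ⟨b, Jf18.M22.mem_of_commute (Or.inl rfl) hb2 hcomm, hb⟩ hD

end CfsgLib.J4Type67.Setup

namespace CfsgLib.Jf18.Ctx

open CfsgLib.J4Type67

universe u

variable {G : Type u} [Group G] [Finite G] (c : Ctx G)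

theorem elementary_of_sq_amb {K : Type u} [Group K] {V : Subgroup K} (hV : ∀ x ∈ V, x * x = 1) :
    Cfsg.IsElementaryAbelian 2 V :=
  LocalP.isElementaryAbelian_iff.2
    ⟨fun a ha b hb => comm_of_sq hV ha hb, fun a ha => by rw [pow_two]; exact hV a ha⟩

theorem sq_of_elementary_amb {V : Subgroup G} (hV : Cfsg.IsElementaryAbelian 2 V) :
    ∀ x ∈ V, x * x = 1 := fun a ha => by
  rw [← pow_two]; exact (LocalP.isElementaryAbelian_iff.1 hV).2 a ha

include c in
/-- A Sylow 2-subgroup of `G` has order `2 ^ 21`. -/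
theorem card_sylow (T : Sylow 2 G) : Nat.card ↥(T : Subgroup G) = 2 ^ 21 := by
  haveI : Fact (Nat.Prime 2) := ⟨Nat.prime_two⟩
  obtain ⟨T₀, S, hS⟩ := exists_sylow_centralizer c.hJ
  rw [T.card_eq_multiplicity, ← S.card_eq_multiplicity, hS,
    Subgroup.card_map_of_injective c.H.subtype_injective, c.setup.card_sylow_amb]

/-- A Sylow 2-subgroup containing `V` and centralising `z`. -/
theorem exists_sylow {V : Subgroup G} (hV : ∀ x ∈ V, x * x = 1) (hc : Nat.card V = 2 ^ 11)
    (hz : c.z ∈ V) :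
    ∃ T : Sylow 2 G, V ≤ T ∧ ∀ x ∈ (T : Subgroup G), x * c.z = c.z * x := by
  haveI : Fact (Nat.Prime 2) := ⟨Nat.prime_two⟩
  have hVH : V ≤ c.H := fun x hx => mem_cz.2 (comm_of_sq hV hx hz)
  have hp : IsPGroup 2 V := IsPGroup.iff_card.2 ⟨11, hc⟩
  obtain ⟨T₀, hT₀⟩ := (hp.comap_of_injective c.H.subtype c.H.subtype_injective).exists_le_sylow
  refine ⟨Sylow.ofCard ((T₀ : Subgroup c.H).map c.H.subtype) ?_, fun x hx => ?_, fun x hx => ?_⟩
  · obtain ⟨T⟩ : Nonempty (Sylow 2 G) := inferInstance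
    rw [← T.card_eq_multiplicity, c.card_sylow T,
      Subgroup.card_map_of_injective c.H.subtype_injective, c.setup.card_sylow_amb]
  · exact ⟨⟨x, hVH hx⟩, hT₀ hx, rfl⟩
  · obtain ⟨y, -, rfl⟩ := hx
    exact (mem_cz.1 y.2).eq

/-- `V` contains its centraliser. -/
theorem centralizer_le {V : Subgroup G} (hV : ∀ x ∈ V, x * x = 1) (hc : Nat.card V = 2 ^ 11)
    (hz : c.z ∈ V) : Subgroup.centralizer (V : Set G) ≤ V := by
  intro x hx
  have hVH : V ≤ c.H := fun x hx => mem_cz.2 (comm_of_sq hV hx hz)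
  have hxH : x ∈ c.H := mem_cz.2 ((Subgroup.mem_centralizer_iff.1 hx c.z hz).symm)
  exact c.setup.mem_of_centralizes (V := V.subgroupOf c.H) (x := ⟨x, hxH⟩)
    (fun a ha => Subtype.ext (hV _ ha))
    (by rw [Nat.card_congr (Subgroup.subgroupOfEquivOfLe hVH).toEquiv, hc])
    fun v hv => Subtype.ext (Subgroup.mem_centralizer_iff.1 hx _ hv).symm

/-- `V` is the largest elementary abelian subgroup of a Sylow 2-subgroup containing it. -/
theorem top {V : Subgroup G} (hV : ∀ x ∈ V, x * x = 1) (hc : Nat.card V = 2 ^ 11)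
    (hz : c.z ∈ V) : LargeFischer45.Top V := by
  haveI : Fact (Nat.Prime 2) := ⟨Nat.prime_two⟩
  obtain ⟨T, hVT, -⟩ := c.exists_sylow hV hc hz
  have hu := existsUnique_sylow c.hJ T
  have huniq : ∀ B : Subgroup G, B ≤ (T : Subgroup G) → Cfsg.IsElementaryAbelian 2 B →
      Nat.card B = 2 ^ 11 → B = V := fun B h1 h2 h3 =>
    hu.unique ⟨h1, h2, h3⟩ ⟨hVT, elementary_of_sq_amb hV, hc⟩
  refine ⟨elementary_of_sq_amb hV, hc, T, hVT, fun B hBT hB => ⟨?_, huniq B hBT hB⟩⟩
  by_contra hlt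
  obtain ⟨n, hn⟩ := IsPGroup.iff_card.1 (LocalP.isPGroup_of_isElementaryAbelian hB)
  rw [hn, not_le] at hlt
  have h11 : 11 < n := (Nat.pow_lt_pow_iff_right (by norm_num : 1 < 2)).1 hlt
  have hBle : ∀ b ∈ B, b ∈ V := by
    intro b hb
    have hbp : IsPGroup 2 (Subgroup.zpowers (⟨b, hb⟩ : B)) :=
      (LocalP.isPGroup_of_isElementaryAbelian hB).to_subgroup _
    have hle : Nat.card (Subgroup.zpowers (⟨b, hb⟩ : B)) ≤ 2 ^ 11 := by
      rw [Nat.card_zpowers]
      refine (Nat.le_of_dvd (by norm_num) (orderOf_dvd_of_pow_eq_one (n := 2) (Subtype.ext ?_))).trans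
        (by norm_num)
      show b ^ 2 = 1
      exact (LocalP.isElementaryAbelian_iff.1 hB).2 b hb
    obtain ⟨k, hk⟩ := IsPGroup.iff_card.1 hbp
    rw [hk] at hle
    obtain ⟨W, hW, hbW⟩ := Sylow.exists_subgroup_card_pow_prime_le 2
      (G := B) (m := 11) (n := k) (by rw [hn]; exact pow_dvd_pow 2 h11.le) _ hk
      ((Nat.pow_le_pow_iff_right (by norm_num : 1 < 2)).1 hle)
    have hWV : W.map B.subtype = V := huniq _ ((Subgroup.map_subtype_le W).trans hBT)
      (LocalP.isElementaryAbelian_mono hB (Subgroup.map_subtype_le W))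
      (by rw [Subgroup.card_map_of_injective B.subtype_injective, hW])
    exact hWV.le ⟨⟨b, hb⟩, hbW (Subgroup.mem_zpowers _), rfl⟩
  have := Subgroup.card_le_of_le (show B ≤ V from hBle)
  rw [hn, hc] at this
  have := (Nat.pow_le_pow_iff_right (by norm_num : 1 < 2)).1 this
  omega

/-- The extraspecial subgroup and its involution. -/
theorem setting : LargeExtraspecial.Setting c.E c.z where
  extraspecial := c.hJ.2.1
  order := c.orderOf_z
  mem_iff x := by
    rw [LargeExtraspecial.mem_zOf]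
    refine ⟨fun h => c.center_E h.1 fun b hb => (h.2 b hb).symm, ?_⟩
    rintro (rfl | rfl)
    · exact ⟨one_mem _, fun q _ => by simp⟩
    · exact ⟨c.z_mem_E, fun q hq => (mem_cz.1 (c.E_le hq)).eq⟩
  centralizer_eq := by
    ext x
    rw [LargeExtraspecial.mem_zOf, Subgroup.mem_centralizer_iff]
    refine ⟨fun h => ⟨c.self_cent (mem_cz.2 (h c.z c.z_mem_E).symm) fun b hb => (h b hb).symm, h⟩,
      fun h => h.2⟩
  normalized g hg q := by
    refine ⟨fun hq => c.normal_E (mem_cz.2 hg) hq, fun hq => ?_⟩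
    have := c.normal_E (inv_mem (mem_cz.2 hg : g ∈ c.H)) hq
    simpa [mul_assoc] using this

include c in
/-- Every elementary abelian subgroup of order `2 ^ 11` holds a conjugate of `z`. -/
theorem exists_conj_mem {V : Subgroup G} (hV : ∀ x ∈ V, x * x = 1) (hc : Nat.card V = 2 ^ 11) :
    ∃ z' ∈ V, IsConj c.z z' := by
  haveI : Fact (Nat.Prime 2) := ⟨Nat.prime_two⟩
  obtain ⟨W₀, hW₀s, hW₀c⟩ := c.setup.exists_elementary
  obtain ⟨B, hB⟩ := exists_bigElem c.setup hW₀s hW₀c
  set W := W₀.map c.H.subtype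
  have hWs : ∀ x ∈ W, x * x = 1 := by
    rintro _ ⟨a, ha, rfl⟩
    rw [← map_mul, hW₀s a ha, map_one]
  have hWc : Nat.card W = 2 ^ 11 := by
    rw [Subgroup.card_map_of_injective c.H.subtype_injective, hW₀c]
  have hzW : c.z ∈ W := ⟨c.setup.z, hB ▸ B.z_mem_D.1, rfl⟩
  obtain ⟨T, hWT, -⟩ := c.exists_sylow hWs hWc hzW
  obtain ⟨S, hVS⟩ := (IsPGroup.iff_card.2 ⟨11, hc⟩ : IsPGroup 2 V).exists_le_sylow
  obtain ⟨g, rfl⟩ := MulAction.exists_smul_eq G T S
  refine ⟨g * c.z * g⁻¹, ?_, isConj_iff.2 ⟨g, rfl⟩⟩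
  have e : W.map (MulAut.conj g).toMonoidHom = V := by
    refine (existsUnique_sylow c.hJ _).unique ⟨?_, ?_, ?_⟩ ⟨hVS, elementary_of_sq_amb hV, hc⟩
    · rw [Sylow.coe_subgroup_smul]
      exact Subgroup.map_mono hWT
    · exact LocalP.isElementaryAbelian_map _ (elementary_of_sq_amb hWs)
    · rw [Subgroup.card_map_of_injective (MulAut.conj g).injective, hWc]
  exact e.le ⟨c.z, hzW, rfl⟩

/-- Some conjugate context has its involution in `V`. -/
theorem exists_conj_ctx {V : Subgroup G} (hV : ∀ x ∈ V, x * x = 1) (hc : Nat.card V = 2 ^ 11) :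
    ∃ g, (c.conj g).z ∈ V := by
  obtain ⟨z', hz', hcj⟩ := c.exists_conj_mem hV hc
  obtain ⟨g, rfl⟩ := c.exists_conj_z hcj
  exact ⟨g, hz'⟩

end CfsgLib.Jf18.Ctx
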