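import Cfsg.Agent.J4Type5.CentFrame

/-!
The centraliser of a member of the second class of the elementary group `A` of order `2 ^ 11`
normalises `A`.
-/

set_option autoImplicit false

namespace CfsgLib.J4Type5

open Cfsg Finset CfsgLib.LargeFischer45
open CfsgLib.LocalP (isElementaryAbelian_iff isPGroup_of_isElementaryAbelian)

section Dihedral

variable {G : Type*} [Group G]

theorem cent_dihedral_step (a b : G) (ha : a * a = 1) (hb : b * b = 1) (m : ℕ) :
    ∃ h ∈ Subgroup.closure ({a, b} : Set G),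
      a * (a * b) ^ m = h * a * h⁻¹ ∨ a * (a * b) ^ m = h * b * h⁻¹ := by
  have hai : a⁻¹ = a := inv_eq_of_mul_eq_one_right ha
  have hbi : b⁻¹ = b := inv_eq_of_mul_eq_one_right hb
  have hr : a * b ∈ Subgroup.closure ({a, b} : Set G) :=
    mul_mem (Subgroup.subset_closure (by simp)) (Subgroup.subset_closure (by simp))
  set r := a * b with hrdef
  have har : a * r = r⁻¹ * a := by
    rw [hrdef, mul_inv_rev, hai, hbi, mul_assoc b a a, ha, mul_one, ← mul_assoc, ha, one_mul]
  have hal : ∀ l : ℕ, (r ^ l)⁻¹ * a * r ^ l = a * r ^ (2 * l) := by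
    intro l
    have hsc : SemiconjBy a r r⁻¹ := har
    have := (hsc.pow_right l).eq
    rw [inv_pow] at this
    rw [← this, mul_assoc, ← pow_add, two_mul]
  rcases Nat.even_or_odd' m with ⟨l, rfl | rfl⟩
  · exact ⟨(r ^ l)⁻¹, inv_mem (pow_mem hr l), Or.inl (by rw [inv_inv, hal])⟩
  · refine ⟨(r ^ l)⁻¹, inv_mem (pow_mem hr l), Or.inr ?_⟩
    have hb' : b = a * r := by rw [hrdef, ← mul_assoc, ha, one_mul]
    have key : ∀ x y w v : G, Commute w v → x * (y * w) * v = x * y * v * w := fun x y w v h => by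
      rw [← mul_assoc, mul_assoc _ w, h.eq, ← mul_assoc]
    rw [inv_inv, hb', key _ _ _ _ (Commute.self_pow r l), hal, pow_succ, mul_assoc]

theorem cent_conj_comm {g t v : G} (hgt : g * t = t * g) (h : v * t = t * v) :
    g * v * g⁻¹ * t = t * (g * v * g⁻¹) :=
  (((show Commute g t from hgt).mul_left (show Commute v t from h)).mul_left
    (show Commute g t from hgt).inv_left).eq

/-- Two involutions that are not conjugate in a subgroup. -/
theorem cent_dihedral [Finite G] (K : Subgroup G) {a b : G} (haK : a ∈ K) (hbK : b ∈ K)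
    (ha : a * a = 1) (hb : b * b = 1) (hnc : ∀ h ∈ K, h * a * h⁻¹ ≠ b) :
    ∃ c ∈ K, c ≠ 1 ∧ c * a = a * c ∧ c * b = b * c ∧
      (∃ h ∈ K, a * c = h * a * h⁻¹ ∨ a * c = h * b * h⁻¹) ∧
      (∃ h ∈ K, b * c = h * a * h⁻¹ ∨ b * c = h * b * h⁻¹) := by
  have hcl : Subgroup.closure ({a, b} : Set G) ≤ K := by
    rw [Subgroup.closure_le]
    rintro x (rfl | rfl)
    exacts [haK, hbK]
  have hai : a⁻¹ = a := inv_eq_of_mul_eq_one_right ha
  have hbi : b⁻¹ = b := inv_eq_of_mul_eq_one_right hb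
  set r := a * b with hrdef
  have hrK : r ∈ K := mul_mem haK hbK
  have har : SemiconjBy a r r⁻¹ := by
    show a * r = r⁻¹ * a
    rw [hrdef, mul_inv_rev, hai, hbi, mul_assoc b a a, ha, mul_one, ← mul_assoc, ha, one_mul]
  have hbr : SemiconjBy b r r⁻¹ := by
    show b * r = r⁻¹ * b
    rw [hrdef, mul_inv_rev, hai, hbi, mul_assoc b a b]
  rcases Nat.even_or_odd' (orderOf r) with ⟨k, hk | hk⟩
  · have hpos := orderOf_pos r
    have hc1 : r ^ k ≠ 1 := fun e => by
      have := orderOf_le_of_pow_eq_one (by omega) e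
      omega
    have hinv : (r ^ k)⁻¹ = r ^ k := inv_eq_of_mul_eq_one_right (by
      rw [← pow_add, ← two_mul, ← hk, pow_orderOf_eq_one])
    have hca : ∀ {y : G}, SemiconjBy y r r⁻¹ → r ^ k * y = y * r ^ k := by
      intro y hy
      have := (hy.pow_right k).eq
      rw [inv_pow, hinv] at this
      exact this.symm
    refine ⟨r ^ k, pow_mem hrK k, hc1, hca har, hca hbr, ?_, ?_⟩
    · obtain ⟨h, hh, e⟩ := cent_dihedral_step a b ha hb k
      exact ⟨h, hcl hh, e⟩
    · obtain ⟨h, hh, e⟩ := cent_dihedral_step a b ha hb (k + 1)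
      refine ⟨h, hcl hh, ?_⟩
      have : b * r ^ k = a * r ^ (k + 1) := by
        rw [pow_succ', hrdef, ← mul_assoc a, ← mul_assoc a, ha, one_mul]
      rw [this]
      exact e
  · exfalso
    refine hnc (r ^ k) (pow_mem hrK k) ?_
    have h1 := (har.pow_right k).eq
    rw [inv_pow] at h1
    have h2 : a * (r ^ k)⁻¹ = r ^ k * a := by
      have := congrArg (fun y => r ^ k * y * (r ^ k)⁻¹) h1
      simpa [mul_assoc] using this.symm
    have h3 : r ^ (2 * k) = r⁻¹ :=
      eq_inv_of_mul_eq_one_left (by rw [← pow_succ, ← hk, pow_orderOf_eq_one])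
    rw [mul_assoc, h2, ← mul_assoc, ← pow_add, ← two_mul, h3, hrdef, mul_inv_rev, hai, hbi,
      mul_assoc, ha, mul_one]

end Dihedral

variable {G : Type*} [Group G] [Finite G] {z : G} {Q A : Subgroup G}

theorem cent_card_mul_relIndex {H K : Subgroup G} (h : H ≤ K) :
    Nat.card H * H.relIndex K = Nat.card K := by
  rw [← Subgroup.relIndex_bot_left, ← Subgroup.relIndex_bot_left]
  exact Subgroup.relIndex_mul_relIndex _ _ _ bot_le h

/-- The only elementary subgroup of order `2 ^ 11` of the normalizer. -/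
theorem cent_eq_of_le_normalizer (L : LargeFischer45.Local z Q A) {B : Subgroup G}
    (hBe : IsElementaryAbelian 2 B) (hBc : Nat.card B = 2 ^ 11)
    (hB : B ≤ Subgroup.normalizer (A : Set G)) : B = A := by
  obtain ⟨P, hP⟩ := ((isPGroup_of_isElementaryAbelian hBe).to_sup_of_normal_right'
    (isPGroup_of_isElementaryAbelian L.top.elem) hB).exists_le_sylow
  exact (L.top.unique (le_sup_right.trans hP) (le_sup_left.trans hP) hBe).2 hBc

/-- Commuting with a member of the first class inside the centraliser. -/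
theorem cent_mem_normalizer (L : LargeFischer45.Local z Q A)
    (hH : ∀ a ∈ A, a ≠ 1 → ¬ IsConj z a → ∀ h : G, h * z = z * h → h * a = a * h →
      h ∈ Subgroup.normalizer (A : Set G))
    {t : G} (ht : t ∈ A) (ht1 : t ≠ 1) (htz : ¬ IsConj z t)
    {s h : G} (hs : s ∈ A) (hsz : IsConj z s) (hht : h * t = t * h) (hhs : h * s = s * h) :
    h ∈ Subgroup.normalizer (A : Set G) := by
  obtain ⟨m, hm, rfl⟩ := L.exists_move (mem_sel.2 ⟨hs, hsz⟩)
  have h1 : m⁻¹ * h * m ∈ Subgroup.normalizer (A : Set G) := by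
    refine hH (m⁻¹ * t * m) (by simpa using conj_mem_of_mem (inv_mem hm) ht) (fun e => ht1 ?_)
      (fun e => htz ?_) _ ?_ ?_
    · simpa [mul_assoc] using congrArg (fun y => m * y * m⁻¹) e
    · exact (isConj_iff_right m⁻¹).1 (by simpa using e)
    · simpa [mul_assoc] using congrArg (fun y => m⁻¹ * y * m) hhs
    · simpa [mul_assoc] using congrArg (fun y => m⁻¹ * y * m) hht
  have h2 := mul_mem (mul_mem hm h1) (inv_mem hm)
  simpa [mul_assoc] using h2

/-- An involution normalizing the elementary group centralises more than eight members. -/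
theorem cent_fixed_gt_eight (L : LargeFischer45.Local z Q A) {y : G}
    (hy : y ∈ Subgroup.normalizer (A : Set G)) (hy2 : y * y = 1) :
    8 < Nat.card ↥(A ⊓ Subgroup.centralizer ({y} : Set G)) := by
  have hyi : y⁻¹ = y := inv_eq_of_mul_eq_one_right hy2
  have hc : ∀ a : ↥A, y * (a : G) * y⁻¹ ∈ A := fun a => conj_mem_of_mem hy a.2
  let f : ↥A →* ↥A := MonoidHom.mk' (fun a => a * ⟨y * (a : G) * y⁻¹, hc a⟩) fun a b => by
    apply Subtype.ext
    have e := L.comm (hc a) b.2
    simp only [Subgroup.coe_mul]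
    rw [show y * ((a : G) * b) * y⁻¹ = y * (a : G) * y⁻¹ * (y * (b : G) * y⁻¹) by group]
    calc (a : G) * b * (y * a * y⁻¹ * (y * b * y⁻¹))
        = a * (b * (y * a * y⁻¹)) * (y * b * y⁻¹) := by simp only [mul_assoc]
      _ = a * (y * a * y⁻¹ * b) * (y * b * y⁻¹) := by rw [← e]
      _ = a * (y * a * y⁻¹) * (b * (y * b * y⁻¹)) := by simp only [mul_assoc]
  have hcard := f.ker.card_mul_index
  rw [Subgroup.index_ker, L.top.card] at hcard
  have hker : Nat.card f.ker ≤ Nat.card ↥(A ⊓ Subgroup.centralizer ({y} : Set G)) := by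
    refine Nat.card_le_card_of_injective (fun a => ⟨((a : ↥A) : G), Subgroup.mem_inf.2 ⟨a.1.2, ?_⟩⟩) ?_
    · have e : ((a : ↥A) : G) * (y * (a : ↥A) * y⁻¹) = 1 := congrArg Subtype.val a.2
      have e' : y * ((a : ↥A) : G) * y⁻¹ = ((a : ↥A) : G) := by
        have := congrArg (((a : ↥A) : G) * ·) e
        simpa [← mul_assoc, L.sq a.1.2] using this
      exact Subgroup.mem_centralizer_singleton_iff.2 (mul_inv_eq_iff_eq_mul.1 e').symm
    · intro a b e
      exact Subtype.ext (Subtype.ext (congrArg Subtype.val e :))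
  have hran : Nat.card f.range ≤ Nat.card f.ker := by
    refine Subgroup.card_le_of_le ?_
    rintro _ ⟨a, rfl⟩
    apply Subtype.ext
    show (a : G) * (y * (a : G) * y⁻¹) * (y * ((a : G) * (y * (a : G) * y⁻¹)) * y⁻¹) = 1
    have e := L.comm a.2 (hc a)
    have e2 : y * ((a : G) * (y * (a : G) * y⁻¹)) * y⁻¹ = y * (a : G) * y⁻¹ * (a : G) := by
      rw [hyi]
      calc y * ((a : G) * (y * a * y)) * y = y * a * y * a * (y * y) := by simp only [mul_assoc]
        _ = _ := by rw [hy2, mul_one]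
    rw [e2, ← e, L.sq (mul_mem a.2 (hc a))]
  by_contra hlt
  push Not at hlt
  have : Nat.card f.ker * Nat.card f.range ≤ 8 * 8 :=
    Nat.mul_le_mul (hker.trans hlt) (hran.trans (hker.trans hlt))
  omega

section Main

variable (L : LargeFischer45.Local z Q A) (hC : Subgroup.centralizer (A : Set G) ≤ A)
  (hH : ∀ a ∈ A, a ≠ 1 → ¬ IsConj z a → ∀ h : G, h * z = z * h → h * a = a * h →
    h ∈ Subgroup.normalizer (A : Set G))
  {t : G} (ht : t ∈ A) (ht1 : t ≠ 1) (htz : ¬ IsConj z t)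

include L hH ht ht1 htz in
theorem cent_inter_no_conj {g : G} (hgt : g * t = t * g)
    (hgN : g ∉ Subgroup.normalizer (A : Set G)) {b : G} (hb : b ∈ A) (hb' : g⁻¹ * b * g ∈ A) :
    ¬ IsConj z b := by
  intro hbz
  have hV : A.map (MulAut.conj g).toMonoidHom = A := by
    refine cent_eq_of_le_normalizer L (L.top.conj g).elem (L.top.conj g).card ?_
    rintro _ ⟨a, ha, rfl⟩
    refine cent_mem_normalizer L hH ht ht1 htz hb hbz ?_ ?_
    · simpa using cent_conj_comm hgt (L.comm ha ht)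
    · have := congrArg (fun y => g * y * g⁻¹) (L.comm ha hb')
      simpa [mul_assoc] using this
  exact hgN (Subgroup.mem_normalizer_iff_map_conj_eq.2 hV)

include L hH ht ht1 htz in
theorem cent_exists_span {g : G} (hgt : g * t = t * g)
    (hgN : g ∉ Subgroup.normalizer (A : Set G)) :
    ∃ i, (i = 1 ∨ (i ∈ dSet z Q A ∧ t * i ∈ dSet z Q A)) ∧ i ∈ A ∧ g⁻¹ * i * g ∈ A ∧
      (∀ b ∈ A, g⁻¹ * b * g ∈ A → b = 1 ∨ b = t ∨ b = i ∨ b = t * i) ∧
      Nat.card ↥(A ⊓ A.comap (MulAut.conj g⁻¹).toMonoidHom) ≤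
        4 ∧
      (i = 1 → Nat.card ↥(A ⊓ A.comap (MulAut.conj g⁻¹).toMonoidHom) ≤ 2) := by
  classical
  set B := A ⊓ A.comap (MulAut.conj g⁻¹).toMonoidHom with hBdef
  have hmemB : ∀ b, b ∈ B ↔ b ∈ A ∧ g⁻¹ * b * g ∈ A := by intro b; simp [hBdef]
  have hno : ∀ b ∈ B, ¬ IsConj z b := fun b hb =>
    cent_inter_no_conj L hH ht ht1 htz hgt hgN ((hmemB b).1 hb).1 ((hmemB b).1 hb).2
  have h4 := CentFrame.card_le_four L B inf_le_left hno
  haveI := Fintype.ofFinite G
  set S := (Finset.univ : Finset G).filter fun b => b ∈ B with hS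
  have hScard : S.card = Nat.card B := by
    rw [Nat.card_eq_fintype_card]
    exact (Fintype.card_of_subtype S (by simp [hS])).symm
  have htB : t ∈ B := (hmemB t).2 ⟨ht, by rwa [mul_assoc, ← hgt, inv_mul_cancel_left]⟩
  by_cases hall : ∀ b ∈ B, b = 1 ∨ b = t
  · refine ⟨1, Or.inl rfl, one_mem _, by simp, fun b hb hb' => ?_, ?_⟩
    · rcases hall b ((hmemB b).2 ⟨hb, hb'⟩) with e | e
      exacts [Or.inl e, Or.inr (Or.inl e)]
    · refine ⟨h4, fun _ => ?_⟩
      rw [← hScard]
      refine (card_le_card (t := ({1, t} : Finset G)) fun b hb => ?_).trans card_le_two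
      rcases hall b (mem_filter.1 hb).2 with e | e <;> simp [e]
  push Not at hall
  obtain ⟨i, hiB, hi1, hit⟩ := hall
  obtain ⟨hiA, hiA'⟩ := (hmemB i).1 hiB
  have hti : t * i ≠ 1 := fun e => hit (by
    have := congrArg (t * ·) e
    simpa [← mul_assoc, L.sq ht] using this)
  refine ⟨i, Or.inr ⟨(CentFrame.not_conj_iff L hiA hi1).1 (hno i hiB),
    (CentFrame.not_conj_iff L (mul_mem ht hiA) hti).1 (hno _ (mul_mem htB hiB))⟩, hiA, hiA',
    fun b hb hb' => ?_, h4, fun e => absurd e hi1⟩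
  have hsub : ({1, t, i, t * i} : Finset G) ⊆ S := by
    intro x hx
    simp only [Finset.mem_insert, Finset.mem_singleton] at hx
    rcases hx with rfl | rfl | rfl | rfl
    exacts [by simp [hS], by simp [hS, htB], by simp [hS, hiB], by simp [hS, mul_mem htB hiB]]
  have hc : ({1, t, i, t * i} : Finset G).card = 4 := by
    rw [card_insert_of_notMem, card_insert_of_notMem, card_insert_of_notMem, card_singleton]
    · simp [ht1]
    · simp [Ne.symm hit, hi1]
    · simp [Ne.symm ht1, Ne.symm hi1, Ne.symm hti]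
  have : b ∈ ({1, t, i, t * i} : Finset G) := by
    rw [eq_of_subset_of_card_le hsub (by rw [hc, hScard]; exact h4)]
    exact mem_filter.2 ⟨mem_univ _, (hmemB b).2 ⟨hb, hb'⟩⟩
  simpa using this

include L hC hH ht ht1 htz in
theorem cent_no_out {s g : G} (hs : s ∈ A) (hsz : IsConj z s) (hgt : g * t = t * g)
    (hu : g * s * g⁻¹ ∈ Subgroup.normalizer (A : Set G)) : g * s * g⁻¹ ∈ A := by
  classical
  by_contra huA
  have hgN : g ∉ Subgroup.normalizer (A : Set G) := fun h => huA (conj_mem_of_mem h hs)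
  set N := Subgroup.normalizer (A : Set G) with hN
  set u := g * s * g⁻¹ with hudef
  set φ := (MulAut.conj g⁻¹).toMonoidHom with hφ
  have hφ_apply : ∀ x, φ x = g⁻¹ * x * g := fun x => by simp [hφ]
  have hgit : g⁻¹ * t * g = t := by rw [mul_assoc, ← hgt, inv_mul_cancel_left]
  obtain ⟨i, hi, hiA, hiA', hspan, hB4, hB2⟩ := cent_exists_span L hH ht ht1 htz hgt hgN
  set X := A ⊓ N.comap φ with hX
  set Y := N ⊓ A.comap φ with hY
  have hmemX : ∀ x, x ∈ X ↔ x ∈ A ∧ g⁻¹ * x * g ∈ N := by intro x; simp [hX, hφ]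
  have hmemY : ∀ x, x ∈ Y ↔ x ∈ N ∧ g⁻¹ * x * g ∈ A := by intro x; simp [hY, hφ]
  have hYt : ∀ y ∈ Y, y * t = t * y := by
    intro y hy
    simpa [mul_assoc] using cent_conj_comm hgt (L.comm ((hmemY y).1 hy).2 ht)
  have hYi : ∀ y ∈ Y, y * i = i * y := by
    intro y hy
    have := congrArg (fun v => g * v * g⁻¹) (L.comm ((hmemY y).1 hy).2 hiA')
    simpa [mul_assoc] using this
  have hY2 : ∀ y ∈ Y, y * y = 1 := by
    intro y hy
    have := congrArg (fun v => g * v * g⁻¹) (L.sq ((hmemY y).1 hy).2)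
    simpa [mul_assoc] using this
  -- conjugates of `z` in `Y` centralise members only in `X`
  have hcX : ∀ y, g⁻¹ * y * g ∈ A → IsConj z y →
      A ⊓ Subgroup.centralizer ({y} : Set G) ≤ X := by
    intro y hy hyz a ha
    obtain ⟨haA, hay⟩ := Subgroup.mem_inf.1 ha
    refine (hmemX a).2 ⟨haA, cent_mem_normalizer L hH ht ht1 htz hy
      ((isConj_iff_right g⁻¹).2 hyz |> fun e => by simpa using e) ?_ ?_⟩
    · have := congrArg (fun v => g⁻¹ * v * g) (L.comm haA ht)
      nth_rewrite 1 [← hgit]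
      nth_rewrite 2 [← hgit]
      simpa [mul_assoc] using this
    · have := congrArg (fun v => g⁻¹ * v * g) (Subgroup.mem_centralizer_singleton_iff.1 hay)
      simpa [mul_assoc] using this
  have hXbig : 8 < Nat.card X := by
    refine lt_of_lt_of_le (cent_fixed_gt_eight L hu ?_) (Subgroup.card_le_of_le
      (hcX u (by simpa [hudef, mul_assoc] using hs) ((isConj_iff_right g).2 hsz)))
    show g * s * g⁻¹ * (g * s * g⁻¹) = 1
    rw [conj_mul, L.sq hs, mul_one, mul_inv_cancel]
  obtain ⟨s', hs'X, hs'z⟩ : ∃ s' ∈ X, IsConj z s' := by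
    by_contra hno
    push Not at hno
    have := CentFrame.card_le_four L X inf_le_left hno
    omega
  have hYbig : 8 < Nat.card Y := by
    obtain ⟨hs'A, hs'N⟩ := (hmemX s').1 hs'X
    have h2 : g⁻¹ * s' * g * (g⁻¹ * s' * g) = 1 := by
      rw [show g⁻¹ * s' * g * (g⁻¹ * s' * g) = g⁻¹ * (s' * s') * g by group, L.sq hs'A, mul_one,
        inv_mul_cancel]
    refine lt_of_lt_of_le (cent_fixed_gt_eight L hs'N h2) ?_
    refine Nat.card_le_card_of_injective (fun a => ⟨g * (a : G) * g⁻¹, (hmemY _).2 ⟨?_, ?_⟩⟩) ?_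
    · obtain ⟨haA, hac⟩ := Subgroup.mem_inf.1 a.2
      refine cent_mem_normalizer L hH ht ht1 htz hs'A hs'z ?_ ?_
      · exact cent_conj_comm hgt (L.comm haA ht)
      · have := congrArg (fun v => g * v * g⁻¹) (Subgroup.mem_centralizer_singleton_iff.1 hac)
        simpa [mul_assoc] using this
    · simp [mul_assoc, (Subgroup.mem_inf.1 a.2).1]
    · intro a b e
      have := congrArg Subtype.val e
      exact Subtype.ext (by simpa using this)
  -- the image of `X` in the other normalizer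
  have hXcard : Nat.card X ≤ 64 := by
    have hinj : Function.Injective φ := (MulAut.conj g⁻¹).injective
    set X' := X.map φ with hX'
    have hX'c : Nat.card X' = Nat.card X := Subgroup.card_map_of_injective hinj
    have hX'p : ∀ x ∈ X', x ∈ N ∧ x * t = t * x ∧ x * (g⁻¹ * i * g) = g⁻¹ * i * g * x ∧
        x * x = 1 := by
      rintro _ ⟨x, hx, rfl⟩
      obtain ⟨hxA, hxN⟩ := (hmemX x).1 hx
      refine ⟨by rw [hφ_apply]; exact hxN, ?_, ?_, ?_⟩
      · rw [← hgit, ← hφ_apply, ← map_mul, ← map_mul, L.comm hxA ht]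
      · rw [← hφ_apply, ← map_mul, ← map_mul, L.comm hxA hiA]
      · rw [← map_mul, L.sq hxA, map_one]
    have hXA : Nat.card ↥(X' ⊓ A) ≤ Nat.card ↥(A ⊓ A.comap φ) := by
      refine le_trans (Subgroup.card_le_of_le ?_)
        (Subgroup.card_map_of_injective hinj (K := A ⊓ A.comap φ)).le
      rintro _ ⟨⟨x, hx, rfl⟩, hxA⟩
      exact ⟨x, ⟨((hmemX x).1 hx).1, hxA⟩, rfl⟩
    have htD : t ∈ dSet z Q A := (CentFrame.not_conj_iff L ht ht1).1 htz
    by_cases hi1 : i = 1
    · obtain ⟨F, hidx, -, hele, -⟩ := CentFrame.exists_point L hC (i := 1) htD (Or.inl rfl)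
      have h16 := (hele (X' ⊓ F) inf_le_right fun x hx => (hX'p x hx.1).2.2.2).trans
        (Nat.mul_le_mul_left 16 ((Subgroup.card_le_of_le (inf_le_inf_right _ inf_le_left)).trans
          (hXA.trans (hB2 hi1))))
      have h2 : (X' ⊓ F).relIndex X' ≤ 2 := by
        rw [Subgroup.inf_relIndex_left]
        by_cases hle : X' ≤ F
        · rw [Subgroup.relIndex_eq_one.2 hle]; norm_num
        obtain ⟨x, hx, hxF⟩ := SetLike.not_le_iff_exists.1 hle
        refine (Subgroup.index_eq_two_iff'.2 ⟨⟨x, hx⟩, fun y => ?_⟩).le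
        rw [Subgroup.mem_subgroupOf, Subgroup.mem_subgroupOf, Subgroup.coe_mul]
        by_cases hyF : (y : G) ∈ F
        · exact Or.inr ⟨hyF, fun hh => hxF ((Subgroup.mul_mem_cancel_right F hyF).1 hh)⟩
        · refine Or.inl ⟨?_, hyF⟩
          have := hidx _ (hX'p x hx).1 _ (hX'p y y.2).1 (hX'p x hx).2.1 (hX'p y y.2).2.1 hxF hyF
          rwa [inv_eq_of_mul_eq_one_right (hX'p x hx).2.2.2] at this
      have := cent_card_mul_relIndex (inf_le_left : X' ⊓ F ≤ X')
      rw [← hX'c, ← this]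
      exact (Nat.mul_le_mul h16 h2).trans (by norm_num)
    · set i' := g⁻¹ * i * g with hi'
      have hi'1 : i' ≠ 1 := fun e => hi1 (by
        have := congrArg (fun v => g * v * g⁻¹) e
        simpa [hi', mul_assoc] using this)
      have hd : ∀ b ∈ A, g⁻¹ * b * g ∈ A → b ≠ 1 → g⁻¹ * b * g ∈ dSet z Q A := by
        intro b hb hb' hb1
        refine (CentFrame.not_conj_iff L hb' fun e => hb1 ?_).1 fun e => ?_
        · have := congrArg (fun v => g * v * g⁻¹) e
          simpa [mul_assoc] using this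
        · exact cent_inter_no_conj L hH ht ht1 htz hgt hgN hb hb'
            ((isConj_iff_right g⁻¹).1 (by simpa using e))
      have hti : g⁻¹ * (t * i) * g = t * i' := by
        rw [hi', show g⁻¹ * (t * i) * g = g⁻¹ * t * g * (g⁻¹ * i * g) by group, hgit]
      have hi'' : i' ∈ dSet z Q A ∧ t * i' ∈ dSet z Q A := by
        obtain ⟨hiD, htiD⟩ := hi.resolve_left hi1
        refine ⟨hd i hiA hiA' hi1, hti ▸ hd _ (mul_mem ht hiA) ?_ (mem_sel.1 htiD).2.1.1⟩
        rw [hti]
        exact mul_mem ht hiA'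
      obtain ⟨F, -, -, hele, hfix⟩ := CentFrame.exists_point L hC htD (Or.inr hi'')
      have hle : X' ≤ F := fun x hx => hfix hi'1 x (hX'p x hx).1 (hX'p x hx).2.1 (hX'p x hx).2.2.1
      rw [← hX'c]
      exact (hele X' hle fun x hx => (hX'p x hx).2.2.2).trans
        ((Nat.mul_le_mul_left 16 (hXA.trans hB4)))
  -- `Y` is small
  obtain ⟨F, hidx, hfix, -, -⟩ := CentFrame.exists_point L hC (i := 1)
    ((CentFrame.not_conj_iff L ht ht1).1 htz) (Or.inl rfl)
  have hY1 : Nat.card ↥(Y ⊓ F) ≤ 4 := by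
    have hinj : Function.Injective φ := (MulAut.conj g⁻¹).injective
    rw [← Subgroup.card_map_of_injective hinj]
    refine CentFrame.card_le_four L _ ?_ ?_
    · rintro _ ⟨y, hy, rfl⟩
      exact hy.1.2
    · rintro _ ⟨y, hy, rfl⟩ hc
      have hyz : IsConj z y := (isConj_iff_right g⁻¹).1 (by simpa [hφ] using hc)
      obtain ⟨hyN, hyA'⟩ := (hmemY y).1 hy.1
      have hyA : y ∉ A := fun hyA => cent_inter_no_conj L hH ht ht1 htz hgt hgN hyA hyA' hyz
      have h1 := hfix y hy.2 hyA (hY2 y hy.1)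
      have h2 := Subgroup.card_le_of_le (hcX y hyA' hyz)
      omega
  have h2 : (Y ⊓ F).relIndex Y ≤ 2 := by
    rw [Subgroup.inf_relIndex_left]
    by_cases hle : Y ≤ F
    · rw [Subgroup.relIndex_eq_one.2 hle]; norm_num
    obtain ⟨x, hx, hxF⟩ := SetLike.not_le_iff_exists.1 hle
    refine (Subgroup.index_eq_two_iff'.2 ⟨⟨x, hx⟩, fun y => ?_⟩).le
    rw [Subgroup.mem_subgroupOf, Subgroup.mem_subgroupOf, Subgroup.coe_mul]
    by_cases hyF : (y : G) ∈ F
    · exact Or.inr ⟨hyF, fun hh => hxF ((Subgroup.mul_mem_cancel_right F hyF).1 hh)⟩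
    · refine Or.inl ⟨?_, hyF⟩
      have := hidx _ ((hmemY x).1 hx).1 _ ((hmemY y).1 y.2).1 (hYt x hx) (hYt y y.2) hxF hyF
      rwa [inv_eq_of_mul_eq_one_right (hY2 x hx)] at this
  have h3 := cent_card_mul_relIndex (inf_le_left : Y ⊓ F ≤ Y)
  have h4 := Nat.mul_le_mul hY1 h2
  omega

end Main

/-- The centraliser of a member of the second class normalizes `A`. -/
theorem centralizer_le_normalizer {G : Type*} [Group G] [Finite G] {z : G} {Q A : Subgroup G}
    (L : LargeFischer45.Local z Q A) (hC : Subgroup.centralizer (A : Set G) ≤ A)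
    (_hS : ∀ P : Sylow 2 G, Nat.card ↥(P : Subgroup G) = 2 ^ 21)
    (T : Sylow 2 G) (_hAT : A ≤ (T : Subgroup G))
    (_hTz : ∀ x ∈ (T : Subgroup G), x * z = z * x)
    (hH : ∀ a ∈ A, a ≠ 1 → ¬ IsConj z a → ∀ h : G, h * z = z * h → h * a = a * h →
      h ∈ Subgroup.normalizer (A : Set G))
    {t : G} (ht : t ∈ A) (ht1 : t ≠ 1) (htz : ¬ IsConj z t) :
    Subgroup.centralizer ({t} : Set G) ≤ Subgroup.normalizer (A : Set G) := by
  classical
  intro g hg
  by_contra hgN
  set K := Subgroup.centralizer ({t} : Set G) with hK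
  set N := Subgroup.normalizer (A : Set G) with hN
  have hmemK : ∀ x, x ∈ K ↔ x * t = t * x := fun x => Subgroup.mem_centralizer_singleton_iff
  have hgt := (hmemK g).1 hg
  have hgit : g⁻¹ * t * g = t := by rw [mul_assoc, ← hgt, inv_mul_cancel_left]
  have hgt' : g * t * g⁻¹ = t := mul_inv_eq_iff_eq_mul.2 hgt
  have htD := (CentFrame.not_conj_iff L ht ht1).1 htz
  obtain ⟨i, hi, hiA, hiA', hspan, -, -⟩ := cent_exists_span L hH ht ht1 htz hgt hgN
  obtain ⟨s, hs, hsz, hsb⟩ := CentFrame.exists_mover L htD hi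
  -- a second member, with a product again in the first class
  obtain ⟨s1, hs1, hs1z, hs1t⟩ : ∃ s1 ∈ A, IsConj z s1 ∧ IsConj z (s1 * t) := by
    by_contra hno
    push Not at hno
    obtain ⟨hZ, hD, hall⟩ := L.card_sets
    have hle : (zSet z A).card ≤ (dSet z Q A).card := by
      refine card_le_card_of_injOn (· * t) (fun a ha => ?_) fun a _ b _ e => mul_right_cancel e
      obtain ⟨haA, haz⟩ := mem_sel.1 ha
      refine hall _ (mul_mem haA ht) (fun e => htz ?_) (hno a haA haz)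
      have : a = t := by
        have := congrArg (· * t) e
        simpa [mul_assoc, L.sq ht] using this
      exact this ▸ haz
    omega
  set u := g * s1 * g⁻¹ with hudef
  have huz : IsConj z u := (isConj_iff_right g).2 hs1z
  have huA' : g⁻¹ * u * g ∈ A := by simpa [hudef, mul_assoc] using hs1
  have huN : u ∉ N := fun hu => cent_inter_no_conj L hH ht ht1 htz hgt hgN
    (cent_no_out L hC hH ht ht1 htz hs1 hs1z hgt hu) huA' huz
  have huK : u ∈ K := (hmemK u).2 (cent_conj_comm hgt (L.comm hs1 ht))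
  have hsK : s ∈ K := (hmemK s).2 (L.comm hs ht)
  have hnc : ∀ h ∈ K, h * s * h⁻¹ ≠ u := by
    intro h hh e
    refine hsb t (Or.inl rfl) ht1 ((isConj_iff_right h).1 ?_)
    have e1 : h * t * h⁻¹ = t := mul_inv_eq_iff_eq_mul.2 ((hmemK h).1 hh)
    have e2 : h * (s * t) * h⁻¹ = g * (s1 * t) * g⁻¹ := by
      rw [← conj_mul, ← conj_mul, e, e1, hgt']
    rw [e2]
    exact (isConj_iff_right g).2 hs1t
  have hu2 : u * u = 1 := by rw [hudef, conj_mul, L.sq hs1, mul_one, mul_inv_cancel]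
  obtain ⟨c, hcK, hc1, hcs, hcu, hsc, huc⟩ := cent_dihedral K hsK huK (L.sq hs) hu2 hnc
  have hct := (hmemK c).1 hcK
  -- conjugates in `K` of `s` or `u` that lie in `N(A)` lie in `A`
  have hout : ∀ h ∈ K, ∀ v, v = s ∨ v = u → h * v * h⁻¹ ∈ N → h * v * h⁻¹ ∈ A := by
    intro h hh v hv hN'
    have hht := (hmemK h).1 hh
    rcases hv with rfl | rfl
    · exact cent_no_out L hC hH ht ht1 htz hs hsz hht hN'
    · have e : h * (g * s1 * g⁻¹) * h⁻¹ = h * g * s1 * (h * g)⁻¹ := by group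
      rw [e] at hN' ⊢
      exact cent_no_out L hC hH ht ht1 htz hs1 hs1z ((hmemK _).1 (mul_mem hh hg)) hN'
  -- `c` lies in `A`
  have hscN : s * c ∈ N := mul_mem (Subgroup.le_normalizer hs)
    (cent_mem_normalizer L hH ht ht1 htz hs hsz hct hcs)
  obtain ⟨h1, hh1, e1⟩ := hsc
  have hscz : IsConj z (s * c) := by
    rcases e1 with e | e <;> rw [e]
    exacts [(isConj_iff_right h1).2 hsz, (isConj_iff_right h1).2 huz]
  have hscA : s * c ∈ A := by
    rcases e1 with e | e <;> rw [e] at hscN ⊢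
    exacts [hout h1 hh1 s (Or.inl rfl) hscN, hout h1 hh1 u (Or.inr rfl) hscN]
  have hcA : c ∈ A := by
    have := mul_mem hs hscA
    rwa [← mul_assoc, L.sq hs, one_mul] at this
  -- `c` lies in the conjugate
  have hcA' : g⁻¹ * c * g ∈ A := by
    have hcN' : g⁻¹ * c * g ∈ N := by
      refine cent_mem_normalizer L hH ht ht1 htz hs1 hs1z ?_ ?_
      · have := congrArg (fun v => g⁻¹ * v * g) hct
        nth_rewrite 1 [← hgit]
        nth_rewrite 2 [← hgit]
        simpa [mul_assoc] using this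
      · have := congrArg (fun v => g⁻¹ * v * g) hcu
        simpa [hudef, mul_assoc] using this
    have hN' : g⁻¹ * (u * c) * g ∈ N := by
      rw [show g⁻¹ * (u * c) * g = g⁻¹ * u * g * (g⁻¹ * c * g) by group]
      exact mul_mem (Subgroup.le_normalizer huA') hcN'
    obtain ⟨h2, hh2, e2⟩ := huc
    have hin : g⁻¹ * (u * c) * g ∈ A := by
      rcases e2 with e | e <;> rw [e] at hN' ⊢
      · rw [show g⁻¹ * (h2 * s * h2⁻¹) * g = g⁻¹ * h2 * s * (g⁻¹ * h2)⁻¹ by group] at hN' ⊢
        exact hout _ (mul_mem (inv_mem hg) hh2) s (Or.inl rfl) hN'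
      · rw [show g⁻¹ * (h2 * u * h2⁻¹) * g = g⁻¹ * h2 * u * (g⁻¹ * h2)⁻¹ by group] at hN' ⊢
        exact hout _ (mul_mem (inv_mem hg) hh2) u (Or.inr rfl) hN'
    rw [show g⁻¹ * (u * c) * g = g⁻¹ * u * g * (g⁻¹ * c * g) by group] at hin
    exact (Subgroup.mul_mem_cancel_left A huA').1 hin
  rcases hspan c hcA hcA' with e | e | e | e
  · exact hc1 e
  · exact hsb c (Or.inl e) hc1 hscz
  · exact hsb c (Or.inr (Or.inl e)) hc1 hscz
  · exact hsb c (Or.inr (Or.inr e)) hc1 hscz

end CfsgLib.J4Type5
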