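import Cfsg.Agent.Jf18.Orbits

/-!
An elementary abelian subgroup `V` of order `2 ^ 11` in the centraliser of `z`: the orbits of its
normaliser on the members outside the extraspecial group have sizes divisible by 240.
-/

set_option autoImplicit false
set_option linter.unusedSectionVars false

namespace CfsgLib.J4Type5.OutOrb

open CfsgLib.J4Type67 CfsgLib.Jf18

universe u

variable {H : Type u} [Group H] [Finite H] {d : Setup H} (B : BigElem d)

theorem mem_norm {h : H} (hh : ∀ x ∈ B.V, h * x * h⁻¹ ∈ B.V) :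
    h ∈ Subgroup.normalizer (B.V : Set H) := by
  refine Subgroup.mem_normalizer_iff_map_conj_eq.2 (Subgroup.eq_of_le_of_card_ge ?_ ?_)
  · rintro _ ⟨x, hx, rfl⟩
    exact hh x hx
  · rw [Subgroup.card_map_of_injective (MulAut.conj h).injective]

/-- An element of the extraspecial group centralising a member of a coset centralises the member
commuting with the element of order three. -/
theorem commute_of_commute {y x e : H} (hy : y ∈ d.C) (hx : x ∈ d.E) (he : e ∈ d.E)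
    (hc : e * (y * x) * e⁻¹ = y * x) : Commute e y := by
  have e1 : e * y * e⁻¹ * (e * x * e⁻¹ * x⁻¹) = y := by
    rw [show e * y * e⁻¹ * (e * x * e⁻¹ * x⁻¹) = e * (y * x) * e⁻¹ * x⁻¹ by group, hc,
      mul_inv_cancel_right]
  rcases d.commE e he x hx with h | h <;> rw [h] at e1
  · rw [mul_one] at e1
    exact mul_inv_eq_iff_eq_mul.1 e1
  · refine absurd ?_ (BigElem.no_flip hy he)
    calc e * y * e⁻¹ = e * y * e⁻¹ * d.z * d.z := by rw [mul_assoc (e * y * e⁻¹), d.zz, mul_one]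
      _ = y * d.z := by rw [e1]

/-- Sixteen divides the size of a set of one coset invariant under the extraspecial group. -/
theorem sixteen_dvd
    (hcent : ∀ u ∈ d.C, u * u = 1 → u ∉ d.E →
      Nat.card ↥(d.E ⊓ Subgroup.centralizer ({u} : Set H)) = 2 ^ 9)
    {a : M} (ha : a ∈ B.A) (ha1 : a ≠ 1) (S : Set H)
    (hSV : ∀ x ∈ S, x ∈ B.V ∧ d.π x = MulAut.conj a)
    (hS : ∀ e ∈ d.E, ∀ x ∈ S, e * x * e⁻¹ ∈ S) : 16 ∣ Nat.card S := by
  classical
  obtain ⟨y, hyV, hyC, hyE, hya⟩ := B.exists_central ha ha1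
  let _ : MulAction ↥d.E ↥S :=
    { smul := fun e x => ⟨(e : H) * x * (e : H)⁻¹, hS e e.2 x x.2⟩
      one_smul := fun x => Subtype.ext (by
        show ((1 : ↥d.E) : H) * x * ((1 : ↥d.E) : H)⁻¹ = x
        rw [Subgroup.coe_one]; group)
      mul_smul := fun e f x => Subtype.ext (by
        show ((e * f : ↥d.E) : H) * x * ((e * f : ↥d.E) : H)⁻¹ =
          (e : H) * ((f : H) * x * (f : H)⁻¹) * (e : H)⁻¹
        rw [Subgroup.coe_mul]; group) }
  haveI : Fact (Nat.Prime 2) := ⟨Nat.prime_two⟩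
  have horb : ∀ x : ↥S, 16 ∣ Nat.card (MulAction.orbit ↥d.E x) := by
    intro x
    obtain ⟨hxV, hxa⟩ := hSV _ x.2
    have hxE : y⁻¹ * (x : H) ∈ d.E :=
      B.ker_mem _ (B.V.mul_mem (B.V.inv_mem hyV) hxV) (by
        rw [MonoidHom.mem_ker, map_mul, map_inv, hya, hxa, inv_mul_cancel])
    have hstab : Nat.card ↥(MulAction.stabilizer ↥d.E x) ≤ 2 ^ 9 := by
      rw [← hcent y hyC (B.sq y hyV) hyE]
      refine Nat.card_le_card_of_injective (fun e => ⟨((e : ↥d.E) : H), Subgroup.mem_inf.2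
        ⟨(e : ↥d.E).2, Subgroup.mem_centralizer_singleton_iff.2 ?_⟩⟩) ?_
      · have h : ((e : ↥d.E) : H) * (x : H) * ((e : ↥d.E) : H)⁻¹ = x :=
          congrArg Subtype.val (MulAction.mem_stabilizer_iff.1 e.2)
        exact commute_of_commute hyC hxE (e : ↥d.E).2 (by rw [mul_inv_cancel_left]; exact h)
      · intro e f h
        exact Subtype.ext (Subtype.ext (congrArg Subtype.val h :))
    have hmul := Subgroup.card_mul_index (MulAction.stabilizer ↥d.E x)
    rw [MulAction.index_stabilizer, ← Nat.card_coe_set_eq, d.cardE] at hmul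
    obtain ⟨j, -, hj⟩ := (Nat.dvd_prime_pow Nat.prime_two).1 (Dvd.intro _ hmul :
      Nat.card ↥(MulAction.stabilizer ↥d.E x) ∣ 2 ^ 13)
    rw [hj] at hstab hmul
    have hj9 : j ≤ 9 := (Nat.pow_le_pow_iff_right (by norm_num)).1 hstab
    refine ⟨2 ^ (9 - j), ?_⟩
    refine Nat.eq_of_mul_eq_mul_left (pow_pos (show 0 < 2 by norm_num) j) ?_
    rw [hmul, show (16 : ℕ) = 2 ^ 4 by norm_num, ← pow_add, ← pow_add]
    congr 1
    omega
  have : Fintype (MulAction.orbitRel.Quotient ↥d.E ↥S) := Fintype.ofFinite _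
  rw [Nat.card_congr (MulAction.selfEquivSigmaOrbits ↥d.E ↥S), Nat.card_sigma]
  exact Finset.dvd_sum fun ω _ => horb _

/-- The normaliser moves any nontrivial member of the hexad group to any other. -/
theorem exists_mover_out {a b : M} (ha : a ∈ B.A) (ha1 : a ≠ 1) (hb : b ∈ B.A) (hb1 : b ≠ 1) :
    ∃ c ∈ Subgroup.normalizer (B.V : Set H), ∀ x, d.π x = MulAut.conj a →
      d.π (c * x * c⁻¹) = MulAut.conj b := by
  have hh : ∀ {v : M}, v ∈ B.A → v ≠ 1 → B.g⁻¹ * v * B.g ∈ hex ∧ B.g⁻¹ * v * B.g ≠ 1 :=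
    fun {v} hv hv1 => ⟨mem_conjS.1 hv, fun h => hv1 (by
      rw [show v = B.g * (B.g⁻¹ * v * B.g) * B.g⁻¹ by group, h, mul_one, mul_inv_cancel])⟩
  obtain ⟨n, hn, hnab⟩ := hex_trans (hh ha ha1).1 (hh ha ha1).2 (hh hb hb1).1 (hh hb hb1).2
  set m := B.g * n * B.g⁻¹ with hm_def
  have hm : MulAut.conj m ∈ d.C.map d.π := by rw [d.map_C]; exact ⟨_, rfl⟩
  obtain ⟨c, hc, hcm⟩ := hm
  have hσ : d.sigma ⟨c, hc⟩ = m := conj_injective_M (by rw [d.conj_sigma]; exact hcm)
  have hnorm : conjS (d.sigma ⟨c, hc⟩) B.A = B.A := by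
    rw [hσ]
    ext x
    rw [mem_conjS, mem_conjS, mem_conjS]
    have := SetLike.ext_iff.1 hn (B.g⁻¹ * x * B.g)
    rw [mem_conjS] at this
    simpa [m, mul_assoc] using this
  refine ⟨c, mem_norm B fun x hx => B.conj_C hc hnorm hx, fun x hx => ?_⟩
  rw [map_mul, map_mul, map_inv, hcm, hx, ← map_inv, ← map_mul, ← map_mul]
  congr 1
  simp only [m]
  rw [show B.g * n * B.g⁻¹ * a * (B.g * n * B.g⁻¹)⁻¹ =
    B.g * (n * (B.g⁻¹ * a * B.g) * n⁻¹) * B.g⁻¹ by group, hnab]
  group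

/-- 240 divides the size of a set of members outside the extraspecial group that is invariant
under the normaliser. -/
theorem dvd_card
    (hcent : ∀ u ∈ d.C, u * u = 1 → u ∉ d.E →
      Nat.card ↥(d.E ⊓ Subgroup.centralizer ({u} : Set H)) = 2 ^ 9)
    (S : Set H) (hSV : ∀ x ∈ S, x ∈ B.V ∧ x ∉ d.E)
    (hS : ∀ h ∈ Subgroup.normalizer (B.V : Set H), ∀ x ∈ S, h * x * h⁻¹ ∈ S) :
    240 ∣ Nat.card S := by
  classical
  let f : ↥S → {a : ↥B.A // a ≠ 1} := fun x =>
    ⟨⟨(B.pi_mem x (hSV _ x.2).1).choose, (B.pi_mem x (hSV _ x.2).1).choose_spec.1⟩,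
      fun h => (hSV _ x.2).2 (B.ker_mem _ (hSV _ x.2).1 (by
        rw [MonoidHom.mem_ker, ← (B.pi_mem x (hSV _ x.2).1).choose_spec.2,
          show (B.pi_mem x (hSV _ x.2).1).choose = 1 from congrArg Subtype.val h, map_one]))⟩
  have hf : ∀ x : ↥S, d.π (x : H) = MulAut.conj (f x).1.1 := fun x =>
    (B.pi_mem x (hSV _ x.2).1).choose_spec.2.symm
  let T : {a : ↥B.A // a ≠ 1} → Set H := fun a => {x | x ∈ S ∧ d.π x = MulAut.conj a.1.1}
  have hfib : ∀ a, Nat.card {x // f x = a} = Nat.card (T a) := fun a => Nat.card_congr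
    { toFun := fun x => ⟨x.1, x.1.2, by rw [hf x.1, x.2]⟩
      invFun := fun x => ⟨⟨x.1, x.2.1⟩,
        Subtype.ext (Subtype.ext (conj_injective_M ((hf _).symm.trans x.2.2)))⟩
      left_inv := fun _ => rfl
      right_inv := fun _ => rfl }
  have hne : ∀ a : {a : ↥B.A // a ≠ 1}, a.1.1 ≠ 1 := fun a h => a.2 (Subtype.ext h)
  have hle : ∀ a b, Nat.card (T a) ≤ Nat.card (T b) := by
    intro a b
    obtain ⟨c, hc, hπ⟩ := exists_mover_out B a.1.2 (hne a) b.1.2 (hne b)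
    refine Nat.card_le_card_of_injective
      (fun x => ⟨c * (x : H) * c⁻¹, hS c hc _ x.2.1, hπ _ x.2.2⟩) fun x x' h => ?_
    exact Subtype.ext (mul_left_cancel (mul_right_cancel (congrArg Subtype.val h :)))
  have h16 : ∀ a, 16 ∣ Nat.card (T a) := fun a =>
    sixteen_dvd B hcent a.1.2 (hne a) _ (fun x hx => ⟨(hSV _ hx.1).1, hx.2⟩) fun e he x hx =>
      ⟨hS e (mem_norm B fun v hv => B.conj_E he hv) x hx.1, by
        rw [map_mul, map_mul, map_inv, (MonoidHom.mem_ker).1 (d.E_le he), one_mul, inv_one,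
          mul_one, hx.2]⟩
  have h15 : Nat.card {a : ↥B.A // a ≠ 1} = 15 := by
    rw [show Nat.card {a : ↥B.A // a ≠ 1} = (({1} : Set ↥B.A)ᶜ).ncard from Nat.card_coe_set_eq _,
      Set.ncard_compl, Set.ncard_singleton, B.card_A]
  obtain ⟨a₀⟩ : Nonempty {a : ↥B.A // a ≠ 1} := (Nat.card_pos_iff.1 (h15 ▸ by norm_num)).1
  have : Fintype {a : ↥B.A // a ≠ 1} := Fintype.ofFinite _
  rw [← Nat.card_congr (Equiv.sigmaFiberEquiv f), Nat.card_sigma,
    Finset.sum_congr rfl (fun a _ => (hfib a).trans (le_antisymm (hle a a₀) (hle a₀ a))),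
    Finset.sum_const, Finset.card_univ, ← Nat.card_eq_fintype_card, h15, smul_eq_mul,
    show (240 : ℕ) = 15 * 16 by norm_num]
  exact Nat.mul_dvd_mul_left _ (h16 a₀)

end CfsgLib.J4Type5.OutOrb

namespace CfsgLib.Jf18.Ctx

open CfsgLib.J4Type67

universe u

variable {G : Type u} [Group G] [Finite G] (c : Ctx G)

/-- The orbits outside the extraspecial group in the form of the local facts. -/
theorem dvd_orbit_out {V : Subgroup G} (hV : ∀ x ∈ V, x * x = 1) (hc : Nat.card V = 2 ^ 11)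
    (hz : c.z ∈ V) {a : G} (ha : a ∈ V) (haE : a ∉ c.E) :
    240 ∣ {b | ∃ m ∈ Subgroup.normalizer (V : Set G),
      m * c.z = c.z * m ∧ m * a * m⁻¹ = b}.ncard := by
  classical
  let d := c.setup
  have hVH : V ≤ c.H := fun x hx => mem_cz.2 (comm_of_sq hV hx hz)
  have hE : ∀ {x : c.H}, x ∈ d.E ↔ (x : G) ∈ c.E := Iff.rfl
  obtain ⟨B, hB⟩ := exists_bigElem d (V := V.subgroupOf c.H)
    (fun x hx => Subtype.ext (hV _ hx))
    (by rw [Nat.card_congr (Subgroup.subgroupOfEquivOfLe hVH).toEquiv, hc])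
  have hBV : ∀ {x : c.H}, x ∈ B.V ↔ (x : G) ∈ V := fun {x} => by rw [hB]; rfl
  have hcent : ∀ u ∈ d.C, u * u = 1 → u ∉ d.E →
      Nat.card ↥(d.E ⊓ Subgroup.centralizer ({u} : Set c.H)) = 2 ^ 9 := by
    intro u hu h2 hn
    have huC : (u : G) ∈ c.C :=
      c.mem_C.2 ⟨mem_cz.1 u.2, congrArg Subtype.val (d.mem_C.1 hu).eq⟩
    rw [← (c.card_cent_invol huC (congrArg Subtype.val h2) fun h => hn (hE.2 h)).1]
    exact Nat.card_congr
      { toFun := fun e => ⟨e.1.1, hE.1 e.2.1, Subgroup.mem_centralizer_singleton_iff.2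
          (congrArg Subtype.val (Subgroup.mem_centralizer_singleton_iff.1 e.2.2))⟩
        invFun := fun e => ⟨⟨e.1, c.E_le e.2.1⟩, hE.2 e.2.1,
          Subgroup.mem_centralizer_singleton_iff.2
            (Subtype.ext (Subgroup.mem_centralizer_singleton_iff.1 e.2.2))⟩
        left_inv := fun _ => rfl
        right_inv := fun _ => rfl }
  set O := {b | ∃ m ∈ Subgroup.normalizer (V : Set G), m * c.z = c.z * m ∧ m * a * m⁻¹ = b}
  have hnorm : ∀ h : c.H, h ∈ Subgroup.normalizer (B.V : Set c.H) ↔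
      (h : G) ∈ Subgroup.normalizer (V : Set G) := by
    intro h
    constructor
    · intro hh
      refine Subgroup.mem_normalizer_iff.2 fun y => ⟨fun hy => ?_, fun hy => ?_⟩
      · exact hBV.1 ((Subgroup.mem_normalizer_iff.1 hh ⟨y, hVH hy⟩).1 (hBV.2 hy))
      · have hyH : y ∈ c.H := by
          have := mul_mem (mul_mem (inv_mem h.2) (hVH hy)) h.2
          simpa [mul_assoc] using this
        exact hBV.1 ((Subgroup.mem_normalizer_iff.1 hh ⟨y, hyH⟩).2 (hBV.2 hy))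
    · intro hh
      refine Subgroup.mem_normalizer_iff.2 fun y => ?_
      rw [hBV, hBV]
      exact Subgroup.mem_normalizer_iff.1 hh y
  have hOV : ∀ b ∈ O, b ∈ V ∧ b ∉ c.E := by
    rintro b ⟨m, hm, hmz, rfl⟩
    refine ⟨(Subgroup.mem_normalizer_iff.1 hm a).1 ha, fun h => haE ?_⟩
    have := c.normal_E (g := m⁻¹) (mem_cz.2 (show Commute m c.z from hmz).inv_left) h
    simpa [mul_assoc] using this
  have key := J4Type5.OutOrb.dvd_card B hcent {x : c.H | (x : G) ∈ O}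
    (fun x hx => ⟨hBV.2 (hOV _ hx).1, fun h => (hOV _ hx).2 (hE.1 h)⟩)
    (fun h hh x hx => by
      obtain ⟨m, hm, hmz, e⟩ := hx
      refine ⟨(h : G) * m, mul_mem ((hnorm h).1 hh) hm,
        ((show Commute (h : G) c.z from mem_cz.1 h.2).mul_left (show Commute m c.z from hmz)).eq,
        ?_⟩
      show (h : G) * m * a * ((h : G) * m)⁻¹ = (h : G) * (x : G) * (h : G)⁻¹
      rw [← e]; group)
  rwa [show Nat.card {x : c.H | (x : G) ∈ O} = O.ncard from Nat.card_congr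
    { toFun := fun x => (⟨x.1.1, x.2⟩ : ↥O)
      invFun := fun x => ⟨⟨x.1, hVH (hOV _ x.2).1⟩, x.2⟩
      left_inv := fun _ => rfl
      right_inv := fun _ => rfl }] at key

end CfsgLib.Jf18.Ctx
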