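import Cfsg.Agent.J4Type5.HexadData
import Cfsg.Agent.J4Type67.Setup

/-!
The conjugates of the first elementary subgroup of order sixteen of `M22`: there are 77, two of them
meet trivially, and two of them together with an element of order five generate a subgroup of order
divisible by nine.
-/

set_option autoImplicit false
set_option maxRecDepth 100000

namespace CfsgLib.J4Type5

open Cfsg CfsgLib.J4Type67 CfsgLib.Mathieu CfsgLib.Mathieu.Code CfsgLib.Golay CfsgLib.CosetEnum
open scoped Pointwise

attribute [local irreducible] enc cmpC idC code M22Cover.gens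

/-- The generators. -/
abbrev gen (k : ℕ) : ℕ × ℕ := M22Cover.gens.getD k (idC, idC)

/-- The `i`-th mover, as a product of generators. -/
noncomputable def mv (i : ℕ) : M := ((moveWords.getD i []).map fun k => el (gen k)).prod

/-- The codes of the `i`-th mover and of its inverse. -/
def mov (i : ℕ) : ℕ × ℕ := movers.getD i (idC, idC)

theorem gens_elOK : M22Cover.gens.all elOK = true ∧
    M22Cover.gens.all (fun p => p.1 == p.2) = true := by decide +kernel

theorem words_ok : ((List.range 77).all fun i =>
    wordC M22Cover.gens (moveWords.getD i []) == (mov i).1 &&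
      wordC M22Cover.gens (moveWords.getD i []).reverse == (mov i).2) = true := by decide +kernel

theorem span_ok : ((spanR hexBasis).all fun a => hexSpan.contains a) = true ∧
    (hexSpan.all fun a => (spanR hexBasis).contains a) = true := by decide +kernel

theorem mem_hex {x : M} : x ∈ hex ↔ cm x ∈ hexSpan := by
  have h1 := List.all_eq_true.1 span_ok.1
  have h2 := List.all_eq_true.1 span_ok.2
  rw [hex, mem_sub basis_ok.1]
  exact ⟨fun h => by simpa using h1 _ h, fun h => by simpa using h2 _ h⟩

theorem el_basis_mem {p : ℕ × ℕ} (hp : p ∈ hexBasis) : el p ∈ hex :=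
  Subgroup.subset_closure (show code (el p : Equiv.Perm GolayPt) ∈ hexBasis.map Prod.fst from
    List.mem_map.2 ⟨p, hp, (el_spec (List.all_eq_true.1 basis_ok.2.1 p hp)).1.symm⟩)

theorem hex_le {K : Subgroup M} (h : ∀ p ∈ hexBasis, el p ∈ K) : hex ≤ K := by
  intro x hx
  have hle : grpOf hexBasis ≤ K.map (Cfsg.Spor.M22).subtype := by
    rw [grpOf, Subgroup.closure_le]
    intro g hg
    obtain ⟨p, hp, hpg⟩ := List.mem_map.1 hg
    refine ⟨el p, h p hp, code_injective ?_⟩
    exact ((el_spec (List.all_eq_true.1 basis_ok.2.1 p hp)).1).trans hpg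
  obtain ⟨y, hy, e⟩ := hle hx
  rwa [← Subtype.ext e]

theorem cm_inv_word : ∀ w : List ℕ, ((w.map fun k => el (gen k)).prod)⁻¹ =
    (w.reverse.map fun k => el (gen k)).prod
  | [] => by simp
  | k :: w => by
    have hk : (el (gen k))⁻¹ = el (gen k) := by
      rcases lt_or_ge k M22Cover.gens.length with hl | hl
      · have hok := List.all_eq_true.1 gens_elOK.1 _ (List.getElem_mem hl)
        have heq := List.all_eq_true.1 gens_elOK.2 _ (List.getElem_mem hl)
        simp only [beq_iff_eq] at heq
        rw [show gen k = M22Cover.gens[k] from List.getD_eq_getElem _ _ hl]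
        exact eq_el hok ((el_spec hok).2.trans heq.symm)
      · rw [show gen k = (idC, idC) from List.getD_eq_default _ _ hl, el_id, inv_one]
    rw [List.map_cons, List.prod_cons, mul_inv_rev, cm_inv_word w, hk, List.reverse_cons,
      List.map_append, List.prod_append]
    simp

theorem mv_spec {i : ℕ} (hi : i < 77) : cm (mv i) = (mov i).1 ∧ cm (mv i)⁻¹ = (mov i).2 := by
  have h := List.all_eq_true.1 words_ok i (List.mem_range.2 hi)
  simp only [Bool.and_eq_true, beq_iff_eq] at h
  exact ⟨(cm_word gens_elOK.1 _).trans h.1,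
    (congrArg cm (cm_inv_word _)).trans ((cm_word gens_elOK.1 _).trans h.2)⟩

theorem mv_zero : mv 0 = 1 := by
  have h : moveWords.getD 0 [] = [] := by decide +kernel
  rw [mv, h]; rfl

theorem conjS_conjS (g h : M) (A : Subgroup M) : conjS g (conjS h A) = conjS (g * h) A := by
  ext x
  rw [mem_conjS, mem_conjS, mem_conjS]
  simp [mul_assoc]

theorem conjS_eq_self_iff {g : M} {A : Subgroup M} :
    conjS g A = A ↔ g ∈ Subgroup.normalizer (A : Set M) := by
  refine ⟨fun hg => Subgroup.mem_normalizer_iff.2 fun h => ?_, fun hg => ?_⟩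
  · conv_rhs => rw [← hg]
    rw [mem_conjS]
    simp [mul_assoc]
  · ext x
    rw [mem_conjS, Subgroup.mem_normalizer_iff.1 hg (g⁻¹ * x * g)]
    simp [mul_assoc]

/-- The check of a row of the table. -/
def stepRow (i : ℕ) : Bool :=
  (List.range 6).all fun k =>
    let j := (moveTab.getD i []).getD k 0
    decide (j < 77) &&
      (let h := cmpC (mov j).2 (cmpC (gen k).1 (mov i).1)
       let h' := cmpC (mov i).2 (cmpC (gen k).2 (mov j).1)
       hexBasis.all fun b => hexSpan.contains (cmpC (cmpC h b.1) h'))

theorem step_a : ((List.range' 0 20).all stepRow) = true := by decide +kernel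
theorem step_b : ((List.range' 20 20).all stepRow) = true := by decide +kernel
theorem step_c : ((List.range' 40 20).all stepRow) = true := by decide +kernel
theorem step_d : ((List.range' 60 17).all stepRow) = true := by decide +kernel

theorem gen_move {i k : ℕ} (hi : i < 77) (hk : k < 6) : ∃ j < 77,
    conjS (el (gen k) * mv i) hex = conjS (mv j) hex := by
  have hrow : stepRow i = true := by
    rcases (show i < 20 ∨ (20 ≤ i ∧ i < 40) ∨ (40 ≤ i ∧ i < 60) ∨ (60 ≤ i) by omega) with
      h | h | h | h
    · exact List.all_eq_true.1 step_a i (List.mem_range'_1.2 (by omega))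
    · exact List.all_eq_true.1 step_b i (List.mem_range'_1.2 (by omega))
    · exact List.all_eq_true.1 step_c i (List.mem_range'_1.2 (by omega))
    · exact List.all_eq_true.1 step_d i (List.mem_range'_1.2 (by omega))
  have h := List.all_eq_true.1 hrow k (List.mem_range.2 hk)
  simp only [Bool.and_eq_true, decide_eq_true_eq] at h
  obtain ⟨hj, hn⟩ := h
  refine ⟨_, hj, ?_⟩
  set j := (moveTab.getD i []).getD k 0
  have hl : k < M22Cover.gens.length := by rw [M22Cover.gens_ok.2]; exact hk
  have hs : elOK (gen k) = true := by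
    rw [show gen k = M22Cover.gens[k] from List.getD_eq_getElem _ _ hl]
    exact List.all_eq_true.1 gens_elOK.1 _ (List.getElem_mem hl)
  set n := (mv j)⁻¹ * (el (gen k) * mv i)
  have hne : conjS n hex = hex := by
    refine Subgroup.eq_of_le_of_card_ge ?_ (card_conjS _ _).ge
    refine (Subgroup.map_le_iff_le_comap).2 (hex_le fun p hp => ?_)
    show n * el p * n⁻¹ ∈ hex
    have h' := List.all_eq_true.1 hn p hp
    rw [List.contains_iff_mem] at h'
    have hc : cm n = cmpC (mov j).2 (cmpC (gen k).1 (mov i).1) := by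
      rw [cm_mul, cm_mul, (mv_spec hj).2, (el_spec hs).1, (mv_spec hi).1]
    have hc' : cm n⁻¹ = cmpC (mov i).2 (cmpC (gen k).2 (mov j).1) := by
      have hinv : n⁻¹ = (mv i)⁻¹ * ((el (gen k))⁻¹ * mv j) := by simp [n, mul_assoc]
      rw [hinv, cm_mul, cm_mul, (mv_spec hi).2, (el_spec hs).2, (mv_spec hj).1]
    rw [mem_hex, cm_conj, hc, hc', (el_spec (List.all_eq_true.1 basis_ok.2.1 p hp)).1]
    exact h'
  have := congrArg (conjS (mv j)) hne
  rwa [conjS_conjS, mul_inv_cancel_left] at this

/-- Every conjugate is in the list. -/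
theorem exists_mover (g : M) : ∃ i < 77, conjS g hex = conjS (mv i) hex := by
  let P : M → Prop := fun g => ∀ i < 77, ∃ j < 77, conjS (g * mv i) hex = conjS (mv j) hex
  have hP : ∀ g : M, P g := by
    intro g
    have hg : g ∈ M22Cover.initSeg M22Cover.genM 6 := M22Cover.genM_top ▸ Subgroup.mem_top g
    refine Subgroup.closure_induction (p := fun g _ => P g) ?_ ?_ ?_ ?_ hg
    · rintro _ ⟨k, hk, rfl⟩ i hi
      have hl : k < M22Cover.gens.length := by rw [M22Cover.gens_ok.2]; exact hk
      have e : M22Cover.genM k = el (gen k) := by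
        refine eq_el ?_ (Multiplier.code_permAt M22Cover.gens_ok.1 k)
        rw [show gen k = M22Cover.gens[k] from List.getD_eq_getElem _ _ hl]
        exact List.all_eq_true.1 gens_elOK.1 _ (List.getElem_mem hl)
      rw [e]
      exact gen_move hi hk
    · exact fun i hi => ⟨i, hi, by rw [one_mul]⟩
    · intro a b _ _ ha hb i hi
      obtain ⟨j, hj, e⟩ := hb i hi
      obtain ⟨l, hl, e'⟩ := ha j hj
      exact ⟨l, hl, by rw [mul_assoc, ← conjS_conjS, e, conjS_conjS, e']⟩
    · intro a _ ha i hi
      choose f hf hfe using fun i : Fin 77 => ha i i.2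
      let F : Fin 77 → Subgroup M := fun i => conjS (mv i) hex
      have hfi : Set.SurjOn (fun S => conjS a S) (Set.range F) (Set.range F) := by
        refine ((Set.finite_range F).injOn_iff_bijOn_of_mapsTo ?_).1 ?_ |>.surjOn
        · rintro _ ⟨i, rfl⟩
          exact ⟨⟨f i, hf i⟩, by simp only [F, conjS_conjS]; exact (hfe i).symm⟩
        · rintro S _ T _ (e : conjS a S = conjS a T)
          exact Subgroup.map_injective (MulAut.conj a).injective e
      obtain ⟨_, ⟨j, rfl⟩, e⟩ := hfi ⟨⟨i, hi⟩, rfl⟩
      refine ⟨j, j.2, ?_⟩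
      simp only [F] at e
      rw [← conjS_conjS, ← e, conjS_conjS, conjS_conjS, inv_mul_cancel, one_mul]
  obtain ⟨j, hj, e⟩ := hP g 0 (by norm_num)
  exact ⟨j, hj, by rwa [mv_zero, mul_one] at e⟩

/-- The letters at the `i`-th conjugate. -/
def pairLetters (i : ℕ) : List ℕ :=
  hexBasis.map Prod.fst ++
    hexBasis.map (fun p => cmpC (cmpC (mov i).1 p.1) (mov i).2) ++ [hexFive.1]

/-- The code of a word in given letters. -/
def wordL (L : List ℕ) (w : List ℕ) : ℕ :=
  w.foldr (fun k acc => cmpC (L.getD k idC) acc) idC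

theorem wordL_cons (L : List ℕ) (k : ℕ) (w : List ℕ) :
    wordL L (k :: w) = cmpC (L.getD k idC) (wordL L w) := by
  rw [wordL, wordL, List.foldr_cons]

theorem wordL_nil (L : List ℕ) : wordL L [] = idC := by
  rw [wordL, List.foldr_nil]

/-- The first word at the `i`-th conjugate. -/
def wordX (i : ℕ) : List ℕ := (threeWords.getD (i - 1) ([], [])).1

/-- The second word at the `i`-th conjugate. -/
def wordY (i : ℕ) : List ℕ := (threeWords.getD (i - 1) ([], [])).2

/-- The codes are those of two elements generating a group of order nine. -/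
def threeOK (x y : ℕ) : Bool :=
  x != idC && y != idC && cmpC x (cmpC x x) == idC && cmpC y (cmpC y y) == idC &&
    cmpC x y == cmpC y x && y != x && y != cmpC x x

theorem threeOK_spec {x y : ℕ} (h : threeOK x y = true) :
    x ≠ idC ∧ y ≠ idC ∧ cmpC x (cmpC x x) = idC ∧ cmpC y (cmpC y y) = idC ∧
      cmpC x y = cmpC y x ∧ y ≠ x ∧ y ≠ cmpC x x := by
  simp only [threeOK, Bool.and_eq_true, bne_iff_ne, beq_iff_eq, ne_eq] at h
  tauto

/-- The `i`-th conjugate meets the first one trivially. -/
def interOK (i : ℕ) : Bool :=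
  hexSpan.all fun a => a == idC || !hexSpan.contains (cmpC (cmpC (mov i).2 a) (mov i).1)

/-- The checks at the `i`-th conjugate. -/
def pairCheck (i : ℕ) : Bool :=
  interOK i && threeOK (wordL (pairLetters i) (wordX i)) (wordL (pairLetters i) (wordY i))

theorem pair_a : ((List.range' 1 19).all pairCheck) = true := by decide +kernel
theorem pair_b : ((List.range' 20 20).all pairCheck) = true := by decide +kernel
theorem pair_c : ((List.range' 40 20).all pairCheck) = true := by decide +kernel
theorem pair_d : ((List.range' 60 17).all pairCheck) = true := by decide +kernel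

theorem exists_mover_ne {g : M} (h : conjS g hex ≠ hex) :
    ∃ i < 77, pairCheck i = true ∧ conjS g hex = conjS (mv i) hex := by
  obtain ⟨i, hi, e⟩ := exists_mover g
  refine ⟨i, hi, ?_, e⟩
  have h0 : i ≠ 0 := fun h0 => h (by rw [e, h0, mv_zero]; ext x; simp)
  rcases (show i < 20 ∨ (20 ≤ i ∧ i < 40) ∨ (40 ≤ i ∧ i < 60) ∨ (60 ≤ i) by omega) with
    h | h | h | h
  · exact List.all_eq_true.1 pair_a i (List.mem_range'_1.2 (by omega))
  · exact List.all_eq_true.1 pair_b i (List.mem_range'_1.2 (by omega))
  · exact List.all_eq_true.1 pair_c i (List.mem_range'_1.2 (by omega))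
  · exact List.all_eq_true.1 pair_d i (List.mem_range'_1.2 (by omega))

/-- Two conjugates meet trivially. -/
theorem hex_inter {g a : M} (ha : a ∈ hex) (ha' : a ∈ conjS g hex) (h1 : a ≠ 1) :
    conjS g hex = hex := by
  by_contra h
  obtain ⟨i, hi, hc, e⟩ := exists_mover_ne h
  have hc1 : interOK i = true := (Bool.and_eq_true_iff.1 hc).1
  simp only [interOK, List.all_eq_true, Bool.or_eq_true, beq_iff_eq] at hc1
  rcases hc1 _ (mem_hex.1 ha) with h' | h'
  · exact h1 (cm_injective (h'.trans cm_one.symm))
  · rw [e, mem_conjS, mem_hex, cm_mul, cm_mul, (mv_spec hi).2, (mv_spec hi).1] at ha'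
    simp [ha'] at h'

/-- Two conjugates and an element of order five give two commuting elements of order three. -/
theorem exists_three {g : M} (h : conjS g hex ≠ hex) {K : Subgroup M} (h1 : hex ≤ K)
    (h2 : conjS g hex ≤ K) (h5 : el hexFive ∈ K) :
    ∃ x ∈ K, ∃ y ∈ K, x * y = y * x ∧ orderOf x = 3 ∧ orderOf y = 3 ∧ y ≠ x ∧ y ≠ x * x := by
  obtain ⟨i, hi, hc, e⟩ := exists_mover_ne h
  rw [e] at h2
  obtain ⟨x1, y1, x3, y3, c, d1, d2⟩ := threeOK_spec (Bool.and_eq_true_iff.1 hc).2
  have hmem : ∀ a ∈ pairLetters i, ∃ m ∈ K, cm m = a := by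
    intro a ha
    rcases List.mem_append.1 ha with ha | ha
    · rcases List.mem_append.1 ha with ha | ha
      · obtain ⟨p, hp, rfl⟩ := List.mem_map.1 ha
        exact ⟨el p, h1 (el_basis_mem hp), (el_spec (List.all_eq_true.1 basis_ok.2.1 p hp)).1⟩
      · obtain ⟨p, hp, rfl⟩ := List.mem_map.1 ha
        refine ⟨mv i * el p * (mv i)⁻¹, h2 ⟨el p, el_basis_mem hp, rfl⟩, ?_⟩
        rw [cm_conj, (mv_spec hi).1, (mv_spec hi).2,
          (el_spec (List.all_eq_true.1 basis_ok.2.1 p hp)).1]
    · rw [List.mem_singleton.1 ha]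
      exact ⟨el hexFive, h5, (el_spec hex_normal_data.1).1⟩
  have hword : ∀ w : List ℕ, ∃ m ∈ K, cm m = wordL (pairLetters i) w := by
    intro w
    induction w with
    | nil => exact ⟨1, one_mem K, cm_one.trans (wordL_nil _).symm⟩
    | cons k w ih =>
      obtain ⟨m, hm, em⟩ := ih
      obtain ⟨u, hu, eu⟩ : ∃ u ∈ K, cm u = (pairLetters i).getD k idC := by
        rcases lt_or_ge k (pairLetters i).length with hk | hk
        · rw [List.getD_eq_getElem _ _ hk]; exact hmem _ (List.getElem_mem hk)
        · rw [List.getD_eq_default _ _ hk]; exact ⟨1, one_mem K, cm_one⟩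
      refine ⟨u * m, mul_mem hu hm, ?_⟩
      rw [cm_mul, eu, em, wordL_cons]
  obtain ⟨x, hx, ex⟩ := hword (wordX i)
  obtain ⟨y, hy, ey⟩ := hword (wordY i)
  haveI : Fact (Nat.Prime 3) := ⟨by norm_num⟩
  refine ⟨x, hx, y, hy, cm_injective ?_, ?_, ?_, ?_, ?_⟩
  · rw [cm_mul, cm_mul, ex, ey, c]
  · refine orderOf_eq_prime (cm_injective ?_) fun h => x1 ?_
    · rw [pow_succ', pow_two, cm_mul, cm_mul, ex, cm_one, x3]
    · rw [← ex, h, cm_one]
  · refine orderOf_eq_prime (cm_injective ?_) fun h => y1 ?_
    · rw [pow_succ', pow_two, cm_mul, cm_mul, ey, cm_one, y3]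
    · rw [← ey, h, cm_one]
  · exact fun h => d1 (by rw [← ex, ← ey, h])
  · exact fun h => d2 (by rw [← ex, ← ey, h, cm_mul])

/-- The point is moved out of the set of fixed points. -/
def distinctRow (i : ℕ) : Bool :=
  (List.range i).all fun j =>
    hexPts.any fun p => !hexPts.contains (ap (mov j).2 (ap (mov i).1 p))

theorem distinct_ok : ((List.range 77).all distinctRow) = true := by decide +kernel

theorem pts_ok : (hexPts.all fun p => decide (p < 24) && hexBasis.all fun b => ap b.1 p == p) = true ∧
    ((List.range 24).all fun p => hexPts.contains p || hexBasis.any fun b => ap b.1 p != p) = true := by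
  decide +kernel

theorem mv_ne {i j : ℕ} (hi : i < 77) (hji : j < i) : conjS (mv i) hex ≠ conjS (mv j) hex := by
  intro e
  have hj : j < 77 := by omega
  have h := List.all_eq_true.1 (List.all_eq_true.1 distinct_ok i (List.mem_range.2 hi)) j
    (List.mem_range.2 hji)
  simp only [List.any_eq_true, Bool.not_eq_true', List.contains_eq_mem,
    decide_eq_false_iff_not] at h
  obtain ⟨p, hp, hnp⟩ := h
  have hp24 : p < 24 := by
    have := List.all_eq_true.1 pts_ok.1 p hp
    simp only [Bool.and_eq_true, decide_eq_true_eq] at this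
    exact this.1
  set n := (mv j)⁻¹ * mv i
  have hn : conjS n hex = hex := by
    have := congrArg (conjS (mv j)⁻¹) e
    rw [conjS_conjS, conjS_conjS, inv_mul_cancel] at this
    rw [this]; ext x; simp
  set q := ap (cm n) p
  have hq : q = ap (mov j).2 (ap (mov i).1 p) := by
    show ap (cm ((mv j)⁻¹ * mv i)) p = _
    have h1 := ap_code (((mv j)⁻¹ * mv i : M) : Equiv.Perm GolayPt) hp24
    have h2 := ap_code' (((mv j)⁻¹ : M) : Equiv.Perm GolayPt) ((mv i : Equiv.Perm GolayPt) (i2p p))
    have h3 := ap_code (mv i : Equiv.Perm GolayPt) hp24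
    rw [← (mv_spec hj).2, ← (mv_spec hi).1]
    show ap (code _) p = ap (code _) (ap (code _) p)
    rw [h1, h3, h2]
    rfl
  have hq24 : q < 24 := by
    show ap (code (n : Equiv.Perm GolayPt)) p < 24
    rw [ap_code _ hp24]; exact p2i_lt _
  have := List.all_eq_true.1 pts_ok.2 q (List.mem_range.2 hq24)
  simp only [Bool.or_eq_true, List.contains_iff_mem, List.any_eq_true, bne_iff_ne] at this
  rcases this with h' | ⟨b, hb, hbq⟩
  · exact hnp (hq ▸ h')
  · have hbok := List.all_eq_true.1 basis_ok.2.1 b hb
    have hc : n⁻¹ * el b * n ∈ hex := by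
      have := el_basis_mem hb
      rwa [← hn, mem_conjS] at this
    have hfix : ∀ x ∈ hex, (x : Equiv.Perm GolayPt) (i2p p) = i2p p := by
      intro x hx
      refine (hex_le (K := (MulAction.stabilizer (Equiv.Perm GolayPt) (i2p p)).comap
        (Cfsg.Spor.M22).subtype) fun r hr => ?_) hx
      show (el r : Equiv.Perm GolayPt) (i2p p) = i2p p
      have h1 := List.all_eq_true.1 pts_ok.1 p hp
      simp only [Bool.and_eq_true, List.all_eq_true, beq_iff_eq] at h1
      apply p2i_injective
      rw [← ap_code _ hp24, show code (el r : Equiv.Perm GolayPt) = r.1 from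
        (el_spec (List.all_eq_true.1 basis_ok.2.1 r hr)).1, h1.2 r hr, p2i_i2p p hp24]
    refine hbq ?_
    have h1 := hfix _ hc
    simp only [Subgroup.coe_mul, Equiv.Perm.mul_apply, InvMemClass.coe_inv] at h1
    have h2 : (el b : Equiv.Perm GolayPt) ((n : Equiv.Perm GolayPt) (i2p p)) =
        (n : Equiv.Perm GolayPt) (i2p p) := by
      rw [Equiv.Perm.inv_eq_iff_eq] at h1
      exact h1
    rw [show q = p2i ((n : Equiv.Perm GolayPt) (i2p p)) from ap_code _ hp24,
      show b.1 = code (el b : Equiv.Perm GolayPt) from (el_spec hbok).1.symm, ap_code', h2]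

theorem card_conjugates : Nat.card {S : Subgroup M // ∃ g, conjS g hex = S} = 77 := by
  classical
  have hinj : Function.Injective fun i : Fin 77 => conjS (mv i) hex := by
    intro i j e
    by_contra hne
    rcases lt_trichotomy i.1 j.1 with h | h | h
    · exact mv_ne j.2 h e.symm
    · exact hne (Fin.ext h)
    · exact mv_ne i.2 h e
  refine Eq.trans (Nat.card_congr (Equiv.ofBijective
      (fun i : Fin 77 => (⟨conjS (mv i) hex, _, rfl⟩ : {S : Subgroup M // ∃ g, conjS g hex = S}))
      ⟨fun i j h => hinj (congrArg Subtype.val h), ?_⟩)).symm (Nat.card_fin 77)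
  rintro ⟨_, g, rfl⟩
  obtain ⟨i, hi, e⟩ := exists_mover g
  exact ⟨⟨i, hi⟩, Subtype.ext e.symm⟩

theorem card_normalizer_hex : Nat.card ↥(Subgroup.normalizer (hex : Set M)) = 5760 := by
  classical
  have hcard := card_conjugates
  set N := Subgroup.normalizer (hex : Set M)
  have hindex : N.index = 77 := by
    rw [Subgroup.index, ← hcard]
    refine Nat.card_congr (Equiv.ofBijective
      (Quotient.lift (fun g => (⟨conjS g hex, g, rfl⟩ : {S : Subgroup M // ∃ g, conjS g hex = S}))
        ?_) ⟨?_, ?_⟩)
    · intro a b hab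
      have hab' : a⁻¹ * b ∈ N := QuotientGroup.leftRel_apply.1 hab
      apply Subtype.ext
      show conjS a hex = conjS b hex
      conv_lhs => rw [← conjS_eq_self_iff.2 hab', conjS_conjS, mul_inv_cancel_left]
    · intro x y
      induction x using QuotientGroup.induction_on with | H a => ?_
      induction y using QuotientGroup.induction_on with | H b => ?_
      intro h
      refine QuotientGroup.eq.2 (conjS_eq_self_iff.1 ?_)
      rw [← conjS_conjS, ← show conjS a hex = conjS b hex from congrArg Subtype.val h,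
        conjS_conjS, inv_mul_cancel]
      ext x; simp
    · rintro ⟨_, g, rfl⟩
      exact ⟨g, rfl⟩
  have := N.card_mul_index
  rw [hindex, CfsgLib.Mathieu.card_M22] at this
  omega

end CfsgLib.J4Type5
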