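import Cfsg.Agent.J4Type67.Module
import Cfsg.Agent.J4Type5.Hexads

/-!
The module of order `2 ^ 12`: the two orbits of the hexad normalizer on the fixed space of order 64,
the lines through three members of the short orbit, and the rank of the involutions.
-/

set_option autoImplicit false

namespace CfsgLib.J4Type5

open CfsgLib.J4Type67 CfsgLib.Mathieu.Code
open scoped commutatorElement

universe u v

variable {X : Type u} {W : Type v} [Group X] [Group W] (r : Rep X W)

/-- The elements normalizing the first subgroup. -/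
abbrev NX : Subgroup X := (Subgroup.normalizer (hex : Set M)).comap r.proj

theorem mem_NX {x : X} : x ∈ NX r ↔ conjS (r.proj x) hex = hex := conjS_eq_self_iff.symm

theorem act_mem_F {x : X} (hx : x ∈ NX r) {w : W} (hw : w ∈ r.F hex) : r.act x w ∈ r.F hex :=
  r.F_invariant ((mem_NX r).1 hx) hw

theorem p_mem_NX : r.p ∈ NX r := by
  show r.proj r.p ∈ Subgroup.normalizer (hex : Set M)
  rw [r.proj_p]; exact one_mem _

theorem act_pow_three (w : W) : r.act r.p (r.act r.p (r.act r.p w)) = w := by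
  rw [← r.act_mul, ← r.act_mul, ← pow_two, ← pow_succ, r.cube, r.act_one]

theorem prod_three (w : W) : w * r.act r.p w * r.act r.p (r.act r.p w) = 1 := by
  refine r.fpf _ ?_
  rw [map_mul, map_mul, act_pow_three]
  rw [r.comm _ w, ← mul_assoc]

/-- The set of translates of a vector. -/
def orb (w : W) : Set W := {v | ∃ x ∈ NX r, r.act x w = v}

theorem self_mem_orb (w : W) : w ∈ orb r w := ⟨1, one_mem _, r.act_one w⟩

theorem act_mem_orb {w v : W} {x : X} (hx : x ∈ NX r) (hv : v ∈ orb r w) : r.act x v ∈ orb r w := by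
  obtain ⟨y, hy, rfl⟩ := hv
  exact ⟨x * y, mul_mem hx hy, r.act_mul x y w⟩

theorem orb_trans {w a b : W} (ha : a ∈ orb r w) (hb : b ∈ orb r w) :
    ∃ x ∈ NX r, r.act x a = b := by
  obtain ⟨x, hx, rfl⟩ := ha
  obtain ⟨y, hy, rfl⟩ := hb
  exact ⟨y * x⁻¹, mul_mem hy (inv_mem hx), by rw [r.act_mul, r.act_inv_act]⟩

/-- A set invariant under a group with the central element in its derived group, a 3-group of order
27, has order divisible by nine away from the identity. -/
theorem nine_dvd {R : Subgroup X} (hR : Nat.card R = 27) (hp : r.p ∈ ⁅R, R⁆) (S : Set W)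
    (h1 : (1 : W) ∉ S) (hS : ∀ x ∈ R, ∀ w ∈ S, r.act x w ∈ S) : 9 ∣ S.ncard := by
  classical
  have := r.finite_W
  have := r.finite_X
  let _ : MulAction R S :=
    { smul := fun x w => ⟨r.act x.1 w.1, hS x.1 x.2 w.1 w.2⟩
      one_smul := fun w => Subtype.ext (r.act_one _)
      mul_smul := fun x y w => Subtype.ext (r.act_mul _ _ _) }
  have : Fintype S := Fintype.ofFinite _
  have key : ∀ w : S, 9 ∣ Nat.card (MulAction.orbit R w) := by
    intro w
    set K := MulAction.stabilizer R w with hK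
    have hdvd := Subgroup.card_subgroup_dvd_card K
    rw [hR, show (27 : ℕ) = 3 ^ 3 by norm_num, Nat.dvd_prime_pow Nat.prime_three] at hdvd
    obtain ⟨e, he, hKe⟩ := hdvd
    have horb : Nat.card (MulAction.orbit R w) * 3 ^ e = 27 := by
      rw [← hR, ← hKe, hK, Nat.card_congr (MulAction.orbitEquivQuotientStabilizer R w),
        ← Subgroup.card_eq_card_quotient_mul_card_subgroup]
    by_cases he1 : e ≤ 1
    · interval_cases e <;> omega
    exfalso
    -- the stabiliser and the central element give everything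
    have hp' : r.p ∈ R := Subgroup.commutator_le_self R hp
    set P : R := ⟨r.p, hp'⟩
    have hPK : P ∉ K := fun h => h1 (by
      have := congrArg Subtype.val (MulAction.mem_stabilizer_iff.1 h)
      rw [← r.fpf w.1 this]; exact w.2)
    have hPc : ∀ x : R, Commute P x := fun x => Subtype.ext (r.central x)
    haveI : (Subgroup.zpowers P).Normal := ⟨fun n hn g => by
      obtain ⟨i, rfl⟩ := hn
      show g * P ^ i * g⁻¹ ∈ _
      rw [((hPc g).zpow_left i).symm.eq, mul_inv_cancel_right]
      exact Subgroup.zpow_mem_zpowers _ _⟩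
    have htop : K ⊔ Subgroup.zpowers P = ⊤ := by
      refine Subgroup.eq_top_of_le_card _ ?_
      have hlt : K < K ⊔ Subgroup.zpowers P := lt_of_le_of_ne le_sup_left fun e =>
        hPK (e ▸ Subgroup.mem_sup_right (Subgroup.mem_zpowers P))
      have hd := Subgroup.card_dvd_of_le hlt.le
      have hne : Nat.card K ≠ Nat.card ↥(K ⊔ Subgroup.zpowers P) := fun e =>
        hlt.ne (Subgroup.eq_of_le_of_card_ge hlt.le e.ge)
      have hd2 := Subgroup.card_subgroup_dvd_card (K ⊔ Subgroup.zpowers P)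
      rw [hR, show (27 : ℕ) = 3 ^ 3 by norm_num, Nat.dvd_prime_pow Nat.prime_three] at hd2
      obtain ⟨f, hf, hf'⟩ := hd2
      rw [hf', hKe, Nat.pow_dvd_pow_iff_le_right (by norm_num)] at hd
      rw [hf', hKe] at hne
      have : f = 3 := by
        have : e ≠ f := fun h => hne (h ▸ rfl)
        omega
      rw [hR, hf', this]; norm_num
    have hcomm : (commutator R).map R.subtype ≤ K.map R.subtype := by
      refine Subgroup.map_mono ?_
      rw [commutator_def, Subgroup.commutator_le]
      intro a _ b _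
      obtain ⟨a', ha', pa, hpa, rfl⟩ := Subgroup.mem_sup_of_normal_right.1 (htop.ge (Subgroup.mem_top a))
      obtain ⟨b', hb', pb, hpb, rfl⟩ := Subgroup.mem_sup_of_normal_right.1 (htop.ge (Subgroup.mem_top b))
      obtain ⟨i, rfl⟩ := hpa
      obtain ⟨j, rfl⟩ := hpb
      have c1 : ∀ y : R, Commute (P ^ i) y := fun y => (hPc y).zpow_left i
      have c2 : ∀ y : R, Commute (P ^ j) y := fun y => (hPc y).zpow_left j
      rw [show ⁅a' * P ^ i, b' * P ^ j⁆ = ⁅a', b'⁆ by
        rw [commutatorElement_def, commutatorElement_def, mul_inv_rev, mul_inv_rev]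
        calc a' * P ^ i * (b' * P ^ j) * ((P ^ i)⁻¹ * a'⁻¹) * ((P ^ j)⁻¹ * b'⁻¹)
            = a' * (P ^ i * (b' * P ^ j)) * (P ^ i)⁻¹ * a'⁻¹ * (P ^ j)⁻¹ * b'⁻¹ := by
              group
          _ = a' * b' * (P ^ j * a'⁻¹) * (P ^ j)⁻¹ * b'⁻¹ := by rw [(c1 _).eq]; group
          _ = a' * b' * a'⁻¹ * b'⁻¹ := by rw [(c2 _).eq]; group]
      exact mul_mem (mul_mem (mul_mem ha' hb') (inv_mem ha')) (inv_mem hb')
    rw [Subgroup.map_subtype_commutator] at hcomm
    obtain ⟨y, hy, e⟩ := hcomm hp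
    exact hPK (by rwa [show P = y from Subtype.ext e.symm])
  haveI : Fintype (Quotient (MulAction.orbitRel R S)) := Fintype.ofFinite _
  rw [← Nat.card_coe_set_eq, Nat.card_congr (MulAction.selfEquivSigmaOrbits R S), Nat.card_sigma]
  exact Finset.dvd_sum fun ω _ => key _

theorem five_dvd {U : X} (hU : U ^ 5 = 1) (S : Set W) (hS : ∀ w ∈ S, r.act U w ∈ S)
    (hne : ∀ w ∈ S, r.act U w ≠ w) : 5 ∣ S.ncard := by
  have := r.finite_W
  have hmod := card_modEq (fun a : S => (⟨r.act U a.1, hS _ a.2⟩ : S)) (q := 5) (n := 1)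
    (by norm_num) fun a => ?_
  · haveI : IsEmpty {a : S // (⟨r.act U a.1, hS _ a.2⟩ : S) = a} :=
      ⟨fun a => hne _ a.1.2 (congrArg Subtype.val a.2)⟩
    rw [Nat.card_of_isEmpty (α := {a : S // (⟨r.act U a.1, hS _ a.2⟩ : S) = a}), Nat.card_coe_set_eq] at hmod
    exact Nat.modEq_zero_iff_dvd.1 hmod
  · apply Subtype.ext
    have : ∀ k : ℕ, ((fun a : S => (⟨r.act U a.1, hS _ a.2⟩ : S))^[k] a).1 = r.act (U ^ k) a.1 := by
      intro k
      induction k with
      | zero => simp [r.act_one]
      | succ k ih => rw [Function.iterate_succ_apply', pow_succ', r.act_mul, ← ih]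
    rw [this, pow_one, hU, r.act_one]

/-- The facts at the fixed space: a short orbit `O` through a vector fixed by an element of order five
above the chosen one, and the rest one orbit. -/
structure Orbits where
  w₀ : W
  U : X
  projU : r.proj U = el hexFive
  U5 : U ^ 5 = 1
  fixU : r.act U w₀ = w₀
  mem : w₀ ∈ r.F hex
  ne : w₀ ≠ 1
  size : (orb r w₀).ncard = 18 ∨ (orb r w₀).ncard = 63
  rest : ∀ v ∈ r.F hex, v ≠ 1 → v ∉ orb r w₀ → ∀ v' ∈ r.F hex, v' ≠ 1 → v' ∉ orb r w₀ →
    ∃ x ∈ NX r, r.act x v = v'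
  fix : ∀ v ∈ r.F hex, r.act U v = v → v = 1 ∨ v = w₀ ∨ v = r.act r.p w₀ ∨ v = r.act r.p (r.act r.p w₀)

theorem exists_orbits : Nonempty (Orbits r) := by
  classical
  have := r.finite_W
  have := r.finite_X
  obtain ⟨U, hU, hU5, hUle⟩ := r.five_bound
  have hUN : U ∈ NX r := (mem_NX r).2 (hU ▸ conjS_eq basis_ok.1 hex_normal_data.2.1)
  set Fx := r.F hex ⊓ r.fixed {U} with hFx
  have hFxP : r.PInv Fx := r.pinv_inf (r.pinv_fixed _) (r.pinv_fixed _)
  have hcard4 : Nat.card Fx = 4 := by
    obtain ⟨k, -, hk⟩ := r.exists_le_six hFxP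
    have hmod := r.card_fixed_modEq (r.F hex) U (fun w hw => act_mem_F r hUN hw) (q := 5) (n := 1)
      (by norm_num) (by rw [pow_one, hU5])
    have hle : Nat.card Fx ≤ 16 := (Subgroup.card_le_of_le inf_le_right).trans hUle
    rw [r.card_F_hex, ← hFx, hk] at hmod
    rw [hk] at hle ⊢
    have : k ≤ 2 := by
      by_contra h
      have := Nat.pow_le_pow_right (show 0 < 4 by norm_num) (show 3 ≤ k by omega)
      omega
    interval_cases k
    · exact absurd hmod (by decide)
    · norm_num
    · exact absurd hmod (by decide)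
  obtain ⟨w₀, hw₀, hne⟩ := (Subgroup.bot_or_exists_ne_one Fx).resolve_left fun h => by
    rw [h, Subgroup.card_bot] at hcard4; norm_num at hcard4
  have hfixU : r.act U w₀ = w₀ := r.mem_fixed_single.1 hw₀.2
  have hfix : ∀ v ∈ r.F hex, r.act U v = v →
      v = 1 ∨ v = w₀ ∨ v = r.act r.p w₀ ∨ v = r.act r.p (r.act r.p w₀) := by
    intro v hv hUv
    have : Fintype W := Fintype.ofFinite W
    set s : Finset W := {1, w₀, r.act r.p w₀, r.act r.p (r.act r.p w₀)} with hs
    have h1 : r.act r.p w₀ ≠ w₀ := fun e => hne (r.fpf _ e)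
    have hp1 : r.act r.p w₀ ≠ 1 := fun e => hne (by
      have := congrArg (r.act r.p⁻¹) e
      rwa [r.act_inv_act, map_one] at this)
    have hp2 : r.act r.p (r.act r.p w₀) ≠ 1 := fun e => hp1 (by
      have := congrArg (r.act r.p⁻¹) e
      rwa [r.act_inv_act, map_one] at this)
    have h2 : r.act r.p (r.act r.p w₀) ≠ r.act r.p w₀ := fun e => hp1 (r.fpf _ e)
    have h3 : r.act r.p (r.act r.p w₀) ≠ w₀ := fun e => h1 (by
      have := congrArg (r.act r.p) e
      rw [act_pow_three] at this
      exact this.symm)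
    have hscard : s.card = 4 := by
      rw [hs]
      rw [Finset.card_insert_of_notMem (by simp [Ne.symm hne, Ne.symm hp1, Ne.symm hp2]),
        Finset.card_insert_of_notMem (by simp [Ne.symm h1, Ne.symm h3]),
        Finset.card_insert_of_notMem (by simp [Ne.symm h2]), Finset.card_singleton]
    have hsub : (s : Set W) ⊆ (Fx : Set W) := by
      intro a ha
      simp only [hs, Finset.coe_insert, Finset.coe_singleton, Set.mem_insert_iff,
        Set.mem_singleton_iff] at ha
      rcases ha with rfl | rfl | rfl | rfl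
      exacts [one_mem _, hw₀, hFxP _ hw₀, hFxP _ (hFxP _ hw₀)]
    have heq : (s : Set W) = (Fx : Set W) := by
      refine Set.eq_of_subset_of_ncard_le hsub ?_ (Set.toFinite _)
      rw [Set.ncard_coe_finset, hscard, ← Nat.card_coe_set_eq]
      exact le_of_eq hcard4
    have : v ∈ (s : Set W) := heq ▸ (⟨hv, r.mem_fixed_single.2 hUv⟩ : v ∈ Fx)
    simpa [hs] using this
  -- a 3-subgroup of the normalizer
  obtain ⟨R, x, y, -, hR, u, N, hu, -, -, hN, hx, hy⟩ := r.exists_sylow_three
  have hRN : ∀ a ∈ (R : Subgroup X), a ∈ NX r := by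
    intro a ha
    have hle : Subgroup.closure ((fun n => n * u * n⁻¹) '' N) ≤
        Subgroup.normalizer (hex : Set M) := by
      rw [Subgroup.closure_le]
      rintro _ ⟨n, hn, rfl⟩
      exact mul_mem (mul_mem (conjS_eq_self_iff.1 (hN n hn)) (conjS_eq_self_iff.1 hu))
        (inv_mem (conjS_eq_self_iff.1 (hN n hn)))
    exact hle ((Subgroup.closure_le _).2 (by rintro b (rfl | rfl) <;> assumption) (hR a ha))
  have hR27 : Nat.card (R : Subgroup X) = 27 := by
    rw [Sylow.card_eq_multiplicity, show Nat.card X = 3 ^ 3 * 49280 by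
      have := r.card_comap ⊤
      rw [Subgroup.comap_top, Subgroup.card_top, Subgroup.card_top, CfsgLib.Mathieu.card_M22] at this
      rw [this]; norm_num]
    rw [Nat.factorization_mul (by norm_num) (by norm_num), Nat.Prime.factorization_pow Nat.prime_three]
    simp [Nat.factorization_eq_zero_of_not_dvd (by norm_num : ¬(3 ∣ 49280))]
  set O := orb r w₀
  have hOF : ∀ v ∈ O, v ∈ r.F hex ∧ v ≠ 1 := by
    rintro v ⟨a, ha, rfl⟩
    exact ⟨act_mem_F r ha hw₀.1, fun e => hne ((r.act a).map_eq_one_iff.1 e)⟩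
  set rest := {v : W | v ∈ r.F hex ∧ v ≠ 1} \ O
  have hinv : ∀ a ∈ NX r, ∀ v ∈ rest, r.act a v ∈ rest := by
    rintro a ha v ⟨⟨hv, hv1⟩, hvO⟩
    refine ⟨⟨act_mem_F r ha hv, fun e => hv1 ((r.act a).map_eq_one_iff.1 e)⟩, fun h => hvO ?_⟩
    have := act_mem_orb r (inv_mem ha) h
    rwa [r.act_inv_act] at this
  have hO9 : 9 ∣ O.ncard := nine_dvd r hR27 (r.p_mem_commutator R) O (fun h => (hOF 1 h).2 rfl)
    fun a ha v hv => act_mem_orb r (hRN a ha) hv
  have hrest45 : ∀ S : Set W, S ⊆ rest → (∀ a ∈ NX r, ∀ v ∈ S, r.act a v ∈ S) → 45 ∣ S.ncard := by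
    intro S hS hSi
    refine (show Nat.Coprime 9 5 by norm_num).mul_dvd_of_dvd_of_dvd
      (nine_dvd r hR27 (r.p_mem_commutator R) S (fun h => (hS h).1.2 rfl)
        fun a ha v hv => hSi a (hRN a ha) v hv)
      (five_dvd r hU5 S (fun v hv => hSi U hUN v hv) fun v hv e => ?_)
    obtain ⟨⟨hvF, hv1⟩, hvO⟩ := hS hv
    rcases hfix v hvF e with h | h | h | h
    · exact hv1 h
    all_goals refine hvO (h ▸ ?_)
    exacts [self_mem_orb r w₀, act_mem_orb r (p_mem_NX r) (self_mem_orb r w₀),
      act_mem_orb r (p_mem_NX r) (act_mem_orb r (p_mem_NX r) (self_mem_orb r w₀))]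
  have htot : O.ncard + rest.ncard = 63 := by
    have h63 : {v : W | v ∈ r.F hex ∧ v ≠ 1}.ncard = 63 := by
      have e : {v : W | v ∈ r.F hex ∧ v ≠ 1} = (r.F hex : Set W) \ {1} := by ext; simp
      rw [e, Set.ncard_diff_singleton_of_mem (one_mem _), ← Nat.card_coe_set_eq]
      exact congrArg (· - 1) r.card_F_hex
    rw [← h63, add_comm]
    exact Set.ncard_diff_add_ncard_of_subset (fun v hv => hOF v hv) (Set.toFinite _)
  have hrest : rest.ncard = 0 ∨ rest.ncard = 45 := by
    obtain ⟨k, hk⟩ := hrest45 rest subset_rfl hinv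
    omega
  refine ⟨⟨w₀, U, hU, hU5, hfixU, hw₀.1, hne, ?_, fun v hv hv1 hvO v' hv' hv1' hvO' => ?_, hfix⟩⟩
  · show O.ncard = 18 ∨ O.ncard = 63
    have hOpos : 0 < O.ncard := (Set.ncard_pos (Set.toFinite _)).2 ⟨w₀, self_mem_orb r w₀⟩
    omega
  · have hsub : orb r v ⊆ rest := by
      rintro _ ⟨a, ha, rfl⟩
      exact hinv a ha v ⟨⟨hv, hv1⟩, hvO⟩
    have h45 := hrest45 (orb r v) hsub fun a ha b hb => act_mem_orb r ha hb
    have hpos : 0 < (orb r v).ncard := Set.ncard_pos (Set.toFinite _) |>.2 ⟨v, self_mem_orb r v⟩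
    have hle := Set.ncard_le_ncard hsub (Set.toFinite _)
    have heq : orb r v = rest := Set.eq_of_subset_of_ncard_le hsub
      (by rcases hrest with h | h <;> omega) (Set.toFinite _)
    have : v' ∈ orb r v := heq ▸ ⟨⟨hv', hv1'⟩, hvO'⟩
    exact this

theorem five_mul {α : Type*} [CommMonoid α] (a b c d e a' b' c' d' e' : α) :
    a * a' * (b * b') * (c * c') * (d * d') * (e * e') =
      a * b * c * d * e * (a' * b' * c' * d' * e') := by
  rw [mul_mul_mul_comm a a' b b', mul_mul_mul_comm (a * b) (a' * b') c c',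
    mul_mul_mul_comm (a * b * c) (a' * b' * c') d d',
    mul_mul_mul_comm (a * b * c * d) (a' * b' * c' * d') e e']

namespace Orbits

variable {r} (o : Orbits r)

/-- The short orbit. -/
def O : Set W := orb r o.w₀

theorem UN : o.U ∈ NX r := (mem_NX r).2 (o.projU ▸ conjS_eq basis_ok.1 hex_normal_data.2.1)

theorem mem_F {v : W} (hv : v ∈ o.O) : v ∈ r.F hex ∧ v ≠ 1 := by
  obtain ⟨a, ha, rfl⟩ := hv
  exact ⟨act_mem_F r ha o.mem, fun e => o.ne ((r.act a).map_eq_one_iff.1 e)⟩

/-- The product over the translates by the element of order five. -/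
def nrm (v : W) : W :=
  v * r.act o.U v * r.act o.U (r.act o.U v) * r.act o.U (r.act o.U (r.act o.U v)) *
    r.act o.U (r.act o.U (r.act o.U (r.act o.U v)))

theorem nrm_mul (a b : W) : o.nrm (a * b) = o.nrm a * o.nrm b := by
  simp only [nrm, map_mul]
  let _ : CommGroup W := { (inferInstance : Group W) with mul_comm := r.comm }
  exact five_mul _ _ _ _ _ _ _ _ _ _

theorem nrm_p (v : W) : o.nrm (r.act r.p v) = r.act r.p (o.nrm v) := by
  simp only [nrm, map_mul, r.act_comm]

theorem five (v : W) : r.act o.U (r.act o.U (r.act o.U (r.act o.U (r.act o.U v)))) = v := by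
  rw [← r.act_mul, ← r.act_mul, ← r.act_mul, ← r.act_mul]
  rw [show o.U * o.U * o.U * o.U * o.U = o.U ^ 5 by simp [pow_succ], o.U5, r.act_one]

theorem nrm_fix (v : W) : r.act o.U (o.nrm v) = o.nrm v := by
  simp only [nrm, map_mul, o.five]
  let _ : CommGroup W := { (inferInstance : Group W) with mul_comm := r.comm }
  simp only [mul_comm, mul_assoc, mul_left_comm]

theorem nrm_of_fix {v : W} (h : r.act o.U v = v) : o.nrm v = v := by
  simp only [nrm, h, r.sq, one_mul]

theorem nrm_U (v : W) : o.nrm (r.act o.U v) = o.nrm v := by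
  simp only [nrm, o.five]
  let _ : CommGroup W := { (inferInstance : Group W) with mul_comm := r.comm }
  simp only [mul_comm, mul_assoc, mul_left_comm]

/-- The part killed by the product. -/
def red (v : W) : W := v * o.nrm v

theorem red_mul (a b : W) : o.red (a * b) = o.red a * o.red b := by
  simp only [red, nrm_mul]
  let _ : CommGroup W := { (inferInstance : Group W) with mul_comm := r.comm }
  simp only [mul_comm, mul_assoc, mul_left_comm]

/-- A vector fixed by an element of the group of order fifteen is fixed by the element of order five. -/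
theorem fix_of_fix {v : W} {i j : ℕ} (h : r.act (r.p ^ i * o.U ^ j) v = v) (hv : r.act o.U v ≠ v) :
    5 ∣ j ∧ (v = 1 ∨ 3 ∣ i) := by
  have hc : Commute (r.p ^ i) (o.U ^ j) := (r.central _).pow_left i
  have hpow : ∀ k : ℕ, r.act ((r.p ^ i * o.U ^ j) ^ k) v = v := by
    intro k
    induction k with
    | zero => rw [pow_zero, r.act_one]
    | succ k ih => rw [pow_succ', r.act_mul, ih, h]
  have h3 : r.act (o.U ^ (3 * j)) v = v := by
    have := hpow 3
    rwa [hc.mul_pow, ← pow_mul, ← pow_mul, mul_comm i, pow_mul, r.cube, one_pow, one_mul,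
      mul_comm j] at this
  have hj : 5 ∣ j := by
    by_contra hj
    have hcop : Nat.Coprime (3 * j) 5 :=
      Nat.Coprime.mul_left (by norm_num) ((Nat.prime_five.coprime_iff_not_dvd.2 hj).symm)
    obtain ⟨m, -, hm⟩ := Nat.exists_mul_mod_eq_one_of_coprime hcop (by norm_num)
    refine hv ?_
    have : ∀ k : ℕ, r.act ((o.U ^ (3 * j)) ^ k) v = v := by
      intro k
      induction k with
      | zero => rw [pow_zero, r.act_one]
      | succ k ih => rw [pow_succ', r.act_mul, ih, h3]
    have h1 := this m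
    rwa [← pow_mul, ← Nat.div_add_mod (3 * j * m) 5, pow_add, pow_mul, o.U5, one_pow, one_mul,
      hm, pow_one] at h1
  refine ⟨hj, ?_⟩
  by_cases hi : 3 ∣ i
  · exact Or.inr hi
  left
  obtain ⟨j, rfl⟩ := hj
  rw [pow_mul, o.U5, one_pow, mul_one, ← Nat.div_add_mod i 3, pow_add, pow_mul, r.cube, one_pow,
    one_mul] at h
  have : i % 3 = 1 ∨ i % 3 = 2 := by omega
  rcases this with e | e <;> rw [e] at h
  · rw [pow_one] at h; exact r.fpf v h
  · rw [pow_two, r.act_mul] at h
    have := congrArg (r.act r.p) h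
    rw [act_pow_three] at this
    exact r.fpf v this.symm

/-- A member of the short orbit added to the fixed vector gives a member only on the line of that
vector. -/
theorem partners₀ (h18 : o.O.ncard = 18) {v : W} (hv : v ∈ o.O) (hvw : v * o.w₀ ∈ o.O) :
    v = r.act r.p o.w₀ ∨ v = r.act r.p (r.act r.p o.w₀) := by
  classical
  have := r.finite_W
  by_cases hfx : r.act o.U v = v
  · rcases o.fix v (o.mem_F hv).1 hfx with h | h | h | h
    · exact absurd h (o.mem_F hv).2
    · exact absurd (show v * o.w₀ = 1 by rw [h, r.sq]) (o.mem_F hvw).2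
    · exact Or.inl h
    · exact Or.inr h
  exfalso
  -- the fifteen translates of `v` are all the others
  set g : Fin 3 × Fin 5 → W := fun ij => r.act (r.p ^ ij.1.1 * o.U ^ ij.2.1) v
  have hginj : Function.Injective g := by
    rintro ⟨i, j⟩ ⟨k, l⟩ e
    simp only [g] at e
    have e' := congrArg (r.act (r.p ^ (3 - k.1) * o.U ^ (5 - l.1))) e
    rw [← r.act_mul, ← r.act_mul] at e'
    have hcm : ∀ a b c d : ℕ, r.p ^ a * o.U ^ b * (r.p ^ c * o.U ^ d) =
        r.p ^ (a + c) * o.U ^ (b + d) := fun a b c d => by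
      rw [pow_add, pow_add, mul_assoc, ← mul_assoc (o.U ^ b), ← ((r.central _).pow_left c).eq]
      simp only [mul_assoc]
    rw [hcm, hcm, Nat.sub_add_cancel k.2.le, Nat.sub_add_cancel l.2.le, r.cube, o.U5, one_mul,
      r.act_one] at e'
    obtain ⟨h5, h3⟩ := o.fix_of_fix e' hfx
    rcases h3 with h | h
    · exact absurd h (o.mem_F hv).2
    · exact Prod.ext (Fin.ext (show i.1 = k.1 by omega)) (Fin.ext (show j.1 = l.1 by omega))
  set T := o.O \ {u | r.act o.U u = u}
  have hpw : ∀ k : ℕ, r.act (r.p ^ k) o.w₀ ∈ o.O := fun k =>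
    act_mem_orb r (pow_mem (p_mem_NX r) k) (self_mem_orb r _)
  have hTcard : T.ncard ≤ 15 := by
    have hsub : {o.w₀, r.act r.p o.w₀, r.act r.p (r.act r.p o.w₀)} ⊆ o.O := by
      intro u hu
      simp only [Set.mem_insert_iff, Set.mem_singleton_iff] at hu
      rcases hu with rfl | rfl | rfl
      · exact self_mem_orb r _
      · simpa using hpw 1
      · simpa [pow_two, r.act_mul] using hpw 2
    have h3 : ({o.w₀, r.act r.p o.w₀, r.act r.p (r.act r.p o.w₀)} : Set W).ncard = 3 := by
      have h1 : r.act r.p o.w₀ ≠ o.w₀ := fun e => o.ne (r.fpf _ e)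
      have h2 : r.act r.p (r.act r.p o.w₀) ≠ r.act r.p o.w₀ := fun e =>
        h1 ((r.act r.p).injective e)
      have h3 : r.act r.p (r.act r.p o.w₀) ≠ o.w₀ := fun e => h1 (by
        have := congrArg (r.act r.p) e
        rw [act_pow_three] at this
        exact this.symm)
      rw [Set.ncard_insert_of_notMem (by simp [Ne.symm h1, Ne.symm h3]),
        Set.ncard_pair (Ne.symm h2)]
    have hTsub : T ⊆ o.O \ {o.w₀, r.act r.p o.w₀, r.act r.p (r.act r.p o.w₀)} := by
      rintro u ⟨hu, hne⟩
      refine ⟨hu, fun h => hne ?_⟩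
      simp only [Set.mem_insert_iff, Set.mem_singleton_iff] at h
      rcases h with rfl | rfl | rfl
      · exact o.fixU
      · show r.act o.U _ = _; rw [r.act_comm, o.fixU]
      · show r.act o.U _ = _; rw [r.act_comm, r.act_comm, o.fixU]
    refine (Set.ncard_le_ncard hTsub (Set.toFinite _)).trans ?_
    rw [Set.ncard_diff hsub (Set.toFinite _), h18, h3]
  have hgT : Set.range g ⊆ T := by
    rintro _ ⟨⟨i, j⟩, rfl⟩
    refine ⟨act_mem_orb r (mul_mem (pow_mem (p_mem_NX r) _) (pow_mem o.UN _)) hv, fun h => ?_⟩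
    apply hfx
    have hc : Commute o.U (r.p ^ i.1 * o.U ^ j.1) :=
      ((r.central _).pow_left _).symm.mul_right ((Commute.refl _).pow_right _)
    have h' : r.act o.U (g (i, j)) = g (i, j) := h
    rw [← r.act_mul, hc.eq, r.act_mul] at h'
    exact (r.act _).injective h'
  have hgeq : Set.range g = T := by
    refine Set.eq_of_subset_of_ncard_le hgT ?_ (Set.toFinite _)
    rw [Set.ncard_range_of_injective hginj]
    simpa using hTcard
  have hvw' : r.act o.U (v * o.w₀) ≠ v * o.w₀ := fun h => hfx (by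
    rw [map_mul, o.fixU] at h
    exact mul_right_cancel h)
  obtain ⟨⟨i, j⟩, hij⟩ : v * o.w₀ ∈ Set.range g := hgeq ▸ ⟨hvw, hvw'⟩
  simp only [g] at hij
  have hred : o.red (v * o.w₀) = o.red v := by
    rw [o.red_mul, show o.red o.w₀ = 1 by rw [red, o.nrm_of_fix o.fixU, r.sq], mul_one]
  have hredg : o.red (r.act (r.p ^ i.1 * o.U ^ j.1) v) = r.act (r.p ^ i.1 * o.U ^ j.1) (o.red v) := by
    have hp : ∀ (k : ℕ) (a : W), o.nrm (r.act (r.p ^ k) a) = r.act (r.p ^ k) (o.nrm a) := by
      intro k a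
      induction k with
      | zero => simp [r.act_one]
      | succ k ih => rw [pow_succ', r.act_mul, o.nrm_p, ih, ← r.act_mul]
    have hu : ∀ (k : ℕ) (a : W), o.nrm (r.act (o.U ^ k) a) = r.act (o.U ^ k) (o.nrm a) := by
      intro k a
      induction k with
      | zero => simp [r.act_one]
      | succ k ih =>
        rw [pow_succ', r.act_mul, r.act_mul, o.nrm_U, ih]
        rw [← r.act_mul, ← pow_succ', pow_succ, r.act_mul, o.nrm_fix]
    rw [red, red, r.act_mul, hp, hu, ← r.act_mul, ← r.act_mul, ← map_mul]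
  rw [← hij, hredg] at hred
  have hr1 : o.red v ≠ 1 := fun h => by
    have h' : v * o.nrm v = 1 := h
    refine hfx ?_
    rw [show v = o.nrm v by rw [eq_comm, ← inv_eq_of_mul_eq_one_right h', r.inv_eq]]
    exact o.nrm_fix v
  have hrfix : r.act o.U (o.red v) ≠ o.red v := fun h => hr1 (by
    rw [← o.nrm_of_fix h, red, o.nrm_mul, o.nrm_of_fix (o.nrm_fix v), r.sq])
  obtain ⟨h5, h3⟩ := o.fix_of_fix hred hrfix
  rcases h3 with h | h
  · exact hr1 h
  have hi0 : i.1 = 0 := by have := i.2; omega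
  have hj0 : j.1 = 0 := by have := j.2; omega
  rw [hi0, hj0, pow_zero, pow_zero, one_mul, r.act_one] at hij
  exact o.ne (mul_eq_left.1 hij.symm)

/-- Each member of the short orbit has exactly two partners. -/
theorem partners (h18 : o.O.ncard = 18) {w : W} (hw : w ∈ o.O) :
    {v | v ∈ o.O ∧ v * w ∈ o.O} = {r.act r.p w, r.act r.p (r.act r.p w)} := by
  obtain ⟨a, ha, rfl⟩ := hw
  ext v
  simp only [Set.mem_setOf_eq, Set.mem_insert_iff, Set.mem_singleton_iff]
  constructor
  · rintro ⟨hv, hvw⟩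
    have h1 := act_mem_orb r (inv_mem ha) hv
    have h2 : r.act a⁻¹ v * o.w₀ ∈ o.O := by
      have := act_mem_orb r (inv_mem ha) hvw
      rwa [map_mul, r.act_inv_act] at this
    rcases o.partners₀ h18 h1 h2 with h | h
    · left; rw [← r.act_comm a, ← h, r.act_act_inv]
    · right; rw [← r.act_comm a, ← r.act_comm a, ← h, r.act_act_inv]
  · have hp : ∀ {u : W}, u ∈ o.O → r.act r.p u ∈ o.O := fun hu => act_mem_orb r (p_mem_NX r) hu
    have h0 : r.act a o.w₀ ∈ o.O := ⟨a, ha, rfl⟩
    set w := r.act a o.w₀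
    have h3 := prod_three r w
    rintro (rfl | rfl)
    · refine ⟨hp h0, ?_⟩
      rw [r.comm, eq_inv_of_mul_eq_one_left h3, r.inv_eq]
      exact hp (hp h0)
    · refine ⟨hp (hp h0), ?_⟩
      have : r.act r.p (r.act r.p w) * w = r.act r.p w := by
        rw [← r.inv_eq (r.act r.p (r.act r.p w)), ← eq_inv_of_mul_eq_one_left h3,
          r.comm w (r.act r.p w), mul_assoc, r.sq, mul_one]
      rw [this]; exact hp h0

/-- A member of the short orbit lies in only one of the fixed spaces. -/
theorem unique_space {w : W} (hw : w ∈ o.O) {g : M} (hg : w ∈ r.F (conjS g hex)) :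
    conjS g hex = hex := by
  have := r.finite_X
  obtain ⟨a, ha, rfl⟩ := hw
  set n := r.proj a
  have hn : conjS n hex = hex := (mem_NX r).1 ha
  have hw0 : o.w₀ ∈ r.F (conjS (n⁻¹ * g) hex) := by
    have := r.mem_F_conj (A := conjS g hex) (x := a⁻¹) (w := o.w₀)
    rw [map_inv, conjS_conjS, inv_inv] at this
    exact this.2 hg
  by_contra hne
  have hne' : conjS (n⁻¹ * g) hex ≠ hex := fun h => hne (by
    have := congrArg (conjS n) h
    rwa [conjS_conjS, mul_inv_cancel_left, hn] at this)
  let K : Subgroup X :=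
    { carrier := {x | r.act x o.w₀ = o.w₀}
      one_mem' := r.act_one _
      mul_mem' := fun {a b} ha hb => by
        show r.act (a * b) o.w₀ = o.w₀
        rw [Set.mem_setOf_eq] at ha hb
        rw [r.act_mul, hb, ha]
      inv_mem' := fun {a} ha => by
        show r.act a⁻¹ o.w₀ = o.w₀
        rw [Set.mem_setOf_eq] at ha
        conv_lhs => rw [← ha]
        exact r.act_inv_act a _ }
  have hsub : ∀ A : Subgroup M, (∀ b ∈ A, b * b = 1) → o.w₀ ∈ r.F A → A ≤ K.map r.proj := by
    intro A hA hF b hb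
    obtain ⟨x, hx, hxx⟩ := r.exists_lift_two hA hb
    exact ⟨x, hF x ⟨hx ▸ hb, hxx⟩, hx⟩
  obtain ⟨x, hx, y, hy, hxy, ox, oy, hyx, hyx2⟩ := exists_three hne'
    (hsub hex sq_hex o.mem) (hsub _ (by
      rintro _ ⟨b, hb, rfl⟩
      rw [← map_mul, sq_hex b hb, map_one]) hw0) ⟨o.U, o.fixU, o.projU⟩
  -- the preimage of the group generated by the two elements
  set R₀ := (Subgroup.closure {x, y}).comap r.proj
  have hcl : Nat.card ↥(Subgroup.closure {x, y}) = 9 := by
    haveI : Fact (Nat.Prime 3) := ⟨Nat.prime_three⟩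
    have hxp : IsPGroup 3 ↥(Subgroup.closure {x, y}) := by
      intro b
      refine ⟨1, Subtype.ext ?_⟩
      have : ∀ c ∈ Subgroup.closure {x, y}, c ^ 3 = 1 ∧ Commute c x ∧ Commute c y := by
        intro c hc
        refine Subgroup.closure_induction (p := fun c _ => c ^ 3 = 1 ∧ Commute c x ∧ Commute c y)
          ?_ ⟨one_pow _, Commute.one_left _, Commute.one_left _⟩ ?_ ?_ hc
        · rintro c (rfl | rfl)
          exacts [⟨ox ▸ pow_orderOf_eq_one _, Commute.refl _, hxy⟩,
            ⟨oy ▸ pow_orderOf_eq_one _, hxy.symm, Commute.refl _⟩]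
        · intro c d hcm hdm hc hd
          refine ⟨?_, hc.2.1.mul_left hd.2.1, hc.2.2.mul_left hd.2.2⟩
          have hcd : Commute c d := by
            refine Subgroup.closure_induction (p := fun e _ => Commute c e) ?_ (Commute.one_right _)
              (fun _ _ _ _ h h' => h.mul_right h') (fun _ _ h => h.inv_right) hdm
            rintro e (rfl | rfl)
            exacts [hc.2.1, hc.2.2]
          rw [hcd.mul_pow, hc.1, hd.1, one_mul]
        · intro c _ hc
          exact ⟨by rw [inv_pow, hc.1, inv_one], hc.2.1.inv_left, hc.2.2.inv_left⟩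
      simpa using (this b.1 b.2).1
    obtain ⟨e, he⟩ := IsPGroup.iff_card.1 hxp
    have hdvd : 3 ^ e ∣ 443520 := by
      rw [← he, ← CfsgLib.Mathieu.card_M22]; exact Subgroup.card_subgroup_dvd_card _
    have hle : e ≤ 2 := by
      by_contra h
      have := (pow_dvd_pow 3 (by omega : 3 ≤ e)).trans hdvd
      norm_num at this
    have hgt : 3 < 3 ^ e := by
      rw [← he]
      have hlt : Subgroup.zpowers x < Subgroup.closure {x, y} := by
        refine lt_of_le_of_ne (Subgroup.zpowers_le.2 (Subgroup.subset_closure (by simp))) fun h => ?_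
        have : y ∈ Subgroup.zpowers x := h ▸ Subgroup.subset_closure (by simp)
        classical
        rw [mem_zpowers_iff_mem_range_orderOf, ox] at this
        obtain ⟨i, hi, hiy⟩ := Finset.mem_image.1 this
        rw [Finset.mem_range] at hi
        interval_cases i
        · rw [← hiy, pow_zero, orderOf_one] at oy; norm_num at oy
        · exact hyx (by rw [← hiy, pow_one])
        · exact hyx2 (by rw [← hiy, pow_two])
      have h3 : Nat.card (Subgroup.zpowers x) = 3 := by rw [Nat.card_zpowers, ox]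
      rw [← h3]
      exact Nat.lt_of_le_of_ne (Subgroup.card_le_of_le hlt.le) fun e =>
        hlt.ne (Subgroup.eq_of_le_of_card_ge hlt.le e.ge)
    rw [he]
    interval_cases e <;> omega
  have hR27 : Nat.card R₀ = 27 := by rw [r.card_comap, hcl]
  have hX : Nat.card X = 27 * 49280 := by
    have := r.card_comap ⊤
    rw [Subgroup.comap_top, Subgroup.card_top, Subgroup.card_top, CfsgLib.Mathieu.card_M22] at this
    rw [this]
  haveI : Fact (Nat.Prime 3) := ⟨Nat.prime_three⟩
  have hp := r.p_mem_commutator (Sylow.ofCard R₀ (by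
    rw [hR27, hX, show (27 : ℕ) = 3 ^ 3 by norm_num, Nat.factorization_mul (by norm_num) (by norm_num),
      Nat.Prime.factorization_pow Nat.prime_three]
    simp [Nat.factorization_eq_zero_of_not_dvd (by norm_num : ¬(3 ∣ 49280))]))
  have hle : Subgroup.closure {x, y} ≤ K.map r.proj :=
    (Subgroup.closure_le _).2 (by rintro b (rfl | rfl) <;> assumption)
  have hcK : ⁅R₀, R₀⁆ ≤ K := by
    rw [Subgroup.commutator_le]
    intro a ha b hb
    obtain ⟨a', ha', ea⟩ := hle ha
    obtain ⟨b', hb', eb⟩ := hle hb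
    obtain ⟨i, hi⟩ := r.exists_pow (x := a'⁻¹ * a) (by rw [map_mul, map_inv, ea, inv_mul_cancel])
    obtain ⟨j, hj⟩ := r.exists_pow (x := b'⁻¹ * b) (by rw [map_mul, map_inv, eb, inv_mul_cancel])
    rw [inv_mul_eq_iff_eq_mul] at hi hj
    have c1 : ∀ y : X, Commute (r.p ^ i) y := fun y => (r.central y).zpow_left i
    have c2 : ∀ y : X, Commute (r.p ^ j) y := fun y => (r.central y).zpow_left j
    rw [hi, hj, show ⁅a' * r.p ^ i, b' * r.p ^ j⁆ = ⁅a', b'⁆ by
      rw [commutatorElement_def, commutatorElement_def, mul_inv_rev, mul_inv_rev]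
      calc a' * r.p ^ i * (b' * r.p ^ j) * ((r.p ^ i)⁻¹ * a'⁻¹) * ((r.p ^ j)⁻¹ * b'⁻¹)
          = a' * (r.p ^ i * (b' * r.p ^ j)) * (r.p ^ i)⁻¹ * a'⁻¹ * (r.p ^ j)⁻¹ * b'⁻¹ := by
            group
        _ = a' * b' * (r.p ^ j * a'⁻¹) * (r.p ^ j)⁻¹ * b'⁻¹ := by rw [(c1 _).eq]; group
        _ = a' * b' * a'⁻¹ * b'⁻¹ := by rw [(c2 _).eq]; group]
    exact mul_mem (mul_mem (mul_mem ha' hb') (inv_mem ha')) (inv_mem hb')
  exact o.ne (r.fpf _ (hcK hp))

end Orbits

end CfsgLib.J4Type5
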