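import Cfsg.Agent.J4Type5.Frame
import Cfsg.Agent.J4Type5.Module

/-!
An invariant property with 36 members in the extraspecial part of an elementary abelian subgroup of
order `2 ^ 11` is given by the short orbit.
-/

set_option autoImplicit false

namespace CfsgLib.Jf18.BigElem

open CfsgLib.J4Type67 CfsgLib.J4Type5
open scoped Pointwise

universe u

variable {H : Type u} [Group H] [Finite H] {d : Setup H} (B : BigElem d)

theorem q_mem_F {x : H} (hx : x ∈ d.E) : x ∈ B.V ↔ d.q x hx ∈ (d.rep.twist B.g).F hex := by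
  rw [Rep.twist_F]
  constructor
  · intro hV
    obtain ⟨_, h⟩ := d.mem_pre.1 (B.inf_E.le ⟨hV, hx⟩)
    exact h
  · intro h
    exact (B.inf_E.ge (d.mem_pre.2 ⟨hx, h⟩)).1

theorem ncard_preimage (S : Set d.W) : {x | ∃ hx : x ∈ d.E, d.q x hx ∈ S}.ncard = 2 * S.ncard := by
  have h := Nat.card_congr (QuotientGroup.preimageMkEquivSubgroupProdSet (d.Z.subgroupOf d.E) S)
  rw [Nat.card_prod, Nat.card_congr (Subgroup.subgroupOfEquivOfLe d.Z_le_E).toEquiv, d.card_Z,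
    Nat.card_coe_set_eq S] at h
  rw [← h, ← Nat.card_coe_set_eq]
  exact Nat.card_congr
    { toFun := fun x => ⟨⟨x.1, x.2.1⟩, x.2.2⟩
      invFun := fun e => ⟨e.1.1, e.1.2, e.2⟩
      left_inv := fun _ => rfl
      right_inv := fun _ => rfl }

theorem flip {x : H} (hx : x ∈ d.E) (hxZ : x ∉ d.Z) : ∃ e ∈ d.E, e * x * e⁻¹ = x * d.z := by
  obtain ⟨e, he, hne⟩ : ∃ e ∈ d.E, ¬ Commute x e := by
    by_contra h
    push Not at h
    exact hxZ (d.mem_Z.2 (d.centE x hx h))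
  refine ⟨e, he, ?_⟩
  rcases d.commE e he x hx with h | h
  · exact absurd (mul_inv_eq_iff_eq_mul.1 (mul_inv_eq_one.1 h)).symm hne
  · rw [mul_inv_eq_iff_eq_mul.1 h, (d.zc x).eq]

variable {P : H → Prop}
  (hP : ∀ h ∈ Subgroup.normalizer (B.V : Set H), ∀ x, P x → P (h * x * h⁻¹))
  (hPZ : ∀ x ∈ d.Z, ¬ P x) (h36 : {x | x ∈ B.V ∧ x ∈ d.E ∧ P x}.ncard = 36)

include hP hPZ h36 in
/-- The members are the preimage of the short orbit. -/
theorem exists_short : ∃ o : Orbits (d.rep.twist B.g), o.O.ncard = 18 ∧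
    ∀ x (hx : x ∈ d.E), (x ∈ B.V ∧ P x ↔ d.q x hx ∈ o.O) := by
  classical
  have := d.rep.finite_W
  set r := d.rep.twist B.g
  set T : Set d.W := {w | ∃ x, ∃ hx : x ∈ d.E, (x ∈ B.V ∧ P x) ∧ d.q x hx = w}
  have hmemT : ∀ x (hx : x ∈ d.E), d.q x hx ∈ T → x ∈ B.V ∧ P x := by
    rintro x hx ⟨y, hy, ⟨hyV, hyP⟩, e⟩
    rcases d.mem_Z.1 ((d.q_eq_iff).1 e) with h | h
    · rw [← inv_mul_eq_one.1 h]; exact ⟨hyV, hyP⟩
    · rw [inv_mul_eq_iff_eq_mul] at h
      obtain ⟨e', he', hf⟩ := flip hy (fun hZ => hPZ y hZ hyP)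
      rw [h]
      refine ⟨mul_mem hyV B.z_mem_D.1, ?_⟩
      rw [← hf]
      exact hP e' (B.E_le_normalizer he') y hyP
  have hT18 : T.ncard = 18 := by
    have h := ncard_preimage T
    rw [show {x | ∃ hx : x ∈ d.E, d.q x hx ∈ T} = {x | x ∈ B.V ∧ x ∈ d.E ∧ P x} from Set.ext
      fun x => ⟨fun ⟨hx, h⟩ => ⟨(hmemT x hx h).1, hx, (hmemT x hx h).2⟩,
        fun ⟨h1, hx, h2⟩ => ⟨hx, x, hx, ⟨h1, h2⟩, rfl⟩⟩, h36] at h
    omega
  have hTF : ∀ w ∈ T, w ∈ r.F hex ∧ w ≠ 1 := by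
    rintro w ⟨x, hx, ⟨hxV, hxP⟩, rfl⟩
    exact ⟨(B.q_mem_F hx).1 hxV, fun e => hPZ x ((d.q_one_iff).1 e) hxP⟩
  have hinv : ∀ a ∈ NX r, ∀ w ∈ T, r.act a w ∈ T := by
    intro a
    induction a using QuotientGroup.induction_on with
    | H c =>
      intro hs w hw
      obtain ⟨x, hx, ⟨hxV, hxP⟩, rfl⟩ := hw
      replace hs := (mem_NX r).1 hs
      have hn : conjS (d.sigma c) B.A = B.A := by
        have e : r.proj (QuotientGroup.mk c) = B.g⁻¹ * d.sigma c * B.g := by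
          simp [r, Rep.twist]; rfl
        rw [e] at hs
        ext b
        rw [mem_conjS, mem_conjS, mem_conjS]
        have := SetLike.ext_iff.1 hs (B.g⁻¹ * b * B.g)
        rw [mem_conjS] at this
        simpa [mul_assoc] using this
      exact ⟨_, d.normalE c x hx, ⟨B.conj_C c.2 hn hxV, hP _ (B.C_mem_normalizer c.2 hn) _ hxP⟩,
        (d.actH_q (c : H) hx).symm⟩
  obtain ⟨o⟩ := exists_orbits r
  set S := {w : d.W | w ∈ r.F hex ∧ w ≠ 1}
  have h63 : S.ncard = 63 := by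
    have e : S = (r.F hex : Set d.W) \ {1} := by ext; simp [S]
    rw [e, Set.ncard_sdiff_singleton_of_mem (one_mem _), ← Nat.card_coe_set_eq]
    exact congrArg (· - 1) r.card_F_hex
  have hOS : o.O ⊆ S := fun v hv => o.mem_F hv
  obtain ⟨v, hv⟩ : T.Nonempty := Set.nonempty_of_ncard_ne_zero (by omega)
  have key : T = o.O ∧ o.O.ncard = 18 := by
    have hsize : o.O.ncard = 18 ∨ o.O.ncard = 63 := o.size
    by_cases hvO : v ∈ o.O
    · have hsub : o.O ⊆ T := fun u hu => by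
        obtain ⟨a, ha, rfl⟩ := orb_trans r hvO hu
        exact hinv a ha v hv
      have hle := Set.ncard_le_ncard hsub (Set.toFinite _)
      exact ⟨(Set.eq_of_subset_of_ncard_le hsub (by omega) (Set.toFinite _)).symm, by omega⟩
    · exfalso
      have hsub : S \ o.O ⊆ T := fun u hu => by
        obtain ⟨a, ha, rfl⟩ := o.rest v (hTF v hv).1 (hTF v hv).2 hvO u hu.1.1 hu.1.2 hu.2
        exact hinv a ha v hv
      have hle := Set.ncard_le_ncard hsub (Set.toFinite _)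
      have hpos : 0 < (S \ o.O).ncard :=
        (Set.ncard_pos (Set.toFinite _)).2 ⟨v, hTF v hv, hvO⟩
      rw [Set.ncard_sdiff hOS (Set.toFinite _)] at hle hpos
      omega
  exact ⟨o, key.2, fun x hx => ⟨fun h => key.1 ▸ (⟨x, hx, h, rfl⟩ : d.q x hx ∈ T),
    fun h => hmemT x hx (key.1.symm ▸ h)⟩⟩

include hP hPZ h36 in
/-- A member has four partners. -/
theorem partners_card {w : H} (hwV : w ∈ B.V) (hwE : w ∈ d.E) (hwP : P w) :
    {x | x ∈ B.V ∧ x ∈ d.E ∧ P x ∧ P (x * w)}.ncard = 4 := by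
  obtain ⟨o, h18, hiff⟩ := B.exists_short hP hPZ h36
  have hw : d.q w hwE ∈ o.O := (hiff w hwE).1 ⟨hwV, hwP⟩
  set v := d.q w hwE
  have hS : {x | x ∈ B.V ∧ x ∈ d.E ∧ P x ∧ P (x * w)} =
      {x | ∃ hx : x ∈ d.E, d.q x hx ∈ {u | u ∈ o.O ∧ u * v ∈ o.O}} := by
    ext x
    constructor
    · rintro ⟨hxV, hx, h1, h2⟩
      exact ⟨hx, (hiff x hx).1 ⟨hxV, h1⟩,
        (hiff (x * w) (mul_mem hx hwE)).1 ⟨mul_mem hxV hwV, h2⟩⟩
    · rintro ⟨hx, h1, h2⟩
      obtain ⟨hxV, hxP⟩ := (hiff x hx).2 h1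
      exact ⟨hxV, hx, hxP, ((hiff (x * w) (mul_mem hx hwE)).2 h2).2⟩
  rw [hS, ncard_preimage, o.partners h18 hw, Set.ncard_pair]
  intro e
  refine (o.mem_F hw).2 ((d.rep.twist B.g).fpf _ ?_)
  exact (((d.rep.twist B.g).act (d.rep.twist B.g).p).injective e).symm

include hP hPZ h36 in
/-- An element fixing such a member, or one outside the extraspecial group, normalises the subgroup. -/
theorem fix_mem_normalizer {a h : H} (haV : a ∈ B.V) (hha : h * a * h⁻¹ = a)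
    (ha : a ∈ d.E → P a) : h ∈ Subgroup.normalizer (B.V : Set H) := by
  obtain ⟨B', hB'⟩ := B.exists_conj h
  have haV' : a ∈ B'.V := by rw [hB']; exact ⟨a, haV, hha⟩
  suffices hA : B'.A = B.A from B.mem_normalizer_of (by rw [← hB', B'.innPre_V, hA])
  have hsame : conjS (B.g⁻¹ * B'.g) hex = hex → B'.A = B.A := fun e => by
    have := congrArg (conjS B.g) e
    rwa [conjS_conjS, mul_inv_cancel_left] at this
  apply hsame
  by_cases haE : a ∈ d.E
  · obtain ⟨o, -, hiff⟩ := B.exists_short hP hPZ h36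
    refine o.unique_space ((hiff a haE).1 ⟨haV, ha haE⟩) ?_
    rw [Rep.twist_F, conjS_conjS, mul_inv_cancel_left]
    obtain ⟨_, h'⟩ := d.mem_pre.1 (B'.inf_E.le ⟨haV', haE⟩)
    exact h'
  · obtain ⟨m, hm, hma⟩ := B.pi_mem a haV
    obtain ⟨m', hm', hma'⟩ := B'.pi_mem a haV'
    have e : m' = m := conj_injective_M (hma'.trans hma.symm)
    subst e
    refine hex_inter (a := B.g⁻¹ * m' * B.g) (mem_conjS.1 hm) ?_ fun e => haE ?_
    · rw [mem_conjS]
      have := mem_conjS.1 hm'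
      convert this using 1
      group
    · refine B.ker_mem a haV ((MonoidHom.mem_ker).2 ?_)
      rw [← hma, show m' = 1 by
        rw [show m' = B.g * (B.g⁻¹ * m' * B.g) * B.g⁻¹ by group, e, mul_one, mul_inv_cancel], map_one]

end CfsgLib.Jf18.BigElem
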