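import Cfsg.Agent.J4Type5.Counts
import Cfsg.Agent.J4Type5.Shape
import Cfsg.Agent.J4Type5.Ambient
import Cfsg.Agent.J4Type5.OutOrbit
import Cfsg.Agent.J4Type5.Cent

/-!
Janko-four type: the local facts at an involution in an elementary abelian subgroup of order
`2 ^ 11`, and the two orbits of its normaliser.
-/

set_option autoImplicit false
set_option linter.unusedSectionVars false

namespace CfsgLib.Jf18.Ctx

open CfsgLib.J4Type67 CfsgLib.J4Type5
open CfsgLib.LargeFischer45 (Other Local InQ other_conj)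
open scoped Pointwise

universe u

variable {G : Type u} [Group G] [Finite G] {c : Ctx G} {V : Subgroup G} (hB : c.Big V)

include hB in
theorem Big.facts [IsSimpleGroup G] :
    {x | x ∈ V ∧ x ∈ c.E ∧ IsConj c.z x}.ncard = 91 ∧
      {x | x ∈ V ∧ IsConj c.z x}.ncard = 1771 := by
  obtain ⟨c', hz, u, hu, huV, huz, hcj⟩ := c.exists_good_ctx hB
  have hE : c'.E = c.E := by
    show Cfsg.twoCoreOfCentralizer c'.z = Cfsg.twoCoreOfCentralizer c.z
    rw [hz]
  have hB' : c'.Big V := ⟨hB.sq, hB.card, hz.symm ▸ hB.mem⟩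
  have h := hB'.counts (c'.centralizer_le hB.sq hB.card hB'.mem) hu huV huz hcj
  rw [hz, hE] at h
  exact h

theorem other_of_setup {x : c.H} (hx : x ∈ c.setup.Z) : ¬ Other c.z (x : G) := by
  intro h
  rcases c.setup.mem_Z.1 hx with rfl | rfl
  · exact h.1 rfl
  · exact h.2 (IsConj.refl _)

include hB in
theorem Big.shape_card {B : BigElem c.setup} (hBV : ∀ x : c.H, x ∈ B.V ↔ (x : G) ∈ V)
    [IsSimpleGroup G] :
    {x : c.H | x ∈ B.V ∧ x ∈ c.setup.E ∧ Other c.z (x : G)}.ncard = 36 := by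
  rw [← hB.count_other hB.facts.1, ncard_setup fun x hx => hB.le_H hx.1]
  congr 1
  ext x
  simp only [Set.mem_setOf_eq, hBV]
  rfl

include hB in
/-- The 36 generate the part in the extraspecial group. -/
theorem Big.thirty_six_span [IsSimpleGroup G] {K : Subgroup G}
    (hK : ∀ x ∈ V, x ∈ c.E → Other c.z x → x ∈ K) : ∀ x ∈ V, x ∈ c.E → x ∈ K := by
  obtain ⟨B, hBV⟩ := hB.exists_bigElem
  have hP : ∀ h ∈ Subgroup.normalizer (B.V : Set c.H), ∀ x : c.H, Other c.z (x : G) →
      Other c.z ((h * x * h⁻¹ : c.H) : G) := fun h _ x hx => (other_conj (h : G)).2 hx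
  obtain ⟨o, h18, hiff⟩ := B.exists_short (P := fun x : c.H => Other c.z (x : G)) hP
    (fun x hx => other_of_setup hx) (hB.shape_card hBV)
  have hKo : ∀ y : c.H, ∀ hy : y ∈ c.setup.E, c.setup.q y hy ∈ o.O → y ∈ K.subgroupOf c.H := fun y hy h => by
    obtain ⟨hV', hO⟩ := (hiff y hy).2 h
    exact hK _ ((hBV y).1 hV') hy hO
  -- the subgroup generated by the short orbit is the whole fixed space
  set S := Subgroup.closure o.O with hS
  have hSF : S ≤ (c.setup.rep.twist B.g).F hex := (Subgroup.closure_le _).2 fun v hv => (o.mem_F hv).1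
  have hall : ∀ v ∈ (c.setup.rep.twist B.g).F hex, v ∈ S := by
    intro v hv
    by_cases hex' : ∃ w ∈ S, w ≠ 1 ∧ w ∉ o.O
    · obtain ⟨w, hwS, hw1, hwO⟩ := hex'
      by_cases hv1 : v = 1
      · rw [hv1]; exact one_mem _
      by_cases hvO : v ∈ o.O
      · exact Subgroup.subset_closure hvO
      obtain ⟨a, ha, rfl⟩ := o.rest w (hSF hwS) hw1 hwO v hv hv1 hvO
      have hle : S ≤ S.comap ((c.setup.rep.twist B.g).act a).toMonoidHom :=
        (Subgroup.closure_le _).2 fun u hu => Subgroup.subset_closure (act_mem_orb _ ha hu)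
      exact hle hwS
    · exfalso
      push Not at hex'
      have e : (S : Set c.setup.W) = insert 1 o.O := Set.ext fun u => ⟨fun hu => by
          by_cases h1 : u = 1
          · exact Or.inl h1
          · exact Or.inr (hex' u hu h1),
        fun hu => hu.elim (fun h => h ▸ one_mem S) fun h => Subgroup.subset_closure h⟩
      have := c.setup.rep.finite_W
      have hd := Subgroup.card_dvd_of_le hSF
      rw [(c.setup.rep.twist B.g).card_F_hex, ← SetLike.coe_sort_coe, Nat.card_coe_set_eq, e,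
        Set.ncard_insert_of_notMem (fun h => (o.mem_F h).2 rfl) (Set.toFinite _), h18] at hd
      norm_num at hd
  have himg : S ≤ c.setup.img (K.subgroupOf c.H) := (Subgroup.closure_le _).2 fun v hv => by
    obtain ⟨y, hy, rfl⟩ := c.setup.q_surj v
    exact c.setup.mem_img.2 ⟨y, hy, hKo y hy hv, rfl⟩
  obtain ⟨v, hv⟩ : o.O.Nonempty := Set.nonempty_of_ncard_ne_zero (by rw [h18]; norm_num)
  obtain ⟨y, hy, rfl⟩ := c.setup.q_surj v
  have hz : c.setup.z ∈ K.subgroupOf c.H := by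
    have hyz : c.setup.q (y * c.setup.z) (mul_mem hy c.setup.zmem) = c.setup.q y hy := by
      rw [c.setup.q_mul hy c.setup.zmem, c.setup.q_one_iff.2 (Subgroup.mem_zpowers _), mul_one]
    have := mul_mem (inv_mem (hKo y hy hv)) (hKo (y * c.setup.z) _ (hyz.symm ▸ hv))
    rwa [inv_mul_cancel_left] at this
  intro x hxV hxE
  have hxF := (B.q_mem_F (x := ⟨x, hB.le_H hxV⟩) hxE).1 ((hBV _).2 hxV)
  obtain ⟨k, hk, hkK, e⟩ := c.setup.mem_img.1 (himg (hall _ hxF))
  have hkx := c.setup.q_eq_iff.1 e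
  have := mul_mem hkK (show k⁻¹ * (⟨x, hB.le_H hxV⟩ : c.H) ∈ K.subgroupOf c.H from
    (Subgroup.zpowers_le.2 hz : c.setup.Z ≤ K.subgroupOf c.H) hkx)
  rw [mul_inv_cancel_left] at this
  exact this

include hB in
/-- A member fused to the involution outside the extraspecial group misses some of the 36. -/
theorem Big.not_sub [IsSimpleGroup G] :
    ∃ s ∈ V, IsConj c.z s ∧ ∃ d ∈ V, d ∈ c.E ∧ Other c.z d ∧ ¬ InQ c.z c.E s d := by
  obtain ⟨h91, h1771⟩ := hB.facts
  obtain ⟨s, hsV, hs, hsE⟩ : ∃ s ∈ V, IsConj c.z s ∧ s ∉ c.E := by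
    by_contra h
    push Not at h
    have : {x | x ∈ V ∧ IsConj c.z x} = {x | x ∈ V ∧ x ∈ c.E ∧ IsConj c.z x} := Set.ext fun x =>
      ⟨fun hx => ⟨hx.1, h x hx.1 hx.2, hx.2⟩, fun hx => ⟨hx.1, hx.2.2⟩⟩
    rw [this, h91] at h1771
    omega
  refine ⟨s, hsV, hs, ?_⟩
  by_contra hno
  push Not at hno
  obtain ⟨g, hg⟩ := isConj_iff.1 hs
  set K := c.E.map (MulAut.conj g).toMonoidHom
  have hK : ∀ x : G, x ∈ K ↔ g⁻¹ * x * g ∈ c.E := fun x => mem_conjS
  have hsub : ∀ x ∈ V, x ∈ c.E → x ∈ K := hB.thirty_six_span fun x hxV hxE hxo => by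
    obtain ⟨k, hk, hkE⟩ := hno x hxV hxE hxo
    have hc : (g⁻¹ * k) * c.z = c.z * (g⁻¹ * k) := by
      have := congrArg (fun y => g⁻¹ * y * k) (hk.trans hg.symm)
      simpa [mul_assoc] using this
    have h' := (c.setting.normalized _ hc _).1 hkE
    rw [hK]
    convert h' using 1
    group
  set W := conjS g⁻¹ V
  have hmemW : ∀ x : G, x ∈ W ↔ g * x * g⁻¹ ∈ V := fun x => by rw [mem_conjS, inv_inv]
  have hBW : c.Big W := by
    refine ⟨?_, (card_conjS _ _).trans hB.card, (hmemW _).2 (hg ▸ hsV)⟩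
    rintro _ ⟨b, hb, rfl⟩
    rw [← map_mul, hB.sq b hb, map_one]
  have hW := hBW.card_inter
  have h1 : {x | x ∈ V ∧ x ∈ K}.ncard = 128 := by
    rw [← hW, ← Set.ncard_image_of_injective {x | x ∈ W ∧ x ∈ c.E} (MulAut.conj g).injective]
    congr 1
    ext x
    simp only [Set.mem_setOf_eq, Set.mem_image, MulAut.conj_apply]
    constructor
    · rintro ⟨hxV, hxK⟩
      exact ⟨g⁻¹ * x * g, ⟨(hmemW _).2 (by simpa [mul_assoc] using hxV), (hK x).1 hxK⟩, by group⟩
    · rintro ⟨y, ⟨hyW, hyE⟩, rfl⟩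
      exact ⟨(hmemW y).1 hyW, (hK _).2 (by simpa [mul_assoc] using hyE)⟩
  have heq : {x | x ∈ V ∧ x ∈ c.E} = {x | x ∈ V ∧ x ∈ K} :=
    Set.eq_of_subset_of_ncard_le (fun x hx => ⟨hx.1, hsub x hx.1 hx.2⟩)
      (by rw [h1, hB.card_inter]) (Set.toFinite _)
  refine hsE (heq.ge ⟨hsV, (hK s).2 ?_⟩).2
  rw [← hg, show g⁻¹ * (g * c.z * g⁻¹) * g = c.z by group]
  exact c.z_mem_E

include hB in
theorem Big.partners [IsSimpleGroup G] {w : G} (hw : w ∈ V) (hwE : w ∈ c.E) (hwo : Other c.z w) :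
    {x | x ∈ V ∧ x ∈ c.E ∧ Other c.z x ∧ Other c.z (x * w)}.ncard = 4 := by
  obtain ⟨B, hBV⟩ := hB.exists_bigElem
  rw [ncard_setup fun x hx => hB.le_H hx.1,
    ← B.partners_card (P := fun x : c.H => Other c.z (x : G))
      (fun h _ x hx => (other_conj (h : G)).2 hx) (fun x hx => other_of_setup hx)
      (hB.shape_card hBV) (w := ⟨w, hB.le_H hw⟩) ((hBV _).2 hw) hwE hwo]
  congr 1
  ext x
  simp only [Set.mem_setOf_eq, hBV]
  rfl

include hB in
/-- An element fixing the involution and another member of the second class normalises `V`. -/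
theorem Big.fix_normalizes [IsSimpleGroup G] {a : G} (ha : a ∈ V) (ha1 : a ≠ 1)
    (hnc : ¬ IsConj c.z a) {h : G} (hz : h * c.z = c.z * h) (hha : h * a = a * h) :
    h ∈ Subgroup.normalizer (V : Set G) := by
  obtain ⟨B, hBV⟩ := hB.exists_bigElem
  refine (mem_normalizer_iff hBV hB.le_H ⟨h, mem_cz.2 hz⟩).1 ?_
  exact B.fix_mem_normalizer (P := fun x : c.H => Other c.z (x : G))
    (fun k _ x hx => (other_conj (k : G)).2 hx) (fun x hx => other_of_setup hx)
    (hB.shape_card hBV) (a := ⟨a, hB.le_H ha⟩) ((hBV _).2 ha)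
    (Subtype.ext (show h * a * h⁻¹ = a by rw [hha, mul_inv_cancel_right]))
    (fun _ => ⟨ha1, hnc⟩)

include hB in
/-- The local facts. -/
theorem Big.loc [IsSimpleGroup G] : Local c.z c.E V where
  top := c.top hB.sq hB.card hB.mem
  setting := c.setting
  mem := hB.mem
  inter := by
    rw [← SetLike.coe_sort_coe, Nat.card_coe_set_eq]
    exact hB.card_inter.trans (by norm_num)
  count := hB.count_other hB.facts.1
  oneClass _ ha haE hao _ hb hbE hbo :=
    hB.one_class (hB.count_other hB.facts.1) ha haE hao hb hbE hbo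
  orbit _ ha haE := c.dvd_orbit_out hB.sq hB.card hB.mem ha haE
  notSub := hB.not_sub
  partners _ hw hwE hwo := hB.partners hw hwE hwo

variable (c) in
/-- The local facts at any conjugate of the involution in `V`. -/
theorem exists_local [IsSimpleGroup G] (hV : ∀ x ∈ V, x * x = 1) (hc : Nat.card V = 2 ^ 11) {v : G}
    (hv : v ∈ V) (hcj : IsConj c.z v) : ∃ Q : Subgroup G, Local v Q V := by
  obtain ⟨g, rfl⟩ := c.exists_conj_z hcj
  exact ⟨_, (Big.mk (c := c.conj g) hV hc hv).loc⟩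

include hB in
/-- The two orbits and the centraliser. -/
theorem Big.orbits [IsSimpleGroup G] : ∃ t ∈ V, t ≠ 1 ∧ ¬ IsConj c.z t ∧
    {v : G | ∃ n ∈ Subgroup.normalizer (V : Set G), n * c.z * n⁻¹ = v}.ncard = 1771 ∧
    {v : G | ∃ n ∈ Subgroup.normalizer (V : Set G), n * t * n⁻¹ = v}.ncard = 276 ∧
    Subgroup.centralizer ({t} : Set G) ≤ Subgroup.normalizer (V : Set G) := by
  classical
  obtain ⟨h91, h1771⟩ := hB.facts
  have L := hB.loc
  obtain ⟨t, htV, htE, hto⟩ : {x | x ∈ V ∧ x ∈ c.E ∧ Other c.z x}.Nonempty :=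
    Set.nonempty_of_ncard_ne_zero (by rw [hB.count_other h91]; norm_num)
  refine ⟨t, htV, hto.1, hto.2, ?_, ?_, ?_⟩
  · rw [← h1771]
    congr 1
    ext x
    exact ⟨by rintro ⟨n, hn, rfl⟩
              exact ⟨(Subgroup.mem_normalizer_iff.1 hn _).1 hB.mem, isConj_iff.2 ⟨n, rfl⟩⟩,
      fun hx => c.exists_normalizer_move hB.sq hB.card hB.mem hx.1 hx.2⟩
  · rw [← L.card_sets.2.1, ← Set.ncard_coe_finset]
    congr 1
    ext x
    exact ⟨by rintro ⟨n, hn, rfl⟩
              exact LargeFischer45.dSet_conj hn (L.mem_dSet_of_mem htV htE hto),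
      fun hx => L.exists_move' (L.mem_dSet_of_mem htV htE hto) hx⟩
  · obtain ⟨T, hVT, hTz⟩ := c.exists_sylow hB.sq hB.card hB.mem
    exact centralizer_le_normalizer L (c.centralizer_le hB.sq hB.card hB.mem)
      (fun P => c.card_sylow P) T hVT hTz
      (fun a ha ha1 hnc h hz hha => hB.fix_normalizes ha ha1 hnc hz hha) htV hto.1 hto.2

end CfsgLib.Jf18.Ctx
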