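import Cfsg.Prelude.Def_JankoFourType
import Cfsg.Agent.LocalP.ThompsonJ
import Mathlib.LinearAlgebra.Matrix.GeneralLinearGroup.Card
import Mathlib.FieldTheory.Finite.GaloisField
import Mathlib.GroupTheory.Sylow
import Mathlib.GroupTheory.GroupAction.ConjAct

/-!
The orbit of an involution of an elementary abelian group of order `2 ^ 11` under its normalizer:
arithmetic in `GL(11, 2)`.
-/

set_option autoImplicit false

namespace CfsgLib.J4Type5

open Cfsg
open CfsgLib.LocalP (isElementaryAbelian_iff)

/-- The order of `GL(11, 2)`. -/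
def glEleven : ℕ := ∏ i : Fin 11, (2 ^ 11 - 2 ^ (i : ℕ))

theorem card_mulAut_two {A : Type*} [CommGroup A] [Finite A] (hA : ∀ a : A, a ^ 2 = 1)
    (hcard : Nat.card A = 2 ^ 11) : Nat.card (MulAut A) ∣ glEleven := by
  letI : Module (ZMod 2) (Additive A) := AddCommGroup.zmodModule fun x => by
    apply Additive.toMul.injective
    rw [toMul_nsmul, toMul_zero]
    exact hA _
  have hr : Module.finrank (ZMod 2) (Additive A) = 11 := by
    have h := FiniteField.pow_finrank_eq_natCard 2 (Additive A)
    rw [show Nat.card (Additive A) = 2 ^ 11 from hcard] at h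
    exact Nat.pow_right_injective le_rfl h
  let b := Module.finBasisOfFinrankEq (ZMod 2) (Additive A) hr
  let f : MulAut A →* Matrix (Fin 11) (Fin 11) (ZMod 2) :=
    { toFun := fun φ => LinearMap.toMatrixAlgEquiv b
        (AddMonoidHom.toZModLinearMap 2 (MonoidHom.toAdditive φ.toMonoidHom))
      map_one' := by
        rw [← map_one (LinearMap.toMatrixAlgEquiv b)]
        congr 1
      map_mul' := fun φ ψ => by
        rw [← map_mul (LinearMap.toMatrixAlgEquiv b)]
        congr 1 }
  have hf : Function.Injective f.toHomUnits := fun φ ψ h => by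
    have h1 := (LinearMap.toMatrixAlgEquiv b).injective (congrArg Units.val h)
    refine MulEquiv.ext fun x => ?_
    exact congrArg Additive.toMul (DFunLike.congr_fun h1 (Additive.ofMul x))
  have h := Subgroup.card_dvd_of_injective _ hf
  rwa [Matrix.card_GL_field, ZMod.card] at h

/-- A group acting freely on a finite set divides its cardinality. -/
theorem card_dvd_of_free {H α : Type*} [Group H] [Finite H] [MulAction H α] [Finite α]
    (h : ∀ (g : H) (a : α), g • a = a → g = 1) : Nat.card H ∣ Nat.card α := by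
  classical
  haveI : Fintype (Quotient (MulAction.orbitRel H α)) := Fintype.ofFinite _
  rw [Nat.card_congr (MulAction.selfEquivSigmaOrbits H α), Nat.card_sigma]
  refine Finset.dvd_sum fun ω _ => ?_
  rw [← Nat.card_congr (Equiv.ofBijective
    (fun g : H => (⟨g • ω.out, g, rfl⟩ : MulAction.orbit H ω.out))
    ⟨fun a b e => ?_, fun x => ?_⟩)]
  · have e' := congrArg (fun x : MulAction.orbit H ω.out => b⁻¹ • (x : α)) e
    simp only [smul_smul, inv_mul_cancel, one_smul] at e'
    exact (inv_mul_eq_one.1 (h _ _ e')).symm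
  · obtain ⟨g, hg⟩ := x.2
    exact ⟨g, Subtype.ext hg⟩

section Aut

variable {A : Type*} [CommGroup A] [Finite A]

theorem fixed_trivial {φ : MulAut A} (hφ : φ ^ 89 = 1) (hne : φ ≠ 1) (hA : ∀ a : A, a ^ 2 = 1)
    (hcard : Nat.card A = 2 ^ 11) (S : Subgroup A) (hS : ∀ a ∈ S, φ a ∈ S) (hS1 : S ≠ ⊥) :
    S = ⊤ := by
  haveI : Fact (Nat.Prime 89) := ⟨by norm_num⟩
  haveI : Fact (Nat.Prime 2) := ⟨Nat.prime_two⟩
  have key : ∀ (T : Subgroup A), (∀ a ∈ T, φ a ∈ T) →
      Nat.card T ≡ Nat.card {a : T // φ a = a} [MOD 89] := by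
    intro T hT
    let f : T → T := fun a => ⟨φ a, hT a a.2⟩
    have hf : ∀ (k : ℕ) (a : T), ((f^[k] a : T) : A) = (φ ^ k) a := by
      intro k a
      induction k with
      | zero => rfl
      | succ k ih =>
        rw [Function.iterate_succ_apply', pow_succ', MulAut.mul_apply]
        show φ ((f^[k] a : T) : A) = _
        rw [ih]
    have hfp : (show Function.End T from f) ^ 89 ^ 1 = 1 := by
      funext a
      have : ∀ k : ℕ, ((show Function.End T from f) ^ k) a = f^[k] a := by
        intro k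
        induction k with
        | zero => rfl
        | succ k ih =>
          rw [pow_succ', Function.iterate_succ_apply']
          show f (((show Function.End T from f) ^ k) a) = _
          rw [ih]
      rw [this]
      exact Subtype.ext (by rw [hf, pow_one, hφ]; rfl)
    classical
    have : Fintype T := Fintype.ofFinite _
    have h := Equiv.Perm.card_fixedPoints_modEq (α := T) (f := f) (p := 89) (n := 1) hfp
    rw [← Nat.card_eq_fintype_card, ← Nat.card_eq_fintype_card] at h
    refine h.trans (congrArg (· % 89) (Nat.card_congr (Equiv.subtypeEquivRight fun a => ?_)))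
    exact ⟨fun e => congrArg Subtype.val e, fun e => Subtype.ext e⟩
  have pow2 : ∀ T : Subgroup A, ∃ j ≤ 11, Nat.card T = 2 ^ j := fun T => by
    have hd := Subgroup.card_subgroup_dvd_card T
    rw [hcard, Nat.dvd_prime_pow Nat.prime_two] at hd
    exact hd
  let Fx : Subgroup A :=
    { carrier := {a | φ a = a}
      one_mem' := map_one φ
      mul_mem' := fun {a b} ha hb => by
        simp only [Set.mem_setOf_eq] at ha hb ⊢
        rw [map_mul, ha, hb]
      inv_mem' := fun {a} ha => by
        simp only [Set.mem_setOf_eq] at ha ⊢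
        rw [map_inv, ha] }
  have hmod : ∀ j ≤ 11, ∀ k ≤ j, 2 ^ j ≡ 2 ^ k [MOD 89] → j = k ∨ (j = 11 ∧ k = 0) := by decide
  have hFx : Fx = ⊥ := by
    obtain ⟨k, hk, hk'⟩ := pow2 Fx
    have h := key ⊤ (fun a _ => Subgroup.mem_top _)
    rw [Subgroup.card_top, hcard, Nat.card_congr (show {a : (⊤ : Subgroup A) // φ a = a} ≃ Fx from
      ⟨fun a => ⟨a.1.1, a.2⟩, fun a => ⟨⟨a.1, Subgroup.mem_top _⟩, a.2⟩, fun _ => rfl, fun _ => rfl⟩),
      hk'] at h
    rcases hmod 11 le_rfl k hk h with e | ⟨-, e⟩
    · exfalso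
      refine hne (MulEquiv.ext fun a => ?_)
      have : Fx = ⊤ := Subgroup.eq_top_of_card_eq Fx (by rw [hk', ← e, hcard])
      exact (this ▸ Subgroup.mem_top a : a ∈ Fx)
    · exact Subgroup.eq_bot_of_card_eq Fx (by rw [hk', e, pow_zero])
  have hone : Nat.card {a : S // φ a = a} = 1 := by
    refine Nat.card_eq_one_iff_unique.2 ⟨⟨fun a b => Subtype.ext (Subtype.ext ?_)⟩, ⟨⟨1, map_one φ⟩⟩⟩
    have ha : (a.1 : A) ∈ Fx := a.2
    have hb : (b.1 : A) ∈ Fx := b.2
    rw [hFx, Subgroup.mem_bot] at ha hb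
    rw [ha, hb]
  obtain ⟨j, hj, hj'⟩ := pow2 S
  have h := key S hS
  rw [hone, hj'] at h
  rcases hmod j hj 0 (Nat.zero_le _) h with e | ⟨e, -⟩
  · exact absurd (Subgroup.eq_bot_of_card_eq S (by rw [hj', e, pow_zero])) hS1
  · exact Subgroup.eq_top_of_card_eq S (by rw [hj', e, hcard])

theorem card_centralizer_dvd {φ : MulAut A} (hφ : φ ^ 89 = 1) (hne : φ ≠ 1) (hA : ∀ a : A, a ^ 2 = 1)
    (hcard : Nat.card A = 2 ^ 11) :
    Nat.card ↥(Subgroup.centralizer ({φ} : Set (MulAut A))) ∣ 2047 := by
  classical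
  set C := Subgroup.centralizer ({φ} : Set (MulAut A))
  let _ : MulAction C {a : A // a ≠ 1} :=
    { smul := fun g a => ⟨(g : MulAut A) a.1, fun e => a.2 ((g : MulAut A).map_eq_one_iff.1 e)⟩
      one_smul := fun a => Subtype.ext rfl
      mul_smul := fun g h a => Subtype.ext rfl }
  have h := card_dvd_of_free (H := C) (α := {a : A // a ≠ 1}) fun g a hga => by
    let S : Subgroup A :=
      { carrier := {b | (g : MulAut A) b = b}
        one_mem' := map_one _
        mul_mem' := fun {x y} hx hy => by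
          simp only [Set.mem_setOf_eq] at hx hy ⊢
          rw [map_mul, hx, hy]
        inv_mem' := fun {x} hx => by
          simp only [Set.mem_setOf_eq] at hx ⊢
          rw [map_inv, hx] }
    have hS : ∀ b ∈ S, φ b ∈ S := by
      intro b hb
      have hc := Subgroup.mem_centralizer_singleton_iff.1 g.2
      show (g : MulAut A) (φ b) = φ b
      rw [← MulAut.mul_apply, hc, MulAut.mul_apply]
      exact congrArg φ hb
    have ha : a.1 ∈ S := congrArg Subtype.val hga
    have htop := fixed_trivial hφ hne hA hcard S hS fun h => a.2 (by rwa [h, Subgroup.mem_bot] at ha)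
    exact Subtype.ext (MulEquiv.ext fun b => (htop ▸ Subgroup.mem_top b : b ∈ S))
  have : Nat.card {a : A // a ≠ 1} = 2047 := by
    rw [show Nat.card {a : A // a ≠ 1} = Nat.card ↥({1}ᶜ : Set A) from rfl, Nat.card_coe_set_eq,
      Set.ncard_compl, Set.ncard_singleton, hcard]
    norm_num
  rwa [this] at h

/-- No subgroup of the automorphism group has order `2047 * 2 ^ 10 * 135`. -/
theorem card_ne {hA : ∀ a : A, a ^ 2 = 1} (hcard : Nat.card A = 2 ^ 11) (K : Subgroup (MulAut A)) :
    Nat.card K ≠ 2047 * 138240 := by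
  intro hK
  haveI : Fact (Nat.Prime 89) := ⟨by norm_num⟩
  obtain ⟨P⟩ : Nonempty (Sylow 89 K) := inferInstance
  have hP : Nat.card (P : Subgroup K) = 89 := by
    rw [Sylow.card_eq_multiplicity, hK, show 2047 * 138240 = 89 ^ 1 * 3179520 by norm_num,
      Nat.factorization_mul (by norm_num) (by norm_num), Nat.Prime.factorization_pow (by norm_num)]
    simp [Nat.factorization_eq_zero_of_not_dvd (by norm_num : ¬(89 ∣ 3179520))]
  haveI : IsCyclic (P : Subgroup K) := isCyclic_of_prime_card hP
  obtain ⟨g, hg, hgne⟩ := (Subgroup.bot_or_exists_ne_one (P : Subgroup K)).resolve_left fun h => by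
    rw [h, Subgroup.card_bot] at hP; norm_num at hP
  have hg89 : g ^ 89 = 1 := by
    have := pow_card_eq_one' (x := (⟨g, hg⟩ : (P : Subgroup K)))
    rw [hP] at this
    rw [← Subgroup.coe_mk (P : Subgroup K) g hg, ← Subgroup.coe_pow, this, Subgroup.coe_one]
  set C := Subgroup.centralizer ((P : Subgroup K) : Set K)
  have hC : Nat.card C ∣ 2047 := by
    refine dvd_trans ?_ (card_centralizer_dvd (φ := (g : MulAut A)) ?_ ?_ hA hcard)
    · refine Subgroup.card_dvd_of_injective
        ((K.subtype.comp C.subtype).codRestrict _ fun c => Subgroup.mem_centralizer_singleton_iff.2 ?_) ?_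
      · exact (congrArg Subtype.val (Subgroup.mem_centralizer_iff.1 c.2 g hg)).symm
      · intro a b e
        exact Subtype.ext (Subtype.ext (congrArg Subtype.val e :))
    · rw [← Subgroup.coe_pow, hg89, Subgroup.coe_one]
    · exact fun e => hgne (Subtype.ext e)
  set N := Subgroup.normalizer ((P : Subgroup K) : Set K)
  have hN : Nat.card N ∣ 2047 * 88 := by
    set ρ := (P : Subgroup K).normalizerMonoidHom
    have h := ρ.ker.card_mul_index
    rw [Subgroup.index_ker] at h
    rw [← h]
    refine mul_dvd_mul ?_ ?_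
    · refine dvd_trans (dvd_of_eq ?_) hC
      rw [Subgroup.normalizerMonoidHom_ker]
      exact Nat.card_congr (Subgroup.subgroupOfEquivOfLe
        (Subgroup.centralizer_le_normalizer _)).toEquiv
    · refine (Subgroup.card_subgroup_dvd_card ρ.range).trans (dvd_of_eq ?_)
      rw [Nat.card_congr (IsCyclic.mulAutMulEquiv _).toEquiv, Nat.card_eq_fintype_card,
        ZMod.card_units_eq_totient, hP, Nat.totient_prime (by norm_num)]
  have hPN : 89 ∣ Nat.card N := hP ▸ Subgroup.card_dvd_of_le Subgroup.le_normalizer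
  have hmul := N.card_mul_index
  rw [hK] at hmul
  have hmod : N.index ≡ 1 [MOD 89] := by
    have e := P.card_eq_index_normalizer
    show (Subgroup.normalizer ((P : Subgroup K) : Set K)).index % 89 = 1 % 89
    exact (congrArg (· % 89) e.symm).trans (card_sylow_modEq_one 89 K)
  have hN2 : Nat.card N ∣ 2047 * 8 := by
    have := Nat.dvd_gcd hN ⟨_, hmul.symm⟩
    exact this
  have hall : ∀ d ∈ Nat.divisors (2047 * 8), 89 ∣ d → (2047 * 138240 / d) % 89 ≠ 1 := by decide +kernel
  refine hall _ (Nat.mem_divisors.2 ⟨hN2, by norm_num⟩) hPN ?_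
  rw [← hmul, Nat.mul_div_cancel_left _ Nat.card_pos]
  exact hmod

end Aut

variable {G : Type*} [Group G] [Finite G] {V : Subgroup G} {z : G}

/-- The orbit under the normalizer. -/
def zOrbit (V : Subgroup G) (z : G) : Set G :=
  {v | ∃ n ∈ Subgroup.normalizer (V : Set G), n * z * n⁻¹ = v}

theorem card_normalizer_eq (V : Subgroup G) (z : G) :
    Nat.card ↥(Subgroup.normalizer (V : Set G)) = (zOrbit V z).ncard *
      Nat.card ↥(Subgroup.normalizer (V : Set G) ⊓ Subgroup.centralizer ({z} : Set G)) := by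
  classical
  set N := Subgroup.normalizer (V : Set G)
  let _ : MulAction N G :=
    { smul := fun n x => (n : G) * x * (n : G)⁻¹
      one_smul := fun x => by show (1 : G) * x * (1 : G)⁻¹ = x; simp
      mul_smul := fun a b x => by
        show ((a : G) * b) * x * ((a : G) * b)⁻¹ = a * (b * x * (b : G)⁻¹) * (a : G)⁻¹
        group }
  have ho : MulAction.orbit N z = zOrbit V z := by
    ext v
    exact ⟨fun ⟨n, hn⟩ => ⟨n, n.2, hn⟩, fun ⟨n, hn, e⟩ => ⟨⟨n, hn⟩, e⟩⟩
  rw [Subgroup.card_eq_card_quotient_mul_card_subgroup (MulAction.stabilizer N z),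
    ← Nat.card_congr (MulAction.orbitEquivQuotientStabilizer N z), Nat.card_coe_set_eq, ho]
  congr 1
  refine Nat.card_congr
    { toFun := fun n => ⟨n.1.1, n.1.2, Subgroup.mem_centralizer_singleton_iff.2
        (mul_inv_eq_iff_eq_mul.1 n.2)⟩
      invFun := fun n => ⟨⟨n.1, n.2.1⟩,
        mul_inv_eq_iff_eq_mul.2 (Subgroup.mem_centralizer_singleton_iff.1 n.2.2)⟩
      left_inv := fun _ => rfl
      right_inv := fun _ => rfl }

/-- The possible orbit lengths. -/
theorem orbit_length (hV : IsElementaryAbelian 2 V) (hcard : Nat.card V = 2 ^ 11)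
    (hC : Subgroup.centralizer (V : Set G) ≤ V) {a k : ℕ}
    (hn : (zOrbit V z).ncard = 1 + a + 240 * k) (ha : a ∈ ({0, 36, 90, 126} : Finset ℕ))
    (hk : k ∈ ({1, 2, 6, 7, 8} : Finset ℕ))
    (hNz : Nat.card ↥(Subgroup.normalizer (V : Set G) ⊓ Subgroup.centralizer ({z} : Set G)) =
      2 ^ 21 * 135) :
    a = 90 ∧ k = 7 := by
  classical
  obtain ⟨hc, hsq⟩ := isElementaryAbelian_iff.1 hV
  letI : CommGroup V :=
    { (inferInstance : Group V) with mul_comm := fun x y => Subtype.ext (hc x x.2 y y.2) }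
  have hA : ∀ x : V, x ^ 2 = 1 := fun x => Subtype.ext (by simpa using hsq x x.2)
  set N := Subgroup.normalizer (V : Set G)
  set ρ : N →* MulAut V := V.normalizerMonoidHom
  have hker : Nat.card ρ.ker = 2 ^ 11 := by
    have hVC : Subgroup.centralizer (V : Set G) = V := le_antisymm hC fun x hx =>
      Subgroup.mem_centralizer_iff.2 fun y hy => hc y hy x hx
    rw [show ρ.ker = (Subgroup.centralizer (V : Set G)).subgroupOf N from
      Subgroup.normalizerMonoidHom_ker V, hVC,
      Nat.card_congr (Subgroup.subgroupOfEquivOfLe (Subgroup.le_normalizer (H := V))).toEquiv, hcard]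
  have hcardN := card_normalizer_eq V z
  rw [hNz, hn] at hcardN
  have hN := ρ.ker.card_mul_index
  rw [Subgroup.index_ker, hker, hcardN] at hN
  have hr : Nat.card ρ.range = (1 + a + 240 * k) * 138240 := by omega
  have hdvd : (1 + a + 240 * k) * 138240 ∣ glEleven :=
    hr ▸ (Subgroup.card_subgroup_dvd_card ρ.range).trans (card_mulAut_two hA hcard)
  have hall : ∀ a ∈ ({0, 36, 90, 126} : Finset ℕ), ∀ k ∈ ({1, 2, 6, 7, 8} : Finset ℕ),
      (1 + a + 240 * k) * 138240 ∣ glEleven → (a = 90 ∧ k = 7) ∨ (a = 126 ∧ k = 8) := by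
    decide +kernel
  refine (hall a ha k hk hdvd).resolve_right ?_
  rintro ⟨rfl, rfl⟩
  exact card_ne (hA := hA) hcard ρ.range (hr.trans (by norm_num))

end CfsgLib.J4Type5
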