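import Cfsg.Agent.J4Type5.Frame

/-!
The members outside the extraspecial group with a property invariant under the normaliser: 240 times
1, 2, 7 or 8 when one of them centralises the element of order three.
-/

set_option autoImplicit false

namespace CfsgLib.Jf18.BigElem

open CfsgLib.J4Type67 CfsgLib.J4Type5
open scoped Pointwise

universe u

variable {H : Type u} [Group H] [Finite H] {d : Setup H}

theorem card_cent_conj (h x : H) :
    Nat.card ↥(d.E ⊓ Subgroup.centralizer ({h * x * h⁻¹} : Set H)) =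
      Nat.card ↥(d.E ⊓ Subgroup.centralizer ({x} : Set H)) := by
  refine Eq.trans ?_ (card_conjS h _)
  congr 1
  refine congrArg (fun K : Subgroup H => ↥K) ?_
  ext y
  rw [mem_conjS, Subgroup.mem_inf, Subgroup.mem_inf, Subgroup.mem_centralizer_singleton_iff,
    Subgroup.mem_centralizer_singleton_iff]
  refine and_congr ⟨fun hy => by simpa using d.normalE h⁻¹ y hy,
    fun hy => by simpa [mul_assoc] using d.normalE h _ hy⟩ ⟨fun e => ?_, fun e => ?_⟩
  · simpa [mul_assoc] using congrArg (fun w => h⁻¹ * w * h) e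
  · simpa [mul_assoc] using congrArg (fun w => h * w * h⁻¹) e

/-- A set invariant under the extraspecial group, all of whose members have small centralisers in
it. -/
theorem pow_dvd_invariant {S : Set H} (hS : ∀ e ∈ d.E, ∀ x ∈ S, e * x * e⁻¹ ∈ S) {k : ℕ}
    (hk : k ≤ 13)
    (hc : ∀ x ∈ S, Nat.card ↥(d.E ⊓ Subgroup.centralizer ({x} : Set H)) ≤ 2 ^ (13 - k)) :
    2 ^ k ∣ S.ncard := by
  classical
  let _ : MulAction d.E S :=
    { smul := fun e x => ⟨(e : H) * x.1 * (e : H)⁻¹, hS e e.2 x.1 x.2⟩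
      one_smul := fun x => Subtype.ext (by show (1 : H) * x.1 * (1 : H)⁻¹ = x.1; simp)
      mul_smul := fun a b x => Subtype.ext (by
        show ((a : H) * b) * x.1 * ((a : H) * b)⁻¹ = a * (b * x.1 * (b : H)⁻¹) * (a : H)⁻¹
        group) }
  haveI : Fintype (Quotient (MulAction.orbitRel d.E S)) := Fintype.ofFinite _
  rw [← Nat.card_coe_set_eq, Nat.card_congr (MulAction.selfEquivSigmaOrbits d.E S), Nat.card_sigma]
  refine Finset.dvd_sum fun ω _ => ?_
  set x := ω.out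
  have hst : Nat.card (MulAction.stabilizer d.E x) =
      Nat.card ↥(d.E ⊓ Subgroup.centralizer ({x.1} : Set H)) := Nat.card_congr
    { toFun := fun e => ⟨e.1.1, e.1.2, Subgroup.mem_centralizer_singleton_iff.2
        (mul_inv_eq_iff_eq_mul.1 (congrArg Subtype.val e.2))⟩
      invFun := fun e => ⟨⟨e.1, e.2.1⟩, Subtype.ext
        (mul_inv_eq_iff_eq_mul.2 (Subgroup.mem_centralizer_singleton_iff.1 e.2.2))⟩
      left_inv := fun _ => rfl
      right_inv := fun _ => rfl }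
  have h := Subgroup.card_eq_card_quotient_mul_card_subgroup (MulAction.stabilizer d.E x)
  rw [← Nat.card_congr (MulAction.orbitEquivQuotientStabilizer d.E x), hst, d.cardE] at h
  set o := Nat.card (MulAction.orbit d.E x)
  obtain ⟨j, hj, hjo⟩ := (Nat.dvd_prime_pow Nat.prime_two).1 (h ▸ dvd_mul_right o _ : o ∣ 2 ^ 13)
  rw [hjo] at h ⊢
  refine Nat.pow_dvd_pow 2 ?_
  by_contra hlt
  have h1 : 2 ^ j * 2 ^ (13 - k) < 2 ^ 13 := by
    rw [← pow_add]
    exact Nat.pow_lt_pow_right (by norm_num) (by omega)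
  have h2 := Nat.mul_le_mul_left (2 ^ j) (hc x.1 x.2)
  omega

/-- A set invariant under the element of order three without fixed members. -/
theorem three_dvd_invariant {S : Set H} (hS : ∀ x ∈ S, d.p * x * d.p⁻¹ ∈ S)
    (hfree : ∀ x ∈ S, x ∉ d.C) : 3 ∣ S.ncard := by
  let f : S → S := fun x => ⟨_, hS x.1 x.2⟩
  have hmod := card_modEq f (q := 3) (n := 1) Nat.prime_three fun x => by
    refine Subtype.ext ?_
    show d.p * (d.p * (d.p * x.1 * d.p⁻¹) * d.p⁻¹) * d.p⁻¹ = x.1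
    rw [show d.p * (d.p * (d.p * x.1 * d.p⁻¹) * d.p⁻¹) * d.p⁻¹ = d.p ^ 3 * x.1 * (d.p ^ 3)⁻¹ by
      simp only [pow_succ, pow_zero, one_mul, mul_inv_rev, mul_assoc], d.p3]
    simp
  haveI : IsEmpty {x : S // f x = x} := ⟨fun x => hfree x.1.1 x.1.2
    (d.mem_C.2 (mul_inv_eq_iff_eq_mul.1 (congrArg Subtype.val x.2) : _).symm)⟩
  rw [Nat.card_of_isEmpty (α := {x : S // f x = x}), Nat.card_coe_set_eq] at hmod
  exact Nat.modEq_zero_iff_dvd.1 hmod

variable (B : BigElem d)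

/-- The centraliser in the extraspecial group of a product. -/
theorem cent_mul {u w : H} (hu : u ∈ d.C) (hw : w ∈ d.E) :
    d.E ⊓ Subgroup.centralizer ({u * w} : Set H) =
      d.E ⊓ Subgroup.centralizer ({u} : Set H) ⊓ Subgroup.centralizer ({w} : Set H) := by
  ext e
  simp only [Subgroup.mem_inf, Subgroup.mem_centralizer_singleton_iff]
  constructor
  · rintro ⟨he, hc⟩
    have h1 : e * u * e⁻¹ * (e * w * e⁻¹) = u * w := by
      rw [show e * u * e⁻¹ * (e * w * e⁻¹) = e * (u * w) * e⁻¹ by group, hc]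
      group
    rcases d.mem_Z.1 (d.commE' he hw) with h | h
    · have hwe : e * w = w * e := mul_inv_eq_iff_eq_mul.1 (mul_inv_eq_one.1 h)
      rw [mul_inv_eq_iff_eq_mul.2 hwe] at h1
      exact ⟨⟨he, mul_inv_eq_iff_eq_mul.1 (mul_right_cancel h1)⟩, hwe⟩
    · exfalso
      rw [mul_inv_eq_iff_eq_mul] at h
      rw [h, ← mul_assoc] at h1
      have h2 := mul_right_cancel h1
      exact no_flip hu he (by
        calc e * u * e⁻¹ = e * u * e⁻¹ * d.z * d.z := by rw [mul_assoc (e * u * e⁻¹), d.zz, mul_one]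
          _ = u * d.z := by rw [h2])
  · rintro ⟨⟨he, hu'⟩, hw'⟩
    exact ⟨he, ((show Commute e u from hu').mul_right hw').eq⟩

/-- The members with the property over a nontrivial member of the image. -/
theorem fibre_count {a : M} {u : H} (hu : u ∈ d.C) (huV : u ∈ B.V) (hua : d.π u = MulAut.conj a)
    (hI : Nat.card ↥(d.E ⊓ Subgroup.centralizer ({u} : Set H)) = 2 ^ 9) (P : H → Prop)
    (hPe : ∀ e ∈ d.E, ∀ x, P x → P (e * x * e⁻¹)) (hPp : ∀ x, P x → P (d.p * x * d.p⁻¹))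
    (hPu : P u) :
    {x | (x ∈ B.V ∧ d.π x = MulAut.conj a) ∧ P x}.ncard ∈ ([16, 32, 112, 128] : List ℕ) := by
  classical
  set U := d.E ⊓ Subgroup.centralizer ({u} : Set H) with hUdef
  set U₂ := d.E ⊓ Subgroup.centralizer (U : Set H)
  have hzU : d.z ∈ U := ⟨d.zmem, Subgroup.mem_centralizer_singleton_iff.2 (d.zc u).eq⟩
  have hU₂ : Nat.card U₂ = 32 := by
    have h := d.card_centralizer_eq (U := U) inf_le_left hzU
    rw [hI] at h
    change 2 ^ 9 * Nat.card U₂ = _ at h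
    omega
  have hDU : B.D ≤ U := fun x hx => ⟨hx.2, Subgroup.mem_centralizer_singleton_iff.2
    (B.comm hx.1 huV).eq⟩
  have hU₂D : U₂ ≤ B.D := by
    rw [← B.cent_D]
    exact inf_le_inf_left _ (Subgroup.centralizer_le hDU)
  have hzU₂ : d.z ∈ U₂ := ⟨d.zmem, Subgroup.mem_centralizer_iff.2 fun y _ => (d.zc y).eq.symm⟩
  set S := {x | (x ∈ B.V ∧ d.π x = MulAut.conj a) ∧ P x} with hS
  set w : H → H := fun x => u⁻¹ * x
  have hw : ∀ x ∈ S, w x ∈ B.D := fun x hx => ⟨B.V.mul_mem (B.V.inv_mem huV) hx.1.1,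
    B.ker_mem _ (B.V.mul_mem (B.V.inv_mem huV) hx.1.1) (by
      rw [MonoidHom.mem_ker, map_mul, map_inv, hua, hx.1.2, inv_mul_cancel])⟩
  have hcent : ∀ x ∈ S, d.E ⊓ Subgroup.centralizer ({x} : Set H) =
      U ⊓ Subgroup.centralizer ({w x} : Set H) := fun x hx => by
    conv_lhs => rw [show x = u * w x from (mul_inv_cancel_left u x).symm]
    exact cent_mul hu (hw x hx).2
  set Sm := {x ∈ S | Nat.card ↥(d.E ⊓ Subgroup.centralizer ({x} : Set H)) = 2 ^ 9}
  set Bg := {x ∈ S | Nat.card ↥(d.E ⊓ Subgroup.centralizer ({x} : Set H)) ≠ 2 ^ 9}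
  have hin : ∀ x ∈ S, w x ∈ U₂ → x ∈ Sm := fun x hx h => ⟨hx, by
    rw [hcent x hx, inf_eq_left.2 (fun y hy => Subgroup.mem_centralizer_singleton_iff.2
      (Subgroup.mem_centralizer_iff.1 h.2 y hy)), hI]⟩
  have hout : ∀ x ∈ S, w x ∉ U₂ →
      Nat.card ↥(d.E ⊓ Subgroup.centralizer ({x} : Set H)) ≤ 2 ^ 8 := by
    intro x hx h
    rw [hcent x hx]
    set K := U ⊓ Subgroup.centralizer ({w x} : Set H)
    have hd : Nat.card K ∣ 2 ^ 9 := hI ▸ Subgroup.card_dvd_of_le inf_le_left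
    obtain ⟨j, hj, hjK⟩ := (Nat.dvd_prime_pow Nat.prime_two).1 hd
    rw [hjK]
    refine Nat.pow_le_pow_right (by norm_num) (Nat.le_of_lt_succ (lt_of_le_of_ne hj fun h9 => h ?_))
    have e : K = U := Subgroup.eq_of_le_of_card_ge inf_le_left (by rw [hI, hjK, h9])
    exact ⟨(hw x hx).2, Subgroup.mem_centralizer_iff.2 fun y hy =>
      Subgroup.mem_centralizer_singleton_iff.1 (e.ge hy).2⟩
  have hSmU : ∀ x ∈ Sm, w x ∈ U₂ := fun x hx => by
    by_contra h
    have := hout x hx.1 h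
    rw [hx.2] at this
    norm_num at this
  have hconjS : ∀ h : H, d.π h = 1 → (∀ x ∈ B.V, h * x * h⁻¹ ∈ B.V) →
      (∀ x, P x → P (h * x * h⁻¹)) → ∀ x ∈ S, h * x * h⁻¹ ∈ S := fun h h1 h2 h3 x hx =>
    ⟨⟨h2 x hx.1.1, by rw [map_mul, map_mul, map_inv, h1, hx.1.2]; simp⟩, h3 x hx.2⟩
  have hSe : ∀ e ∈ d.E, ∀ x ∈ S, e * x * e⁻¹ ∈ S := fun e he =>
    hconjS e ((MonoidHom.mem_ker).1 (d.E_le he)) (fun x hx => B.conj_E he hx) (hPe e he)
  have hSp : ∀ x ∈ S, d.p * x * d.p⁻¹ ∈ S :=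
    hconjS d.p ((MonoidHom.mem_ker).1 d.pker) (fun x hx => B.conj_p hx) hPp
  have h16 : 2 ^ 4 ∣ Sm.ncard := by
    refine pow_dvd_invariant (S := Sm) (fun e he x hx => ⟨hSe e he x hx.1, ?_⟩) (by norm_num) fun x hx => ?_
    · rw [card_cent_conj]; exact hx.2
    · rw [hx.2]
  have h32 : 2 ^ 5 ∣ Bg.ncard := by
    refine pow_dvd_invariant (S := Bg) (fun e he x hx => ⟨hSe e he x hx.1, ?_⟩) (by norm_num) fun x hx => ?_
    · rw [card_cent_conj]; exact hx.2
    · exact hout x hx.1 fun h => hx.2 (hin x hx.1 h).2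
  have h3 : 3 ∣ Bg.ncard := by
    refine three_dvd_invariant (S := Bg) (fun x hx => ⟨hSp x hx.1, ?_⟩) fun x hx hxC => ?_
    · rw [card_cent_conj]; exact hx.2
    · refine hx.2 (hin x hx.1 ((Subgroup.zpowers_le.2 hzU₂ : d.Z ≤ U₂) ?_)).2
      exact d.mem_Z_of_C (hw x hx.1).2 (mul_mem (inv_mem hu) hxC)
  have hinj : ∀ T : Set H, Set.InjOn w T := fun T x _ y _ e => mul_left_cancel e
  have hsm : Sm.ncard ≤ 32 := by
    rw [← hU₂, ← SetLike.coe_sort_coe, Nat.card_coe_set_eq]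
    exact Set.ncard_le_ncard_of_injOn w hSmU (hinj _) (Set.toFinite _)
  have hbg : Bg.ncard ≤ 96 := by
    have hd : ((B.D : Set H) \ (U₂ : Set H)).ncard = 96 := by
      rw [Set.ncard_sdiff hU₂D (Set.toFinite _), ← Nat.card_coe_set_eq, ← Nat.card_coe_set_eq,
        SetLike.coe_sort_coe, SetLike.coe_sort_coe, B.card_D, hU₂]
    rw [← hd]
    exact Set.ncard_le_ncard_of_injOn w (fun x hx => ⟨hw x hx.1, fun h => hx.2 (hin x hx.1 h).2⟩)
      (hinj _) (Set.toFinite _)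
  have hpos : 0 < Sm.ncard := by
    refine (Set.ncard_pos (Set.toFinite _)).2 ⟨u, hin u ⟨⟨huV, hua⟩, hPu⟩ ?_⟩
    simp only [w, inv_mul_cancel, one_mem]
  have hsum : S.ncard = Sm.ncard + Bg.ncard := by
    rw [← Set.ncard_union_eq (Set.disjoint_left.2 fun x hx hx' => hx'.2 hx.2) (Set.toFinite _)
      (Set.toFinite _)]
    congr 1
    ext x
    simp only [Sm, Bg, Set.mem_union, Set.mem_setOf_eq, ← and_or_left]
    exact ⟨fun h => ⟨h, Classical.em _⟩, fun h => h.1⟩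
  show S.ncard ∈ _
  rw [hsum]
  simp only [List.mem_cons, List.not_mem_nil, or_false]
  have h96 : 96 ∣ Bg.ncard := Nat.Coprime.mul_dvd_of_dvd_of_dvd (by norm_num : Nat.Coprime 32 3) h32 h3
  norm_num at h16
  omega

/-- The members outside the extraspecial group with the property. -/
theorem out_count {u : H} (hu : u ∈ d.C) (huV : u ∈ B.V) (huE : u ∉ d.E)
    (hI : Nat.card ↥(d.E ⊓ Subgroup.centralizer ({u} : Set H)) = 2 ^ 9) (P : H → Prop)
    (hP : ∀ h ∈ Subgroup.normalizer (B.V : Set H), ∀ x, P x → P (h * x * h⁻¹)) (hPu : P u) :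
    ∃ k ∈ ({1, 2, 7, 8} : Finset ℕ), {x | x ∈ B.V ∧ x ∉ d.E ∧ P x}.ncard = 240 * k := by
  classical
  obtain ⟨a₀, ha₀, hua⟩ := B.pi_mem u huV
  have hone : ∀ {x : H}, x ∈ B.V → d.π x = 1 → x ∈ d.E := fun hx h =>
    B.ker_mem _ hx ((MonoidHom.mem_ker).2 h)
  have ha₀1 : a₀ ≠ 1 := fun h => huE (hone huV (by rw [← hua, h, map_one]))
  set N := fun a : M => {x | (x ∈ B.V ∧ d.π x = MulAut.conj a) ∧ P x}
  have hle : ∀ a b : M, a ∈ B.A → a ≠ 1 → b ∈ B.A → b ≠ 1 → (N a).ncard ≤ (N b).ncard := by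
    intro a b ha ha1 hb hb1
    obtain ⟨c, hc, hcab⟩ := B.exists_move ha ha1 hb hb1
    refine Set.ncard_le_ncard_of_injOn (fun x => c * x * c⁻¹) (fun x hx => ?_)
      (fun x _ y _ e => mul_left_cancel (mul_right_cancel e)) (Set.toFinite _)
    exact ⟨⟨(Subgroup.mem_normalizer_iff.1 hc x).1 hx.1.1, by
      rw [map_mul, map_mul, map_inv, hx.1.2, hcab]⟩, hP c hc x hx.2⟩
  have hk := B.fibre_count hu huV hua.symm hI P (fun e he => hP e (B.E_le_normalizer he))
    (hP _ B.p_mem_normalizer) hPu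
  set T := {x | x ∈ B.V ∧ x ∉ d.E ∧ P x}
  let f : T → {a : ↥B.A // a ≠ 1} := fun x =>
    ⟨⟨(B.pi_mem x.1 x.2.1).choose, (B.pi_mem x.1 x.2.1).choose_spec.1⟩, fun h => x.2.2.1
      (hone x.2.1 (by
        rw [← (B.pi_mem x.1 x.2.1).choose_spec.2,
          show (B.pi_mem x.1 x.2.1).choose = 1 from congrArg Subtype.val h, map_one]))⟩
  have hf : ∀ x, d.π x.1 = MulAut.conj (f x).1.1 := fun x =>
    (B.pi_mem x.1 x.2.1).choose_spec.2.symm
  have hfib : ∀ a : {a : ↥B.A // a ≠ 1}, Nat.card {x // f x = a} = (N a₀).ncard := by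
    intro a
    have ha1 : a.1.1 ≠ 1 := fun h => a.2 (Subtype.ext h)
    rw [le_antisymm (hle a₀ a.1.1 ha₀ ha₀1 a.1.2 ha1) (hle a.1.1 a₀ a.1.2 ha1 ha₀ ha₀1),
      ← Nat.card_coe_set_eq]
    exact Nat.card_congr
      { toFun := fun x => ⟨x.1.1, ⟨x.1.2.1, by rw [hf x.1, x.2]⟩, x.1.2.2.2⟩
        invFun := fun x => ⟨⟨x.1, x.2.1.1, fun h => ha1 (conj_injective_M (by
            rw [← x.2.1.2, (MonoidHom.mem_ker).1 (d.E_le h), map_one])), x.2.2⟩,
          Subtype.ext (Subtype.ext (conj_injective_M ((hf _).symm.trans x.2.1.2)))⟩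
        left_inv := fun _ => rfl
        right_inv := fun _ => rfl }
  haveI : Fintype {a : ↥B.A // a ≠ 1} := Fintype.ofFinite _
  have h15 : Nat.card {a : ↥B.A // a ≠ 1} = 15 := by
    rw [show Nat.card {a : ↥B.A // a ≠ 1} = (({1} : Set ↥B.A)ᶜ).ncard from Nat.card_coe_set_eq _,
      Set.ncard_compl, Set.ncard_singleton, B.card_A]
  have hcard : T.ncard = 15 * (N a₀).ncard := by
    rw [← Nat.card_coe_set_eq, ← Nat.card_congr (Equiv.sigmaFiberEquiv f), Nat.card_sigma,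
      Finset.sum_congr rfl (fun a _ => hfib a), Finset.sum_const, Finset.card_univ,
      ← Nat.card_eq_fintype_card, smul_eq_mul, h15]
  change (N a₀).ncard ∈ _ at hk
  simp only [List.mem_cons, List.not_mem_nil, or_false] at hk
  rcases hk with h | h | h | h
  exacts [⟨1, by simp, by rw [hcard, h]⟩, ⟨2, by simp, by rw [hcard, h]⟩,
    ⟨7, by simp, by rw [hcard, h]⟩, ⟨8, by simp, by rw [hcard, h]⟩]

end CfsgLib.Jf18.BigElem
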