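import Cfsg.Agent.Jf18.Fact
import Cfsg.Agent.J4Type13.Invol
import Cfsg.Agent.LargeFischer45.Counting
import Cfsg.Agent.J4Type5.Arith
import Cfsg.Agent.J4Type5.OutFibre

/-!
Janko-four type: the classes inside an elementary abelian subgroup of order `2 ^ 11`.
-/

set_option autoImplicit false
set_option linter.unusedSectionVars false

namespace CfsgLib.Jf18.Ctx

open CfsgLib.J4Type67 CfsgLib.J4Type5
open CfsgLib.LargeFischer45 (Other other_conj)
open scoped Pointwise

universe u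

variable {G : Type u} [Group G] [Finite G] (c : Ctx G)

/-- An elementary abelian subgroup of order `2 ^ 11` containing the involution. -/
structure Big (V : Subgroup G) : Prop where
  sq : ∀ x ∈ V, x * x = 1
  card : Nat.card V = 2 ^ 11
  mem : c.z ∈ V

variable {c} {V : Subgroup G} (hB : c.Big V)

include hB in
theorem Big.le_H : V ≤ c.H := c.le_H_of_elementary hB.sq hB.mem

include hB in
theorem Big.exists_bigElem :
    ∃ B : BigElem c.setup, ∀ x : c.H, x ∈ B.V ↔ (x : G) ∈ V := by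
  obtain ⟨B, e⟩ := Jf18.exists_bigElem c.setup (V := V.subgroupOf c.H) (c.sq_subgroupOf hB.sq)
    ((c.card_subgroupOf hB.le_H).trans hB.card)
  exact ⟨B, fun x => by rw [e]; rfl⟩

theorem mem_normalizer_iff {B : BigElem c.setup} (hBV : ∀ x : c.H, x ∈ B.V ↔ (x : G) ∈ V)
    (hV : V ≤ c.H) (h : c.H) :
    h ∈ Subgroup.normalizer (B.V : Set c.H) ↔ (h : G) ∈ Subgroup.normalizer (V : Set G) := by
  constructor
  · intro hh
    refine Subgroup.mem_normalizer_iff.2 fun x => ⟨fun hx => ?_, fun hx => ?_⟩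
    · exact (hBV _).1 ((Subgroup.mem_normalizer_iff.1 hh ⟨x, hV hx⟩).1 ((hBV _).2 hx))
    · have hxH : x ∈ c.H := by
        have := mul_mem (mul_mem (inv_mem h.2) (hV hx)) h.2
        simpa [mul_assoc] using this
      exact (hBV ⟨x, hxH⟩).1 ((Subgroup.mem_normalizer_iff.1 hh ⟨x, hxH⟩).2 ((hBV _).2 hx))
  · intro hh
    refine Subgroup.mem_normalizer_iff.2 fun x => ?_
    rw [hBV, hBV]
    exact Subgroup.mem_normalizer_iff.1 hh (x : G)

include hB in
theorem Big.card_normalizer :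
    Nat.card ↥(Subgroup.normalizer (V : Set G) ⊓ Subgroup.centralizer ({c.z} : Set G)) =
      2 ^ 21 * 135 := by
  obtain ⟨B, hBV⟩ := hB.exists_bigElem
  rw [← B.card_normalizer]
  exact Nat.card_congr
    { toFun := fun x => ⟨⟨x.1, x.2.2⟩, (mem_normalizer_iff hBV hB.le_H _).2 x.2.1⟩
      invFun := fun x => ⟨x.1.1, (mem_normalizer_iff hBV hB.le_H _).1 x.2, x.1.2⟩
      left_inv := fun _ => rfl
      right_inv := fun _ => rfl }

theorem ncard_setup {P : G → Prop} (hP : ∀ x, P x → x ∈ c.H) :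
    {x : G | P x}.ncard = {x : c.H | P x}.ncard := by
  rw [← Set.ncard_image_of_injective _ c.H.subtype_injective]
  congr 1
  ext x
  exact ⟨fun h => ⟨⟨x, hP x h⟩, h, rfl⟩, by rintro ⟨y, hy, rfl⟩; exact hy⟩

include hB in
/-- The members in the extraspecial group with an invariant property. -/
theorem Big.in_count (P : G → Prop) (hPz : P c.z) (hP1 : ¬ P 1)
    (hP : ∀ g ∈ c.H, ∀ x, P x → P (g * x * g⁻¹)) :
    {x | x ∈ V ∧ x ∈ c.E ∧ P x}.ncard ∈ ([1, 37, 91, 127] : List ℕ) := by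
  obtain ⟨B, hBV⟩ := hB.exists_bigElem
  have hE : ∀ {x : c.H}, x ∈ c.setup.E ↔ (x : G) ∈ c.E := Iff.rfl
  let Q : BigElem.Fused B :=
    { P := fun x => (x : G) ∈ c.E ∧ P x
      conj := fun h x hx => ⟨c.normal_E h.2 hx.1, hP _ h.2 _ hx.2⟩
      z := ⟨c.z_mem_E, hPz⟩
      avoid := fun u hu _ hne hPu => by
        rcases c.fixE hPu.1 (congrArg Subtype.val (c.setup.mem_C.1 hu).eq) with h | h
        · exact hP1 (h ▸ hPu.2)
        · exact hne (Subtype.ext h)
      cent := fun u hu h2 hn => by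
        have huC : (u : G) ∈ c.C :=
          c.mem_C.2 ⟨mem_cz.1 u.2, congrArg Subtype.val (c.setup.mem_C.1 hu).eq⟩
        rw [← (c.card_cent_invol huC (congrArg Subtype.val h2) (fun h => hn (hE.2 h))).1]
        exact Nat.card_congr
          { toFun := fun e => ⟨e.1.1, hE.1 e.2.1, Subgroup.mem_centralizer_singleton_iff.2
              (congrArg Subtype.val (Subgroup.mem_centralizer_singleton_iff.1 e.2.2))⟩
            invFun := fun e => ⟨⟨e.1, c.E_le e.2.1⟩, hE.2 e.2.1,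
              Subgroup.mem_centralizer_singleton_iff.2
                (Subtype.ext (Subgroup.mem_centralizer_singleton_iff.1 e.2.2))⟩
            left_inv := fun _ => rfl
            right_inv := fun _ => rfl } }
  have h := Q.card_in.1
  rw [ncard_setup fun x hx => hB.le_H hx.1, ← Nat.card_coe_set_eq]
  have e : {x : c.H | (x : G) ∈ V ∧ (x : G) ∈ c.E ∧ P x} =
      {x : c.H | x ∈ B.V ∧ x ∈ c.setup.E ∧ Q.P x} := Set.ext fun x => by
    show (x : G) ∈ V ∧ (x : G) ∈ c.E ∧ P x ↔ x ∈ B.V ∧ (x : G) ∈ c.E ∧ ((x : G) ∈ c.E ∧ P x)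
    rw [hBV]
    tauto
  rw [e]
  exact h

include hB in
theorem Big.card_inter : {x | x ∈ V ∧ x ∈ c.E}.ncard = 128 := by
  obtain ⟨B, hBV⟩ := hB.exists_bigElem
  rw [ncard_setup fun x hx => hB.le_H hx.1, ← Nat.card_coe_set_eq, ← B.card_D]
  exact Nat.card_congr (Equiv.subtypeEquivRight fun x => by
    show (x : G) ∈ V ∧ _ ↔ x ∈ B.V ⊓ c.setup.E
    rw [Subgroup.mem_inf, hBV]
    rfl)

theorem not_isConj_one : ¬ IsConj c.z 1 := fun h => c.z_ne_one (isConj_one_left.1 h)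

include hB in
/-- The numbers of members of the first class. -/
theorem Big.counts (hC : Subgroup.centralizer (V : Set G) ≤ V) {u : G} (hu : u ∈ c.C) (huV : u ∈ V)
    (huz : u ≠ c.z) (hcj : IsConj c.z u) :
    {x | x ∈ V ∧ x ∈ c.E ∧ IsConj c.z x}.ncard = 91 ∧
      {x | x ∈ V ∧ IsConj c.z x}.ncard = 1771 := by
  obtain ⟨B, hBV⟩ := hB.exists_bigElem
  obtain ⟨hu2, hu1⟩ := c.mul_self_of_isConj hcj
  have huE : u ∉ c.E := fun h => by
    rcases c.fixE h (c.mem_C.1 hu).2 with h | h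
    exacts [hu1 h, huz h]
  have hI := (c.card_cent_invol hu hu2 huE).1
  obtain ⟨k, hk, hout⟩ := B.out_count (u := ⟨u, hu.1⟩) (c.mem_setup_C hu) ((hBV _).2 huV) huE
    (by
      rw [← hI]
      exact Nat.card_congr
        { toFun := fun e => ⟨e.1.1, e.2.1, Subgroup.mem_centralizer_singleton_iff.2
            (congrArg Subtype.val (Subgroup.mem_centralizer_singleton_iff.1 e.2.2))⟩
          invFun := fun e => ⟨⟨e.1, c.E_le e.2.1⟩, e.2.1,
            Subgroup.mem_centralizer_singleton_iff.2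
              (Subtype.ext (Subgroup.mem_centralizer_singleton_iff.1 e.2.2))⟩
          left_inv := fun _ => rfl
          right_inv := fun _ => rfl })
    (fun x => IsConj c.z (x : G)) (fun h _ x hx => hx.trans (isConj_iff.2 ⟨(h : G), rfl⟩)) hcj
  have hout' : {x | x ∈ V ∧ x ∉ c.E ∧ IsConj c.z x}.ncard = 240 * k := by
    rw [ncard_setup fun x hx => hB.le_H hx.1, ← hout]
    congr 1
    ext x
    simp only [Set.mem_setOf_eq, hBV]
    rfl
  have hin := hB.in_count (IsConj c.z) (IsConj.refl _) not_isConj_one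
    fun g _ x hx => hx.trans (isConj_iff.2 ⟨g, rfl⟩)
  have hsum : {x | x ∈ V ∧ IsConj c.z x}.ncard =
      {x | x ∈ V ∧ x ∈ c.E ∧ IsConj c.z x}.ncard + {x | x ∈ V ∧ x ∉ c.E ∧ IsConj c.z x}.ncard := by
    rw [← Set.ncard_union_eq (Set.disjoint_left.2 fun x hx hx' => hx'.2.1 hx.2.1) (Set.toFinite _)
      (Set.toFinite _)]
    congr 1
    ext x
    simp only [Set.mem_union, Set.mem_setOf_eq]
    tauto
  have horb : zOrbit V c.z = {x | x ∈ V ∧ IsConj c.z x} := by
    ext x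
    exact ⟨by rintro ⟨n, hn, rfl⟩
              exact ⟨(Subgroup.mem_normalizer_iff.1 hn _).1 hB.mem, isConj_iff.2 ⟨n, rfl⟩⟩,
      fun hx => c.exists_normalizer_move hB.sq hB.card hB.mem hx.1 hx.2⟩
  set m := {x | x ∈ V ∧ x ∈ c.E ∧ IsConj c.z x}.ncard
  simp only [List.mem_cons, List.not_mem_nil, or_false] at hin
  obtain ⟨a, hma, ha⟩ : ∃ a, m = 1 + a ∧ a ∈ ({0, 36, 90, 126} : Finset ℕ) := by
    refine ⟨m - 1, by omega, ?_⟩
    rcases hin with h | h | h | h <;> simp [h]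
  obtain ⟨rfl, rfl⟩ := orbit_length (z := c.z) (k := k)
    ((LocalP.isElementaryAbelian_iff).2
      ⟨fun a ha b hb => comm_of_sq hB.sq ha hb, fun a ha => by rw [pow_two]; exact hB.sq a ha⟩)
    hB.card hC (a := a) (by rw [horb, hsum, hout', hma]) ha (by simp at hk ⊢; omega) hB.card_normalizer
  exact ⟨hma, by rw [hsum, hout', hma]⟩

include hB in
/-- The members outside the class of the involution inside the extraspecial group. -/
theorem Big.count_other (h91 : {x | x ∈ V ∧ x ∈ c.E ∧ IsConj c.z x}.ncard = 91) :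
    {x | x ∈ V ∧ x ∈ c.E ∧ Other c.z x}.ncard = 36 := by
  have h := hB.card_inter
  have hsplit : {x | x ∈ V ∧ x ∈ c.E} = {x | x ∈ V ∧ x ∈ c.E ∧ IsConj c.z x} ∪
      ({1} ∪ {x | x ∈ V ∧ x ∈ c.E ∧ Other c.z x}) := by
    ext x
    simp only [Set.mem_union, Set.mem_setOf_eq, Set.mem_singleton_iff, Other]
    constructor
    · rintro ⟨h1, h2⟩
      by_cases hx : x = 1
      · exact Or.inr (Or.inl hx)
      · by_cases hc : IsConj c.z x
        · exact Or.inl ⟨h1, h2, hc⟩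
        · exact Or.inr (Or.inr ⟨h1, h2, hx, hc⟩)
    · rintro (h | rfl | h)
      exacts [⟨h.1, h.2.1⟩, ⟨one_mem _, one_mem _⟩, ⟨h.1, h.2.1⟩]
  rw [hsplit, Set.ncard_union_eq _ (Set.toFinite _) (Set.toFinite _),
    Set.ncard_union_eq _ (Set.toFinite _) (Set.toFinite _), Set.ncard_singleton, h91] at h
  · omega
  · exact Set.disjoint_left.2 fun x hx hx' => hx'.2.2.1 hx
  · refine Set.disjoint_left.2 fun x hx hx' => ?_
    rcases hx' with rfl | hx'
    exacts [not_isConj_one hx.2.2, hx'.2.2.2 hx.2.2]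

include hB in
/-- Those 36 members are conjugate. -/
theorem Big.one_class (h36 : {x | x ∈ V ∧ x ∈ c.E ∧ Other c.z x}.ncard = 36) {a : G} (ha : a ∈ V)
    (haE : a ∈ c.E) (hao : Other c.z a) {b : G} (hb : b ∈ V) (hbE : b ∈ c.E) (hbo : Other c.z b) :
    IsConj a b := by
  set S := {x | x ∈ V ∧ x ∈ c.E ∧ (x = c.z ∨ IsConj a x)}
  set T := insert c.z {x | x ∈ V ∧ x ∈ c.E ∧ Other c.z x}
  have haz : a ≠ c.z := fun h => hao.2 (h ▸ IsConj.refl _)
  have hcount := hB.in_count (fun x => x = c.z ∨ IsConj a x) (Or.inl rfl)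
    (fun h => h.elim (fun h => c.z_ne_one h.symm) fun h => hao.1 (isConj_one_left.1 h))
    fun g hg x hx => hx.imp (fun h => by rw [h, (mem_cz.1 hg).eq, mul_inv_cancel_right])
      fun h => h.trans (isConj_iff.2 ⟨g, rfl⟩)
  have hT : T.ncard = 37 := by
    rw [Set.ncard_insert_of_notMem (fun h => h.2.2.2 (IsConj.refl _)) (Set.toFinite _), h36]
  have hST : S ⊆ T := by
    rintro x ⟨hx1, hx2, hx⟩
    rcases hx with rfl | hx
    · exact Set.mem_insert _ _
    · obtain ⟨g, rfl⟩ := isConj_iff.1 hx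
      exact Set.mem_insert_of_mem _ ⟨hx1, hx2, (other_conj g).2 hao⟩
  have h2 : 1 < S.ncard := (Set.one_lt_ncard (Set.toFinite _)).2
    ⟨a, ⟨ha, haE, Or.inr (IsConj.refl _)⟩, c.z, ⟨hB.mem, c.z_mem_E, Or.inl rfl⟩, haz⟩
  have hle := Set.ncard_le_ncard hST (Set.toFinite _)
  change S.ncard ∈ _ at hcount
  simp only [List.mem_cons, List.not_mem_nil, or_false] at hcount
  have e : S = T := Set.eq_of_subset_of_ncard_le hST (by omega) (Set.toFinite _)
  obtain ⟨-, -, h | h⟩ := e.ge (Set.mem_insert_of_mem c.z ⟨hb, hbE, hbo⟩)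
  · exact absurd (h ▸ IsConj.refl c.z) hbo.2
  · exact h

variable (c) in
/-- A context with a fused involution of `C` in the given subgroup. -/
theorem exists_good_ctx [IsSimpleGroup G] (hB : c.Big V) :
    ∃ c' : Ctx G, c'.z = c.z ∧ ∃ u ∈ c'.C, u ∈ V ∧ u ≠ c'.z ∧ IsConj c'.z u := by
  obtain ⟨u, hu, huz, hcj⟩ := c.factA
  obtain ⟨hu2, -⟩ := c.mul_self_of_isConj hcj
  obtain ⟨W, hW, hWs, hWc⟩ := c.setup.exists_elementary_of_commute
    (fun a ha => Jf18.M22.exists_hex ha) (u := ⟨u, hu.1⟩) (c.mem_setup_C hu) (Subtype.ext hu2)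
  obtain ⟨h, hh⟩ := c.setup.exists_conj_elementary (c.sq_subgroupOf hB.sq)
    ((c.card_subgroupOf hB.le_H).trans hB.card) hWs hWc
  have hz : (c.conj (h : G)).z = c.z := by
    show (h : G) * c.z * (h : G)⁻¹ = c.z
    rw [(mem_cz.1 h.2).eq, mul_inv_cancel_right]
  refine ⟨c.conj (h : G), hz, (h : G) * u * (h : G)⁻¹, ?_, ?_, ?_, ?_⟩
  · rw [c.C_conj]
    exact ⟨u, hu, rfl⟩
  · have hm : h * ⟨u, hu.1⟩ * h⁻¹ ∈ conjS h W := ⟨_, hW, rfl⟩
    rw [hh] at hm
    exact hm
  · rw [hz]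
    intro e
    refine huz ?_
    have e' := congrArg (fun y => (h : G)⁻¹ * y * h) e
    simpa [mul_assoc, ← (mem_cz.1 h.2).eq] using e'
  · rw [hz]
    exact hcj.trans (isConj_iff.2 ⟨(h : G), rfl⟩)

end CfsgLib.Jf18.Ctx
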