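import Cfsg.Agent.Jf18.Orbits
import Cfsg.Agent.J4Type5.Hexads

/-!
An elementary abelian subgroup of order `2 ^ 11` of the centraliser of the involution is determined
by its image in `M22`; its normaliser there has index 77.
-/

set_option autoImplicit false

namespace CfsgLib.Jf18.BigElem

open CfsgLib.J4Type67 CfsgLib.J4Type5
open scoped Pointwise

universe u

variable {H : Type u} [Group H] [Finite H] {d : Setup H} (B : BigElem d)

theorem map_V : B.V.map d.π = B.A.map (MulAut.conj : M →* MulAut M) := by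
  refine le_antisymm ?_ ?_
  · rintro _ ⟨v, hv, rfl⟩
    exact B.pi_mem v hv
  · rintro _ ⟨a, ha, rfl⟩
    obtain ⟨v, hv, e⟩ := B.exists_over ha
    exact ⟨v, hv, e⟩

theorem innPre_V : d.innPre B.V = B.A := by
  rw [Setup.innPre, B.map_V, Subgroup.comap_map_eq_self_of_injective conj_injective_M]

/-- Two such subgroups with the same image coincide. -/
theorem eq_of_A (B' : BigElem d) (h : B.A = B'.A) : B.V = B'.V := by
  have key : ∀ B B' : BigElem d, B.A = B'.A → B'.V ≤ B.V := by
    intro B B' h x hx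
    refine B.mem_V_of (h ▸ B'.pi_mem x hx) fun u hu => ?_
    have hu' : u ∈ B'.D := by
      show u ∈ B'.V ⊓ d.E
      rw [B'.inf_E, show conjS B'.g hex = conjS B.g hex from h.symm, ← B.inf_E]
      exact hu
    exact B'.comm hx hu'.1
  exact le_antisymm (key B' B h.symm) (key B B' h)

theorem exists_conj (h : H) : ∃ B' : BigElem d, B'.V = conjS h B.V := by
  refine exists_bigElem d ?_ ((card_conjS _ _).trans B.card)
  rintro _ ⟨v, hv, rfl⟩
  rw [← map_mul, B.sq v hv, map_one]

theorem map_pi_conjS (h : H) :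
    (conjS h B.V).map d.π = (B.A.map (MulAut.conj : M →* MulAut M)).map
      (MulAut.conj (d.π h)).toMonoidHom := by
  rw [← B.map_V, conjS, Subgroup.map_map, Subgroup.map_map]
  congr 1
  ext x
  simp

theorem innPre_conjS {h : H} {m : M} (hm : d.π h = MulAut.conj m) :
    d.innPre (conjS h B.V) = conjS m B.A := by
  rw [Setup.innPre, B.map_pi_conjS, hm,
    show (B.A.map (MulAut.conj : M →* MulAut M)).map (MulAut.conj (MulAut.conj m)).toMonoidHom =
      (conjS m B.A).map (MulAut.conj : M →* MulAut M) by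
      refine (Subgroup.map_map _ _ _).trans
        ((congrArg (fun f => Subgroup.map f B.A) (MonoidHom.ext fun x => ?_)).trans
          (Subgroup.map_map _ _ _).symm)
      show MulAut.conj m * MulAut.conj x * (MulAut.conj m)⁻¹ = MulAut.conj (m * x * m⁻¹)
      rw [← map_inv, ← map_mul, ← map_mul],
    Subgroup.comap_map_eq_self_of_injective conj_injective_M]

theorem mem_normalizer_of {h : H} (hA : d.innPre (conjS h B.V) = B.A) :
    h ∈ Subgroup.normalizer (B.V : Set H) := by
  obtain ⟨B', hB'⟩ := B.exists_conj h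
  have e : B.A = B'.A := by rw [← B'.innPre_V, hB', hA]
  have hV : conjS h B.V = B.V := hB' ▸ (B.eq_of_A B' e).symm
  refine Subgroup.mem_normalizer_iff.2 fun x => ?_
  conv_rhs => rw [← hV]
  rw [mem_conjS]
  simp [mul_assoc]

theorem conjS_V_eq {h : H} (hh : h ∈ Subgroup.normalizer (B.V : Set H)) : conjS h B.V = B.V := by
  ext x
  rw [mem_conjS, Subgroup.mem_normalizer_iff.1 hh (h⁻¹ * x * h)]
  simp [mul_assoc]

/-- An element of `C` normalising the image normalises the subgroup. -/
theorem C_mem_normalizer {c : H} (hc : c ∈ d.C) (hn : conjS (d.sigma ⟨c, hc⟩) B.A = B.A) :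
    c ∈ Subgroup.normalizer (B.V : Set H) :=
  B.mem_normalizer_of ((B.innPre_conjS (d.conj_sigma ⟨c, hc⟩).symm).trans hn)

theorem E_le_normalizer : d.E ≤ Subgroup.normalizer (B.V : Set H) := fun e he =>
  B.mem_normalizer_of (by
    rw [B.innPre_conjS (m := 1) (by rw [(MonoidHom.mem_ker).1 (d.E_le he), map_one])]
    ext a
    simp [mem_conjS])

theorem p_mem_normalizer : d.p ∈ Subgroup.normalizer (B.V : Set H) :=
  B.C_mem_normalizer p_mem_C B.sigma_p

/-- The normaliser moves every nontrivial member of the image to every other. -/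
theorem exists_move {a b : M} (ha : a ∈ B.A) (ha1 : a ≠ 1) (hb : b ∈ B.A) (hb1 : b ≠ 1) :
    ∃ c : H, c ∈ Subgroup.normalizer (B.V : Set H) ∧
      d.π c * MulAut.conj a * (d.π c)⁻¹ = MulAut.conj b := by
  have hh : ∀ {b : M}, b ∈ B.A → b ≠ 1 → B.g⁻¹ * b * B.g ∈ hex ∧ B.g⁻¹ * b * B.g ≠ 1 :=
    fun {b} hb hb1 => ⟨mem_conjS.1 hb, fun h => hb1 (by
      rw [show b = B.g * (B.g⁻¹ * b * B.g) * B.g⁻¹ by group, h, mul_one, mul_inv_cancel])⟩
  obtain ⟨n, hn, hnab⟩ := hex_trans (hh ha ha1).1 (hh ha ha1).2 (hh hb hb1).1 (hh hb hb1).2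
  set m := B.g * n * B.g⁻¹ with hm
  have hmC : MulAut.conj m ∈ d.C.map d.π := by rw [d.map_C]; exact ⟨_, rfl⟩
  obtain ⟨c, hc, hcm⟩ := hmC
  refine ⟨c, B.mem_normalizer_of ?_, ?_⟩
  · rw [B.innPre_conjS hcm, hm]
    show conjS (B.g * n * B.g⁻¹) (conjS B.g hex) = conjS B.g hex
    rw [conjS_conjS, inv_mul_cancel_right, ← conjS_conjS, hn]
  · rw [hcm, ← map_inv, ← map_mul, ← map_mul]
    congr 1
    rw [hm, show B.g * n * B.g⁻¹ * a * (B.g * n * B.g⁻¹)⁻¹ =
      B.g * (n * (B.g⁻¹ * a * B.g) * n⁻¹) * B.g⁻¹ by group, hnab]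
    group

/-- The normaliser has index 77. -/
theorem index_normalizer : (Subgroup.normalizer (B.V : Set H)).index = 77 := by
  classical
  set N := Subgroup.normalizer (B.V : Set H)
  have hA : ∀ h : H, ∃ g, conjS g hex = d.innPre (conjS h B.V) := fun h => by
    obtain ⟨B', hB'⟩ := B.exists_conj h
    exact ⟨B'.g, by rw [← hB', B'.innPre_V]⟩
  let f : H → {S : Subgroup M // ∃ g, conjS g hex = S} := fun h =>
    ⟨d.innPre (conjS h B.V), hA h⟩
  rw [Subgroup.index, ← card_conjugates]
  refine Nat.card_congr (Equiv.ofBijective (Quotient.lift f ?_) ⟨?_, ?_⟩)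
  · intro a b hab
    have hab' : a⁻¹ * b ∈ N := QuotientGroup.leftRel_apply.1 hab
    refine Subtype.ext (congrArg d.innPre ?_)
    conv_lhs => rw [← B.conjS_V_eq hab']
    rw [conjS, conjS, conjS, Subgroup.map_map]
    congr 1
    ext x
    simp [mul_assoc]
  · intro x y
    induction x using QuotientGroup.induction_on with | H a => ?_
    induction y using QuotientGroup.induction_on with | H b => ?_
    intro h
    obtain ⟨Ba, hBa⟩ := B.exists_conj a
    obtain ⟨Bb, hBb⟩ := B.exists_conj b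
    have hV : conjS a B.V = conjS b B.V := by
      rw [← hBa, ← hBb]
      refine Ba.eq_of_A Bb ?_
      rw [← Ba.innPre_V, ← Bb.innPre_V, hBa, hBb]
      exact congrArg Subtype.val h
    refine QuotientGroup.eq.2 (Subgroup.mem_normalizer_iff.2 fun x => ?_)
    have := SetLike.ext_iff.1 hV (b * x * b⁻¹)
    rw [mem_conjS, mem_conjS, show b⁻¹ * (b * x * b⁻¹) * b = x by group] at this
    rw [← this, show a⁻¹ * b * x * (a⁻¹ * b)⁻¹ = a⁻¹ * (b * x * b⁻¹) * a by group]
  · rintro ⟨_, g, rfl⟩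
    have hm : MulAut.conj (g * B.g⁻¹) ∈ d.C.map d.π := by rw [d.map_C]; exact ⟨_, rfl⟩
    obtain ⟨c, -, hcm⟩ := hm
    refine ⟨QuotientGroup.mk c, Subtype.ext ?_⟩
    show d.innPre (conjS c B.V) = conjS g hex
    rw [B.innPre_conjS hcm]
    show conjS (g * B.g⁻¹) (conjS B.g hex) = conjS g hex
    rw [conjS_conjS, inv_mul_cancel_right]

theorem card_normalizer : Nat.card ↥(Subgroup.normalizer (B.V : Set H)) = 2 ^ 21 * 135 := by
  have hH := d.π.ker.card_mul_index
  rw [Subgroup.index_ker, d.cardKer, MonoidHom.range_eq_top.2 d.surj, Subgroup.card_top,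
    Setup.card_mulAut] at hH
  have h := (Subgroup.normalizer (B.V : Set H)).card_mul_index
  rw [B.index_normalizer, ← hH] at h
  norm_num at h ⊢
  omega

end CfsgLib.Jf18.BigElem
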