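import Cfsg.Agent.J4Type5.ComplOuter
import Cfsg.Agent.J4Type5.Ambient
import Cfsg.Agent.J4Type5.Frame
import Cfsg.Agent.J4Type5.Counts
import Cfsg.Agent.Jf18.Cover
import Cfsg.Agent.Jf18.Three
import Cfsg.Agent.Solvable.Gaschuetz

/-!
Janko-four type: a complement of an elementary abelian subgroup of order `2 ^ 11` in its
normaliser. In the centraliser of the involution a subgroup of order `2 ^ 10` meets it trivially and
normalises it, and Gaschütz's theorem does the rest.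
-/

set_option autoImplicit false
set_option linter.unusedSectionVars false
set_option linter.style.haveILetI false

namespace CfsgLib.J4Type5

open Cfsg CfsgLib.J4Type67

theorem cplEls_card : cplEls.toFinset.card = 16 := by decide

theorem mem_cplEls {e i f : ℕ} (he : e < 2) (hi : i < 4) (hf : f < 2) : (e, i, f) ∈ cplEls := by
  simp only [cplEls, List.mem_flatMap, List.mem_range, List.mem_map]
  exact ⟨e, he, i, hi, f, hf, rfl⟩

theorem aut_conj {K : Type*} [Group K] (φ : MulAut K) (a : K) :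
    φ * MulAut.conj a * φ⁻¹ = MulAut.conj (φ a) := by
  ext x
  simp only [MulAut.mul_apply, MulAut.conj_apply, map_mul, map_inv, MulAut.apply_inv_self]

theorem cpl_conjS_normalizer {K : Type*} [Group K] {g : K} {A : Subgroup K} :
    conjS g A = A ↔ g ∈ Subgroup.normalizer (A : Set K) := by
  refine ⟨fun hg => Subgroup.mem_normalizer_iff.2 fun h => ?_, fun hg => ?_⟩
  · conv_rhs => rw [← hg]
    rw [mem_conjS]
    simp [mul_assoc]
  · ext x
    rw [mem_conjS, Subgroup.mem_normalizer_iff.1 hg (g⁻¹ * x * g)]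
    simp [mul_assoc]

theorem cpl_conjS_conjS {K : Type*} [Group K] (g h : K) (A : Subgroup K) :
    conjS g (conjS h A) = conjS (g * h) A := by
  ext x
  simp [mem_conjS, mul_assoc]

theorem card_sup_of_disjoint {K : Type*} [Group K] {A B : Subgroup K}
    (hB : B ≤ Subgroup.normalizer (A : Set K)) (h : A ⊓ B = ⊥) :
    Nat.card ↥(A ⊔ B) = Nat.card A * Nat.card B := by
  rw [← Nat.card_prod]
  symm
  refine Nat.card_congr (Equiv.ofBijective
    (fun x => (⟨x.1.1 * x.2.1, mul_mem (Subgroup.mem_sup_left x.1.2)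
      (Subgroup.mem_sup_right x.2.2)⟩ : ↥(A ⊔ B))) ⟨fun x y e => ?_, fun x => ?_⟩)
  · exact Subgroup.mul_injective_of_disjoint (disjoint_iff.2 h) (congrArg Subtype.val e)
  · have hx : (x : K) ∈ ((A ⊔ B : Subgroup K) : Set K) := x.2
    rw [Subgroup.coe_mul_of_right_le_normalizer_left A B hB] at hx
    obtain ⟨a, ha, b, hb, e⟩ := hx
    exact ⟨(⟨a, ha⟩, ⟨b, hb⟩), Subtype.ext e⟩

end CfsgLib.J4Type5

namespace CfsgLib.J4Type67.Setup

open Cfsg CfsgLib.J4Type5 CfsgLib.J4Type13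

universe u

variable {H : Type u} [Group H] [Finite H] (d : Setup H)

/-- An element inverting `p` induces an outer automorphism. -/
theorem cpl_outer {h : H} (hinv : h * d.p * h⁻¹ = d.p⁻¹) :
    d.π h ∉ (MulAut.conj : M →* MulAut M).range := by
  intro hin
  rw [← d.map_C] at hin
  obtain ⟨k, hk, e⟩ := hin
  obtain ⟨i, hi⟩ := d.ker_decomp (n := k⁻¹ * h) (by
    rw [MonoidHom.mem_ker, map_mul, map_inv, e, inv_mul_cancel])
  set n := k⁻¹ * h * d.p ^ i
  have hk' : k⁻¹ * d.p⁻¹ * k = d.p⁻¹ := by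
    rw [mul_assoc, ← ((d.mem_C.1 hk).inv_right).eq, inv_mul_cancel_left]
  have hn : n * d.p * n⁻¹ = d.p⁻¹ := by
    calc n * d.p * n⁻¹ = k⁻¹ * (h * d.p * h⁻¹) * k := by simp only [n]; group
      _ = d.p⁻¹ := by rw [hinv, hk']
  have h1 : d.p⁻¹ * d.p⁻¹ ∈ d.E := by
    have := mul_mem hi (d.normalE d.p _ (inv_mem hi))
    rwa [show n * (d.p * n⁻¹ * d.p⁻¹) = n * d.p * n⁻¹ * d.p⁻¹ by group, hn] at this
  have h2 : d.p⁻¹ * d.p⁻¹ = d.p := by
    rw [← mul_inv_rev]
    exact inv_eq_of_mul_eq_one_left (by rw [← pow_three, d.p3])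
  exact d.p_notMem (h2 ▸ h1)

/-- An element inverting `p` comes from an element exchanging the base points. -/
theorem cpl_pairStab {h : H} (hinv : h * d.p * h⁻¹ = d.p⁻¹) :
    ∃ x : ↥pairStab, toAut x = d.π h ∧ (x : Equiv.Perm GolayPt) none = some 0 := by
  obtain ⟨x, hx⟩ := toAut_surjective (d.π h)
  refine ⟨x, hx, ?_⟩
  rcases pairStab_cases x.2 with ⟨h1, -⟩ | ⟨h1, -⟩
  · obtain ⟨m, rfl⟩ := exists_incl h1
    exact absurd (hx ▸ ⟨m, (toAut_incl m).symm⟩) (d.cpl_outer hinv)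
  · exact h1

/-- Two inverters with the same image have squares one together. -/
theorem cpl_inverter_sq {h h' : H} (hinv : h * d.p * h⁻¹ = d.p⁻¹)
    (hinv' : h' * d.p * h'⁻¹ = d.p⁻¹) (h2 : h * h = 1) (hπ : d.π h' = d.π h) : h' * h' = 1 := by
  obtain ⟨i, hi⟩ := d.ker_decomp (n := h⁻¹ * h') (by
    rw [MonoidHom.mem_ker, map_mul, map_inv, hπ, inv_mul_cancel])
  have hC : h⁻¹ * h' ∈ d.C := d.mem_C.2 (mul_inv_eq_iff_eq_mul.1 (by
    calc h⁻¹ * h' * d.p * (h⁻¹ * h')⁻¹ = h⁻¹ * (h' * d.p * h'⁻¹) * h := by group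
      _ = h⁻¹ * (h * d.p * h⁻¹) * h := by rw [hinv', hinv]
      _ = d.p := by group))
  have hZ := d.mem_Z_of_C hi (mul_mem hC (zpow_mem (d.mem_C.2 (Commute.refl _)) i))
  set ζ := h⁻¹ * h' * d.p ^ i
  have hz : ∀ y, Commute ζ y := fun y => by
    rcases d.mem_Z.1 hZ with e | e <;> rw [e]
    exacts [Commute.one_left y, d.zc y]
  have hz2 : ζ * ζ = 1 := by
    rcases d.mem_Z.1 hZ with e | e <;> rw [e]
    exacts [one_mul 1, d.zz]
  have e : h' = ζ * (h * (d.p ^ i)⁻¹) := by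
    rw [← mul_assoc, (hz h).eq]
    simp only [ζ]; group
  have hq : h * (d.p ^ i)⁻¹ * h⁻¹ = d.p ^ i := by
    rw [← zpow_neg, ← conj_zpow, hinv, zpow_neg, inv_zpow, inv_inv]
  have h3 : h * (d.p ^ i)⁻¹ * (h * (d.p ^ i)⁻¹) = 1 := by
    calc h * (d.p ^ i)⁻¹ * (h * (d.p ^ i)⁻¹)
        = h * (d.p ^ i)⁻¹ * h⁻¹ * (h * h) * (d.p ^ i)⁻¹ := by group
      _ = 1 := by rw [hq, h2, mul_one, mul_inv_cancel]
  rw [e, (hz (h * (d.p ^ i)⁻¹)).symm.mul_mul_mul_comm, hz2, h3, one_mul]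

/-- The inner hypothesis: no element centralising `p` squares to `z`. -/
def CplSq : Prop := ∀ u ∈ d.C, u * u ≠ d.z

/-- The outer hypothesis: an involution inverting `p` centralises a further element of order
three. -/
def CplOut : Prop := ∃ τ y : H, τ * τ = 1 ∧ τ * d.p * τ⁻¹ = d.p⁻¹ ∧ Commute τ y ∧
  ∃ hy : y ∈ d.C, orderOf (d.sigma ⟨y, hy⟩) = 3

variable {d}

/-- Outer involutions of octad type lift to involutions inverting `p`. -/
theorem cpl_oct_lift (hout : d.CplOut) {x : ↥pairStab} (hx : IsOct x) :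
    ∃ h : H, h * h = 1 ∧ h * d.p * h⁻¹ = d.p⁻¹ ∧ d.π h = toAut x := by
  obtain ⟨τ, y, hτ2, hτp, hτy, hy, hy3⟩ := hout
  obtain ⟨x₀, hx₀, hsw⟩ := d.cpl_pairStab hτp
  have hyπ : toAut (incl (d.sigma ⟨y, hy⟩)) = d.π y := (toAut_incl _).trans (d.conj_sigma ⟨y, hy⟩)
  have h₀ : IsOct x₀ := isOct_of_commute hsw
    (toAut_injective (by rw [map_mul, hx₀, ← map_mul, hτ2, map_one, map_one]))
    hy3 (toAut_injective (by rw [map_mul, map_mul, hx₀, hyπ, ← map_mul, ← map_mul, hτy.eq]))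
  obtain ⟨k₀, hk₀⟩ := h₀.exists_conj hx
  obtain ⟨g, hg⟩ := d.surj (toAut k₀)
  obtain ⟨a, ha, hag⟩ := d.exists_normalizer g
  refine ⟨a * τ * a⁻¹, ?_, ?_, ?_⟩
  · rw [show a * τ * a⁻¹ * (a * τ * a⁻¹) = a * (τ * τ) * a⁻¹ by group, hτ2, mul_one,
      mul_inv_cancel]
  · have hτp' : τ * d.p⁻¹ * τ⁻¹ = d.p := by
      rw [← inv_inv d.p, ← conj_inv, inv_inv, hτp, inv_inv]
    rw [show a * τ * a⁻¹ * d.p * (a * τ * a⁻¹)⁻¹ = a * (τ * (a⁻¹ * d.p * a) * τ⁻¹) * a⁻¹ by group]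
    rcases d.conj_p (inv_mem ha) with e | e <;> rw [inv_inv] at e <;> rw [e]
    · rw [hτp]
      conv_lhs => rw [← e]
      group
    · rw [hτp']
      conv_lhs => rw [show d.p = (a⁻¹ * d.p * a)⁻¹ by rw [e, inv_inv]]
      group
  · rw [map_mul, map_mul, map_inv, hag, hg, ← hx₀, ← map_inv, ← map_mul, ← map_mul, hk₀]

/-- Involutions of `M22` lift to involutions centralising `p`. -/
theorem cpl_inner_lift (hsq : d.CplSq) {a : M} (ha : a * a = 1) :
    ∃ u ∈ d.C, u * u = 1 ∧ d.π u = MulAut.conj a := by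
  obtain ⟨x, hxa, hxx⟩ := d.rep.exists_lift_two (A := Subgroup.zpowers a) (by
    rintro _ ⟨i, rfl⟩
    rw [← (Commute.refl a).mul_zpow, ha, one_zpow]) (Subgroup.mem_zpowers a)
  induction x using QuotientGroup.induction_on with
  | H k =>
    refine ⟨k, k.2, ?_, ?_⟩
    · have h : (k * k : d.C).1 ∈ d.Z := by
        rw [← QuotientGroup.mk_mul, QuotientGroup.eq_one_iff] at hxx
        exact hxx
      exact (d.mem_Z.1 h).resolve_right (hsq k k.2)
    · have h : d.sigma k = a := hxa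
      rw [← d.conj_sigma k, h]

/-- Conjugation of the fixed spaces by an element normalising `⟨p⟩`. -/
theorem cpl_conj_pre {h : H} (hh : h * d.p * h⁻¹ = d.p ∨ h * d.p * h⁻¹ = d.p⁻¹) {B : Subgroup M}
    {x : H} (hx : x ∈ d.pre (d.rep.F B)) :
    h * x * h⁻¹ ∈ d.pre (d.rep.F (B.map (d.π h).toMonoidHom)) := by
  obtain ⟨hxE, hxF⟩ := d.mem_pre.1 hx
  refine d.mem_pre.2 ⟨d.normalE h x hxE, ?_⟩
  intro y hy
  induction y using QuotientGroup.induction_on with
  | H k =>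
    obtain ⟨hy1, hy2⟩ := hy
    have hk : (k : H) * d.p * (k : H)⁻¹ = d.p := mul_inv_eq_iff_eq_mul.2 (d.mem_C.1 k.2).eq
    have hk' : h⁻¹ * k * h ∈ d.C := by
      refine d.mem_C.2 (mul_inv_eq_iff_eq_mul.1 ?_)
      rw [show h⁻¹ * k * h * d.p * (h⁻¹ * k * h)⁻¹ =
        h⁻¹ * (k * (h * d.p * h⁻¹) * (k : H)⁻¹) * h by group]
      rcases hh with e | e <;> rw [e]
      · rw [hk]
        conv_lhs => rw [← e]
        group
      · rw [← conj_inv, hk, ← e]
        group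
    have hmem : d.sigma ⟨_, hk'⟩ ∈ B := by
      obtain ⟨b, hb, hbe⟩ := hy1
      replace hbe : d.π h b = d.sigma k := hbe
      suffices e : d.sigma ⟨_, hk'⟩ = b by rw [e]; exact hb
      apply conj_injective_M
      rw [d.conj_sigma]
      show d.π (h⁻¹ * k * h) = _
      rw [map_mul, map_mul, map_inv, ← d.conj_sigma k, ← hbe, ← aut_conj]
      group
    have hsq : (QuotientGroup.mk (⟨_, hk'⟩ : d.C) : d.X) * QuotientGroup.mk ⟨_, hk'⟩ = 1 := by
      rw [← QuotientGroup.mk_mul, QuotientGroup.eq_one_iff] at hy2 ⊢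
      show h⁻¹ * k * h * (h⁻¹ * k * h) ∈ d.Z
      have hz : (k : H) * k ∈ d.Z := hy2
      rw [show h⁻¹ * k * h * (h⁻¹ * k * h) = h⁻¹ * ((k : H) * k) * h⁻¹⁻¹ by group, d.z_conj _ hz]
      exact hz
    have hfix : d.actH (h⁻¹ * k * h) (d.q x hxE) = d.q x hxE :=
      hxF (QuotientGroup.mk ⟨_, hk'⟩) ⟨hmem, hsq⟩
    show d.actH (k : H) (d.q (h * x * h⁻¹) (d.normalE h x hxE)) = _
    rw [← d.actH_q h hxE]
    show d.actHom (k : H) (d.actHom h (d.q x hxE)) = d.actHom h (d.q x hxE)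
    rw [← d.actHom_mul, show (k : H) * h = h * (h⁻¹ * k * h) by group, d.actHom_mul]
    exact congrArg (d.actHom h) hfix

/-- The fixed spaces of the two hexad groups meet trivially. -/
theorem cpl_F_inf : d.rep.F hex ⊓ d.rep.F (conjS gM hex) = ⊥ := by
  rw [eq_bot_iff]
  rintro w ⟨h1, h2⟩
  refine Subgroup.mem_bot.2 (d.rep.fpf w ?_)
  let K : Subgroup d.X :=
    { carrier := {x | d.rep.act x w = w}
      one_mem' := d.rep.act_one w
      mul_mem' := fun {a b} ha hb => by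
        show d.rep.act (a * b) w = w
        rw [d.rep.act_mul, show d.rep.act b w = w from hb, show d.rep.act a w = w from ha]
      inv_mem' := fun {a} ha => by
        show d.rep.act a⁻¹ w = w
        conv_lhs => rw [← show d.rep.act a w = w from ha]
        exact d.rep.act_inv_act a w }
  have hK : K.map d.rep.proj = ⊤ := by
    rw [eq_top_iff, ← hex_sup_opp]
    refine sup_le (fun a ha => ?_) (fun a ha => ?_)
    · obtain ⟨x, hx, hxx⟩ := d.rep.exists_lift_two sq_hex ha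
      exact ⟨x, h1 x ⟨hx ▸ ha, hxx⟩, hx⟩
    · obtain ⟨x, hx, hxx⟩ := d.rep.exists_lift_two (A := conjS gM hex) (by
        rintro _ ⟨b, hb, rfl⟩
        rw [← map_mul, sq_hex b hb, map_one]) ha
      exact ⟨x, h2 x ⟨hx ▸ ha, hxx⟩, hx⟩
  have hle : commutator d.X ≤ K := by
    rw [commutator_def, Subgroup.commutator_le]
    intro a _ b _
    obtain ⟨a', ha', ea⟩ := hK.ge (Subgroup.mem_top (d.rep.proj a))
    obtain ⟨b', hb', eb⟩ := hK.ge (Subgroup.mem_top (d.rep.proj b))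
    obtain ⟨i, hi⟩ := d.rep.exists_pow (x := a'⁻¹ * a) (by rw [map_mul, map_inv, ea, inv_mul_cancel])
    obtain ⟨j, hj⟩ := d.rep.exists_pow (x := b'⁻¹ * b) (by rw [map_mul, map_inv, eb, inv_mul_cancel])
    rw [inv_mul_eq_iff_eq_mul] at hi hj
    have c1 : ∀ y : d.X, Commute (d.rep.p ^ i) y := fun y => (d.rep.central y).zpow_left i
    have c2 : ∀ y : d.X, Commute (d.rep.p ^ j) y := fun y => (d.rep.central y).zpow_left j
    have e : a * b * a⁻¹ * b⁻¹ = a' * b' * a'⁻¹ * b'⁻¹ := by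
      rw [hi, hj, mul_inv_rev, mul_inv_rev]
      calc a' * d.rep.p ^ i * (b' * d.rep.p ^ j) * ((d.rep.p ^ i)⁻¹ * a'⁻¹) *
            ((d.rep.p ^ j)⁻¹ * b'⁻¹)
          = a' * (d.rep.p ^ i * (b' * d.rep.p ^ j)) * (d.rep.p ^ i)⁻¹ * a'⁻¹ *
            (d.rep.p ^ j)⁻¹ * b'⁻¹ := by group
        _ = a' * b' * (d.rep.p ^ j * a'⁻¹) * (d.rep.p ^ j)⁻¹ * b'⁻¹ := by rw [(c1 _).eq]; group
        _ = a' * b' * a'⁻¹ * b'⁻¹ := by rw [(c2 _).eq]; group
    rw [commutatorElement_def, e]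
    exact mul_mem (mul_mem (mul_mem ha' hb') (inv_mem ha')) (inv_mem hb')
  exact hle d.rep.derived

/-- A group of order sixteen over the data. -/
theorem cpl_exists_sixteen (hsq : d.CplSq) (hout : d.CplOut) :
    ∃ R : Subgroup H, 16 ≤ Nat.card R ∧
      (∀ x ∈ R, ∃ k ∈ cplEls, d.π x = toAut (elP k) ∧ (k = (0, 0, 0) → x = 1)) ∧
      ∃ S : Set H, R = Subgroup.closure S ∧ ∀ s ∈ S,
        (s * d.p * s⁻¹ = d.p ∨ s * d.p * s⁻¹ = d.p⁻¹) ∧
        hex.map (d.π s).toMonoidHom = hex ∧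
        (conjS gM hex).map (d.π s).toMonoidHom = conjS gM hex := by
  obtain ⟨hoc, hou, hov⟩ := isOct_data
  obtain ⟨C, C2, Cp, Cπ⟩ := cpl_oct_lift hout hoc
  obtain ⟨U, UC, U2, Uπ'⟩ := cpl_inner_lift hsq uv_sq.1
  obtain ⟨V, VC, V2, Vπ'⟩ := cpl_inner_lift hsq uv_sq.2.1
  have Uπ : d.π U = toAut (incl uM) := Uπ'.trans (toAut_incl _).symm
  have Vπ : d.π V = toAut (incl vM) := Vπ'.trans (toAut_incl _).symm
  have hcomm : ∀ {m : M} {u : H}, IsOct (cP * incl m) → u ∈ d.C → u * u = 1 →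
      d.π u = toAut (incl m) → Commute C u := by
    intro m u ho hu hu2 hπ
    obtain ⟨h, h2, hp, hπh⟩ := cpl_oct_lift hout ho
    have e : C * u * (C * u) = 1 := d.cpl_inverter_sq hp (by
      rw [show C * u * d.p * (C * u)⁻¹ = C * (u * d.p * u⁻¹) * C⁻¹ by group,
        mul_inv_eq_iff_eq_mul.2 (d.mem_C.1 hu).eq, Cp]) h2 (by rw [map_mul, Cπ, hπ, hπh, map_mul])
    show C * u = u * C
    rw [eq_inv_of_mul_eq_one_left e, mul_inv_rev, inv_eq_of_mul_eq_one_right C2,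
      inv_eq_of_mul_eq_one_right hu2]
  have hCU : Commute C U := hcomm hou UC U2 Uπ
  have hCV : Commute C V := hcomm hov VC V2 Vπ
  set r := U * V with hr
  have hrC : r ∈ d.C := mul_mem UC VC
  have rπ : d.π r = toAut (incl (uM * vM)) := by rw [map_mul, Uπ, Vπ, ← map_mul, ← map_mul]
  have r4 : r ^ 4 = 1 := by
    obtain ⟨i, hi⟩ := d.ker_decomp (n := r ^ 4) (by
      rw [MonoidHom.mem_ker, map_pow, rπ, ← map_pow, ← map_pow, uv_sq.2.2, map_one, map_one])
    have hZ := d.mem_Z_of_C hi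
      (mul_mem (pow_mem hrC 4) (zpow_mem (d.mem_C.2 (Commute.refl _)) i))
    set ζ := r ^ 4 * d.p ^ i
    have hz : ∀ y, Commute ζ y := fun y => by
      rcases d.mem_Z.1 hZ with e | e <;> rw [e]
      exacts [Commute.one_left y, d.zc y]
    have hp : Commute C (d.p ^ i) := by
      rw [show d.p ^ i = (r ^ 4)⁻¹ * ζ by simp only [ζ]; group]
      exact (((hCU.mul_right hCV).pow_right 4).inv_right).mul_right (hz C).symm
    have hpi : d.p ^ i = 1 := by
      have e : C * d.p ^ i * C⁻¹ = d.p ^ i := mul_inv_eq_iff_eq_mul.2 hp.eq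
      rw [← conj_zpow, Cp, inv_zpow] at e
      have e2 : (d.p ^ i) ^ 2 = 1 := by
        rw [pow_two]
        nth_rw 1 [← e]
        exact inv_mul_cancel _
      have e3 : (d.p ^ i) ^ 3 = 1 := by
        rw [← zpow_natCast, ← zpow_mul, mul_comm, zpow_mul, zpow_natCast, d.p3, one_zpow]
      rwa [pow_succ, e2, one_mul] at e3
    have hr4 : r ^ 4 ∈ d.Z := by simpa [ζ, hpi] using hZ
    refine (d.mem_Z.1 hr4).resolve_right fun e => hsq (r ^ 2) (pow_mem hrC 2) ?_
    rw [← pow_add]; exact e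
  have hUr : ∀ i : ℕ, U * r ^ i = r ^ (3 * i) * U := by
    have e : SemiconjBy U r (r ^ 3) := by
      have h : r ^ 3 = V * U := by
        rw [eq_comm]
        have hinv : r⁻¹ = V * U := by
          rw [hr, mul_inv_rev, inv_eq_of_mul_eq_one_right U2, inv_eq_of_mul_eq_one_right V2]
        rw [← hinv]
        exact inv_eq_of_mul_eq_one_right (by rw [← pow_succ', r4])
      show U * r = r ^ 3 * U
      rw [h, hr, ← mul_assoc, U2, one_mul, mul_assoc, U2, mul_one]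
    intro i
    rw [pow_mul]
    exact (e.pow_right i).eq
  set S : Set H := {C, U, V}
  set R := Subgroup.closure S
  let el' : ℕ × ℕ × ℕ → H := fun k => C ^ k.1 * r ^ k.2.1 * U ^ k.2.2
  have hmemC : C ∈ R := Subgroup.subset_closure (by simp [S])
  have hmemU : U ∈ R := Subgroup.subset_closure (by simp [S])
  have hmemV : V ∈ R := Subgroup.subset_closure (by simp [S])
  have hπel : ∀ k, d.π (el' k) = toAut (elP k) := by
    intro k
    simp only [el', elP, map_mul, map_pow, Cπ, rπ, Uπ]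
  have hstepU : ∀ e i f : ℕ, U * el' (e, i, f) = el' (e, 3 * i, f + 1) := by
    intro e i f
    show U * (C ^ e * r ^ i * U ^ f) = C ^ e * r ^ (3 * i) * U ^ (f + 1)
    rw [← mul_assoc, ← mul_assoc, (hCU.pow_left e).symm.eq, mul_assoc (C ^ e), hUr, pow_succ',
      ← mul_assoc, ← mul_assoc]
  have hall : ∀ x ∈ R, ∃ k, x = el' k := by
    intro x hx
    induction hx using Subgroup.closure_induction_left with
    | one => exact ⟨(0, 0, 0), by simp [el']⟩
    | mul_left s hs y hy ih =>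
      obtain ⟨⟨e, i, f⟩, rfl⟩ := ih
      rcases hs with hs | hs | hs <;> rw [show s = _ from hs]
      · exact ⟨(e + 1, i, f), by simp only [el', pow_succ', mul_assoc]⟩
      · exact ⟨_, hstepU e i f⟩
      · refine ⟨(e, 3 * (i + 1), f + 1), ?_⟩
        rw [show V = U * r by rw [hr, ← mul_assoc, U2, one_mul], mul_assoc,
          show r * el' (e, i, f) = el' (e, i + 1, f) by
            show r * (C ^ e * r ^ i * U ^ f) = C ^ e * r ^ (i + 1) * U ^ f
            rw [← mul_assoc, ← mul_assoc, ((hCU.mul_right hCV).pow_left e).symm.eq,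
              mul_assoc (C ^ e), ← pow_succ']]
        exact hstepU e (i + 1) f
    | inv_mul_cancel s hs y hy ih =>
      obtain ⟨⟨e, i, f⟩, rfl⟩ := ih
      rcases hs with hs | hs | hs <;> rw [show s = _ from hs]
      · rw [inv_eq_of_mul_eq_one_right C2]
        exact ⟨(e + 1, i, f), by simp only [el', pow_succ', mul_assoc]⟩
      · rw [inv_eq_of_mul_eq_one_right U2]
        exact ⟨_, hstepU e i f⟩
      · rw [inv_eq_of_mul_eq_one_right V2]
        refine ⟨(e, 3 * (i + 1), f + 1), ?_⟩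
        rw [show V = U * r by rw [hr, ← mul_assoc, U2, one_mul], mul_assoc,
          show r * el' (e, i, f) = el' (e, i + 1, f) by
            show r * (C ^ e * r ^ i * U ^ f) = C ^ e * r ^ (i + 1) * U ^ f
            rw [← mul_assoc, ← mul_assoc, ((hCU.mul_right hCV).pow_left e).symm.eq,
              mul_assoc (C ^ e), ← pow_succ']]
        exact hstepU e (i + 1) f
  refine ⟨R, ?_, fun x hx => ?_, S, rfl, ?_⟩
  · rw [← cplEls_card, ← Fintype.card_coe, ← Nat.card_eq_fintype_card]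
    refine Nat.card_le_card_of_injective (fun k => (⟨el' k.1, mul_mem (mul_mem (pow_mem hmemC _)
      (pow_mem (mul_mem hmemU hmemV) _)) (pow_mem hmemU _)⟩ : R)) fun k l e => Subtype.ext ?_
    have := congrArg (fun y : R => d.π y) e
    simp only [hπel] at this
    exact elP_injOn (List.mem_toFinset.1 k.2) (List.mem_toFinset.1 l.2) (toAut_injective this)
  · obtain ⟨⟨e, i, f⟩, rfl⟩ := hall x hx
    have heq : el' (e, i, f) = el' (e % 2, i % 4, f % 2) := by
      show C ^ e * r ^ i * U ^ f = C ^ (e % 2) * r ^ (i % 4) * U ^ (f % 2)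
      rw [← pow_eq_pow_mod e (by rw [pow_two, C2]), ← pow_eq_pow_mod i r4,
        ← pow_eq_pow_mod f (by rw [pow_two, U2])]
    refine ⟨_, mem_cplEls (Nat.mod_lt e two_pos) (Nat.mod_lt i (by norm_num))
      (Nat.mod_lt f two_pos), ?_, fun h0 => ?_⟩
    · rw [heq, hπel]
    · rw [heq, h0]; simp [el']
  · have hc : ∀ {u : H}, u ∈ d.C → u * d.p * u⁻¹ = d.p :=
      fun {u} hu => mul_inv_eq_iff_eq_mul.2 (d.mem_C.1 hu).eq
    rintro s (rfl | rfl | rfl)
    · exact ⟨Or.inr Cp, Cπ ▸ normalizes_data cP (by simp)⟩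
    · exact ⟨Or.inl (hc UC), Uπ ▸ normalizes_data (incl uM) (by simp)⟩
    · exact ⟨Or.inl (hc VC), Vπ ▸ normalizes_data (incl vM) (by simp)⟩

/-- A subgroup of order `2 ^ 10` normalising and meeting trivially the standard `V`. -/
theorem cpl_exists_std (hsq : d.CplSq) (hout : d.CplOut) (B : Jf18.BigElem d)
    (hA : B.A = hex) :
    ∃ T : Subgroup H, T ≤ Subgroup.normalizer (B.V : Set H) ∧ T ⊓ B.V = ⊥ ∧
      Nat.card T = 2 ^ 10 := by
  obtain ⟨R, hR16, hRel, S, rfl, hS⟩ := cpl_exists_sixteen hsq hout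
  have hBD : B.V ⊓ d.E = d.pre (d.rep.F hex) := B.inf_E.trans (congrArg (fun A => d.pre (d.rep.F A)) hA)
  -- the opposite part in the extraspecial group
  set D := d.pre (d.rep.F (conjS gM hex))
  have hDE : D ≤ d.E := fun x hx => (d.mem_pre.1 hx).1
  have hD128 : Nat.card D = 128 := by
    rw [d.card_pre, d.rep.card_F_conj, d.rep.card_F_hex]
  have hDsq : ∀ x ∈ D, x * x = 1 := by
    intro x hx
    have hm : MulAut.conj gM ∈ d.C.map d.π := by rw [d.map_C]; exact ⟨_, rfl⟩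
    obtain ⟨k, hk, hkπ⟩ := hm
    have hkp : k⁻¹ * d.p * k⁻¹⁻¹ = d.p := mul_inv_eq_iff_eq_mul.2 (d.mem_C.1 (inv_mem hk)).eq
    have h := cpl_conj_pre (Or.inl hkp) hx
    rw [map_inv, hkπ, ← map_inv, show (conjS gM hex).map (MulAut.conj gM⁻¹).toMonoidHom = hex from
      (conjS_conjS gM⁻¹ gM hex).trans (by ext a; simp [mem_conjS]), ← hBD] at h
    have := B.sq _ h.1
    rw [show k⁻¹ * x * k⁻¹⁻¹ * (k⁻¹ * x * k⁻¹⁻¹) = k⁻¹ * (x * x) * k⁻¹⁻¹ by group,
      conj_eq_one_iff] at this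
    exact this
  have hDp : ∀ x ∈ D, d.p * x * d.p⁻¹ ∈ D := by
    intro x hx
    have h := cpl_conj_pre (h := d.p) (Or.inl (mul_inv_cancel_right _ _)) hx
    rwa [(MonoidHom.mem_ker).1 d.pker, show (1 : MulAut M).toMonoidHom = MonoidHom.id M from rfl,
      Subgroup.map_id] at h
  -- the supplement of the centre in it
  let ψ : D →* H :=
    { toFun := fun x => (x : H) * (d.p * x * d.p⁻¹)
      map_one' := by simp
      map_mul' := fun a b => by
        have hc : Commute (b : H) (d.p * a * d.p⁻¹) := comm_of_sq hDsq b.2 (hDp a a.2)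
        rw [Subgroup.coe_mul, show d.p * ((a : H) * b) * d.p⁻¹ =
          d.p * a * d.p⁻¹ * (d.p * b * d.p⁻¹) by group]
        exact hc.mul_mul_mul_comm _ _ }
  set D₀ := ψ.range
  have hD₀D : D₀ ≤ D := by rintro _ ⟨x, rfl⟩; exact mul_mem x.2 (hDp x x.2)
  have hZD₀ : ∀ w ∈ D₀, w ∈ d.Z → w = 1 := by
    rintro _ ⟨x, rfl⟩ hw
    have hxE := hDE x.2
    have hpE : d.p * x * d.p⁻¹ ∈ d.E := d.normalE _ _ hxE
    have h1 : d.q (x : H) hxE * d.q _ hpE = 1 := by
      rw [← d.q_mul, d.q_one_iff]; exact hw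
    rw [← d.actH_q d.p hxE] at h1
    have h2 : d.rep.act d.rep.p (d.q (x : H) hxE) = d.q (x : H) hxE := by
      show d.actH d.p _ = _
      rw [← inv_eq_of_mul_eq_one_right h1, d.rep.inv_eq]
    have hxZ := d.q_one_iff.1 (d.rep.fpf _ h2)
    show (x : H) * (d.p * x * d.p⁻¹) = 1
    rw [d.z_conj _ hxZ, hDsq _ x.2]
  have hker : Nat.card ψ.ker = 2 := by
    rw [← d.card_Z]
    refine Nat.card_congr
      { toFun := fun x => ⟨(x.1 : H), ?_⟩
        invFun := fun x => ⟨⟨x.1, d.mem_pre.2 ⟨d.Z_le_E x.2, by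
          rw [d.q_one_iff.2 x.2]; exact one_mem _⟩⟩, ?_⟩
        left_inv := fun _ => rfl
        right_inv := fun _ => rfl }
    · have hx : (x.1 : H) * (d.p * x.1 * d.p⁻¹) = 1 := x.2
      have e : d.p * x.1 * d.p⁻¹ = x.1 := by
        rw [← inv_eq_of_mul_eq_one_right hx, inv_eq_of_mul_eq_one_right (hDsq _ x.1.2)]
      exact d.mem_Z.2 (d.fixE _ (hDE x.1.2) (mul_inv_eq_iff_eq_mul.1 e).symm)
    · show (x : H) * (d.p * x * d.p⁻¹) = 1
      rw [d.z_conj _ x.2]
      rcases d.mem_Z.1 x.2 with e | e <;> rw [e]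
      exacts [one_mul 1, d.zz]
  have hD₀64 : Nat.card D₀ = 64 := by
    have h := Subgroup.card_mul_index ψ.ker
    rw [Subgroup.index_ker, hker, hD128] at h
    change 2 * Nat.card D₀ = 128 at h
    omega
  have hRD₀ : Subgroup.closure S ≤ Subgroup.normalizer (D₀ : Set H) := by
    refine (Subgroup.closure_le _).2 fun s hs => cpl_conjS_normalizer.1 ?_
    obtain ⟨hsp, -, hsD⟩ := hS s hs
    refine Subgroup.eq_of_le_of_card_ge ?_ (card_conjS s D₀).ge
    rintro _ ⟨_, ⟨x, rfl⟩, rfl⟩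
    have hx' : s * x * s⁻¹ ∈ D := by
      have := cpl_conj_pre hsp x.2
      rwa [hsD] at this
    show s * ((x : H) * (d.p * x * d.p⁻¹)) * s⁻¹ ∈ D₀
    rw [show s * ((x : H) * (d.p * x * d.p⁻¹)) * s⁻¹ =
      s * x * s⁻¹ * (s * d.p * s⁻¹ * (s * x * s⁻¹) * (s * d.p * s⁻¹)⁻¹) by group]
    rcases hsp with e | e <;> rw [e]
    · exact ⟨⟨_, hx'⟩, rfl⟩
    · have hy : d.p⁻¹ * (s * x * s⁻¹) * d.p⁻¹⁻¹ ∈ D := by
        have h := cpl_conj_pre (h := d.p⁻¹) (Or.inl (by group)) hx'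
        rwa [map_inv, (MonoidHom.mem_ker).1 d.pker, inv_one,
          show (1 : MulAut M).toMonoidHom = MonoidHom.id M from rfl, Subgroup.map_id] at h
      refine ⟨⟨_, hy⟩, ?_⟩
      show d.p⁻¹ * (s * x * s⁻¹) * d.p⁻¹⁻¹ * (d.p * (d.p⁻¹ * (s * x * s⁻¹) * d.p⁻¹⁻¹) * d.p⁻¹) = _
      rw [show d.p * (d.p⁻¹ * (s * x * s⁻¹) * d.p⁻¹⁻¹) * d.p⁻¹ = s * x * s⁻¹ by group]
      exact comm_of_sq hDsq hy hx'
  have hRV : Subgroup.closure S ≤ Subgroup.normalizer (B.V : Set H) := by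
    refine (Subgroup.closure_le _).2 fun s hs => B.mem_normalizer_of ?_
    rw [Setup.innPre, B.map_pi_conjS, Subgroup.map_map, hA,
      show (MulAut.conj (d.π s)).toMonoidHom.comp (MulAut.conj : M →* MulAut M) =
        (MulAut.conj : M →* MulAut M).comp (d.π s).toMonoidHom from
          MonoidHom.ext fun a => aut_conj _ a,
      ← Subgroup.map_map, (hS s hs).2.1, Subgroup.comap_map_eq_self_of_injective conj_injective_M]
  -- intersections
  have hone : ∀ x ∈ Subgroup.closure S, d.π x ∈ hex.map (MulAut.conj : M →* MulAut M) → x = 1 := by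
    rintro x hx ⟨m, hm, e⟩
    obtain ⟨k, hk, hπ, h0⟩ := hRel x hx
    exact h0 (elP_not_hex hk hm (toAut_injective (by rw [← hπ, toAut_incl, e])))
  have hdis : D₀ ⊓ Subgroup.closure S = ⊥ := by
    rw [eq_bot_iff]
    rintro x ⟨hx0, hxR⟩
    refine Subgroup.mem_bot.2 (hone x hxR ?_)
    rw [(MonoidHom.mem_ker).1 (d.E_le (hDE (hD₀D hx0)))]
    exact one_mem _
  refine ⟨D₀ ⊔ Subgroup.closure S,
    sup_le (fun x hx => B.E_le_normalizer (hDE (hD₀D hx))) hRV, ?_, ?_⟩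
  · rw [eq_bot_iff]
    rintro t ⟨ht, htV⟩
    rw [SetLike.mem_coe] at ht
    have ht' : t ∈ ((D₀ ⊔ Subgroup.closure S : Subgroup H) : Set H) := ht
    rw [Subgroup.coe_mul_of_right_le_normalizer_left _ _ hRD₀] at ht'
    obtain ⟨e, he, x, hx, rfl⟩ := ht'
    have hπ := B.pi_mem _ htV
    rw [map_mul, (MonoidHom.mem_ker).1 (d.E_le (hDE (hD₀D he))), one_mul] at hπ
    obtain rfl := hone x hx (hA ▸ hπ)
    simp only [mul_one] at htV ⊢
    obtain ⟨hxE, h1⟩ := d.mem_pre.1 (hBD.le ⟨htV, hDE (hD₀D he)⟩)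
    obtain ⟨hxE', h2⟩ := d.mem_pre.1 (hD₀D he)
    exact Subgroup.mem_bot.2 (hZD₀ e he (d.q_one_iff.1
      (Subgroup.mem_bot.1 (cpl_F_inf.le ⟨h1, h2⟩) : d.q e hxE = 1)))
  · have hle : Nat.card ↥(Subgroup.closure S) ≤ 16 := by
      rw [← cplEls_card, ← Fintype.card_coe, ← Nat.card_eq_fintype_card]
      choose k hk hπ h0 using fun x : ↥(Subgroup.closure S) => hRel x.1 x.2
      refine Nat.card_le_card_of_injective
        (fun x => (⟨k x, List.mem_toFinset.2 (hk x)⟩ : {k // k ∈ cplEls.toFinset})) fun x y e => ?_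
      have e' : k x = k y := congrArg Subtype.val e
      have hπ' : d.π ((x⁻¹ * y : ↥(Subgroup.closure S)) : H) = 1 := by
        rw [Subgroup.coe_mul, Subgroup.coe_inv, map_mul, map_inv, hπ x, hπ y, e', inv_mul_cancel]
      exact inv_mul_eq_one.1 (Subtype.ext (hone _ (x⁻¹ * y).2 (by rw [hπ']; exact one_mem _)))
    rw [card_sup_of_disjoint hRD₀ hdis, hD₀64, le_antisymm hle hR16]
    norm_num

/-- A subgroup of order `2 ^ 10` normalising and meeting trivially a given `V`. -/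
theorem cpl_exists (hsq : d.CplSq) (hout : d.CplOut) (B : Jf18.BigElem d) :
    ∃ T : Subgroup H, T ≤ Subgroup.normalizer (B.V : Set H) ∧ T ⊓ B.V = ⊥ ∧
      Nat.card T = 2 ^ 10 := by
  have hm : MulAut.conj B.g⁻¹ ∈ d.C.map d.π := by rw [d.map_C]; exact ⟨_, rfl⟩
  obtain ⟨k, -, hkπ⟩ := hm
  obtain ⟨B', hB'⟩ := B.exists_conj k
  have hA : B'.A = hex := by
    rw [← B'.innPre_V, hB', B.innPre_conjS hkπ, cpl_conjS_conjS, inv_mul_cancel]
    ext a; simp [mem_conjS]
  obtain ⟨T, hTN, hTV, hTc⟩ := cpl_exists_std hsq hout B' hA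
  have hV : conjS k⁻¹ B'.V = B.V := by
    rw [hB', cpl_conjS_conjS, inv_mul_cancel]
    ext a; simp [mem_conjS]
  refine ⟨conjS k⁻¹ T, ?_, ?_, by rw [card_conjS, hTc]⟩
  · rw [← hV]
    rintro _ ⟨t, ht, rfl⟩
    refine cpl_conjS_normalizer.1 ?_
    show conjS (k⁻¹ * t * k⁻¹⁻¹) (conjS k⁻¹ B'.V) = conjS k⁻¹ B'.V
    rw [cpl_conjS_conjS, inv_mul_cancel_right, ← cpl_conjS_conjS, cpl_conjS_normalizer.2 (hTN ht)]
  · rw [← hV, conjS, conjS, ← Subgroup.map_inf _ _ _ (MulAut.conj k⁻¹).injective, hTV,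
      Subgroup.map_bot]

end CfsgLib.J4Type67.Setup

namespace CfsgLib.Jf18.Ctx

open CfsgLib.J4Type67 CfsgLib.J4Type5

universe u

variable {G : Type u} [Group G] [Finite G] (c : Ctx G)

/-- No element of `C` squares to `z`. -/
theorem cplSq : c.setup.CplSq := by
  intro u hu e
  have hC : (u : G) ∈ c.C :=
    c.mem_C.2 ⟨mem_cz.1 u.2, congrArg Subtype.val (c.setup.mem_C.1 hu).eq⟩
  have e' : (u : G) * u = c.z := congrArg Subtype.val e
  have hzker : (⟨c.z, c.z_mem_C⟩ : c.C) ∈ c.sig.ker := by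
    rw [c.ker_sig, Subgroup.mem_subgroupOf]
    exact Subgroup.mem_sup_left (Subgroup.mem_zpowers _)
  have hs2 : c.sig ⟨u, hC⟩ * c.sig ⟨u, hC⟩ = 1 := by
    rw [← map_mul, show (⟨u, hC⟩ * ⟨u, hC⟩ : c.C) = ⟨c.z, c.z_mem_C⟩ from Subtype.ext e']
    exact hzker
  by_cases hs : c.sig ⟨u, hC⟩ = 1
  · have hk : (⟨u, hC⟩ : c.C) ∈ c.sig.ker := hs
    rw [c.ker_sig, Subgroup.mem_subgroupOf, c.kernel_eq] at hk
    obtain ⟨i, hi⟩ := hk
    have h6 : ((u : G) * u) ^ 3 = 1 := by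
      have hc : Commute c.z c.p := (c.z_commute c.p_mem_C).symm
      rw [← pow_two, ← pow_mul, ← show (c.z * c.p) ^ i = (u : G) from hi, ← zpow_natCast,
        ← zpow_mul, mul_comm, zpow_mul, zpow_natCast, hc.mul_pow,
        show 2 * 3 = 3 * 2 from rfl, pow_mul c.p, c.p_cube, one_pow, mul_one,
        show 3 * 2 = 2 * 3 from rfl, pow_mul, pow_two, c.z_mul_self, one_pow, one_zpow]
    rw [e', pow_succ, pow_two, c.z_mul_self, one_mul] at h6
    exact c.z_ne_one h6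
  · haveI : Fact (Nat.Prime 2) := ⟨Nat.prime_two⟩
    obtain ⟨g, hg⟩ := M22.exists_hex (orderOf_eq_prime (by rw [pow_two]; exact hs2) hs)
    exact c.z_ne_one (e'.symm.trans (c.sq_hex_conj hC (Or.inr e') hg))

/-- An involution inverting `p` centralises a further element of order three. -/
theorem cplOut (hA : c.FactA) : c.setup.CplOut := by
  haveI : Fact (Nat.Prime 2) := ⟨Nat.prime_two⟩
  haveI : Fact (Nat.Prime 3) := ⟨Nat.prime_three⟩
  obtain ⟨a, b, ha, ha1, hb, hb1, hab⟩ := exists_pair_three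
  obtain ⟨u, hu2, hus⟩ := c.exists_lift (orderOf_eq_prime (by rw [pow_two]; exact ha) ha1)
  obtain ⟨w, hw2, hws⟩ := c.exists_lift (orderOf_eq_prime (by rw [pow_two]; exact hb) hb1)
  have hu2' : u * u = 1 := Subtype.ext hu2
  have hw2' : w * w = 1 := Subtype.ext hw2
  set q := u * w with hq
  have hqs : c.sig q = a * b := by rw [map_mul, hus, hws]
  have hqu : u * q * u⁻¹ = q⁻¹ := by
    rw [hq, mul_inv_rev, inv_eq_of_mul_eq_one_right hu2', inv_eq_of_mul_eq_one_right hw2',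
      ← mul_assoc, hu2', one_mul]
  have hq6 : q ^ 3 * q ^ 3 = 1 := by
    have hk : q ^ 3 ∈ Subgroup.center ↥c.C := by
      rw [c.center_eq, MonoidHom.mem_ker, map_pow, hqs, ← hab, pow_orderOf_eq_one]
    have h : u * q ^ 3 * u⁻¹ = (q ^ 3)⁻¹ := by rw [← conj_pow, hqu, inv_pow]
    rw [Subgroup.mem_center_iff.1 hk u, mul_inv_cancel_right] at h
    exact eq_inv_iff_mul_eq_one.1 h
  set x := q ^ 4 with hx
  have hx3 : x ^ 3 = 1 := by
    rw [hx, ← pow_mul, show 4 * 3 = 3 + 3 + (3 + 3) from rfl, pow_add, pow_add, hq6, one_mul]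
  have hxs : c.sig x = a * b := by
    rw [hx, map_pow, hqs, pow_succ, ← hab, pow_orderOf_eq_one, one_mul]
  have hab1 : a * b ≠ 1 := fun e => by rw [e, orderOf_one] at hab; norm_num at hab
  have hx3' : orderOf (x : G) = 3 := orderOf_eq_prime (congrArg Subtype.val hx3) fun e => hab1 (by
    rw [← hxs, show x = 1 from Subtype.ext e, map_one])
  have hxp : (x : G) ∉ Subgroup.zpowers c.p := fun h => hab1 (by
    rw [← hxs]
    show x ∈ c.sig.ker
    rw [c.ker_sig, Subgroup.mem_subgroupOf]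
    exact Subgroup.mem_sup_right h)
  have hux : (u : G) * x * (u : G)⁻¹ = (x : G)⁻¹ :=
    congrArg Subtype.val (show u * x * u⁻¹ = x⁻¹ by rw [hx, ← conj_pow, hqu, inv_pow])
  obtain ⟨g, hg⟩ := c.exists_conj_p hA x.2 hx3' hxp
  set τ := g * (u : G) * g⁻¹ with hτdef
  have hτ : τ * c.p * τ⁻¹ = c.p⁻¹ := by
    rw [hτdef, ← hg, show g * (u : G) * g⁻¹ * (g * (x : G) * g⁻¹) * (g * (u : G) * g⁻¹)⁻¹ =
      g * ((u : G) * x * (u : G)⁻¹) * g⁻¹ by group, hux, conj_inv]
  have hτN : τ ∈ Subgroup.normalizer (Subgroup.zpowers c.p : Set G) := by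
    refine cpl_conjS_normalizer.1 ?_
    show (Subgroup.zpowers c.p).map (MulAut.conj τ).toMonoidHom = _
    rw [MonoidHom.map_zpowers, show (MulAut.conj τ).toMonoidHom c.p = c.p⁻¹ from hτ,
      Subgroup.zpowers_inv]
  set y := g * c.p * g⁻¹ with hydef
  have hyc : Commute y c.p := by
    have h := ((c.p_commute x.2).symm).map (MulAut.conj g)
    rw [MulAut.conj_apply, MulAut.conj_apply, hg] at h
    exact h
  have hyH : y ∈ c.H := c.cent_p_le hA (mem_cz.2 hyc)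
  have hyC : y ∈ c.C := c.mem_C.2 ⟨mem_cz.1 hyH, hyc⟩
  have hy3 : y ^ 3 = 1 := by rw [hydef, conj_pow, c.p_cube, mul_one, mul_inv_cancel]
  refine ⟨⟨τ, c.normalizer_le hA hτN⟩, ⟨y, hyH⟩, Subtype.ext ?_, Subtype.ext hτ, Subtype.ext ?_,
    c.mem_setup_C hyC, ?_⟩
  · show g * (u : G) * g⁻¹ * (g * (u : G) * g⁻¹) = 1
    rw [show g * (u : G) * g⁻¹ * (g * (u : G) * g⁻¹) = g * ((u : G) * u) * g⁻¹ by group, hu2,
      mul_one, mul_inv_cancel]
  · exact ((c.p_commute u.2).map (MulAut.conj g)).eq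
  · show orderOf (c.sig ⟨y, hyC⟩) = 3
    refine orderOf_eq_prime (by
      rw [← map_pow, show (⟨y, hyC⟩ : c.C) ^ 3 = 1 from Subtype.ext hy3, map_one]) fun e => hxp ?_
    have hy := c.mem_zpowers_p_of_sig hyC e (by decide : Odd 3) hy3
    have hgN : g ∈ Subgroup.normalizer (Subgroup.zpowers c.p : Set G) := by
      refine cpl_conjS_normalizer.1 (Subgroup.eq_of_le_of_card_ge ?_ (card_conjS g _).ge)
      show (Subgroup.zpowers c.p).map (MulAut.conj g).toMonoidHom ≤ _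
      rw [MonoidHom.map_zpowers]
      exact Subgroup.zpowers_le.2 hy
    exact (Subgroup.mem_normalizer_iff.1 hgN _).2 (hg ▸ Subgroup.mem_zpowers c.p)

/-- An elementary abelian subgroup of order `2 ^ 11` has a complement in its normaliser. -/
theorem exists_complement (hA : c.FactA) {V : Subgroup G} (hV : ∀ x ∈ V, x * x = 1)
    (hc : Nat.card V = 2 ^ 11) (hz : c.z ∈ V) :
    ∃ K : Subgroup G, K ≤ Subgroup.normalizer (V : Set G) ∧ K ⊓ V = ⊥ ∧
      K ⊔ V = Subgroup.normalizer (V : Set G) ∧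
      Nonempty (↥K ≃* ↥(Subgroup.normalizer (V : Set G)) ⧸
        V.subgroupOf (Subgroup.normalizer (V : Set G))) := by
  haveI : Fact (Nat.Prime 2) := ⟨Nat.prime_two⟩
  have hB : c.Big V := ⟨hV, hc, hz⟩
  obtain ⟨B, hBV⟩ := hB.exists_bigElem
  obtain ⟨T', hTN', hTV', hTc'⟩ := Setup.cpl_exists c.cplSq (c.cplOut hA) B
  set T := T'.map c.H.subtype
  have hTN : T ≤ Subgroup.normalizer (V : Set G) := by
    rintro _ ⟨t, ht, rfl⟩
    exact (mem_normalizer_iff hBV hB.le_H t).1 (hTN' ht)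
  have hTV : T ⊓ V = ⊥ := by
    rw [eq_bot_iff]
    rintro _ ⟨⟨t, ht, rfl⟩, htV⟩
    have : t ∈ T' ⊓ B.V := ⟨ht, (hBV t).2 htV⟩
    rw [hTV', Subgroup.mem_bot] at this
    rw [this, map_one]; exact one_mem _
  have hTc : Nat.card T = 2 ^ 10 := by
    rw [Subgroup.card_map_of_injective c.H.subtype_injective, hTc']
  set N := Subgroup.normalizer (V : Set G)
  set Vn := V.subgroupOf N
  haveI : Vn.Normal := Subgroup.normal_in_normalizer
  haveI : IsMulCommutative Vn := ⟨⟨fun a b => Subtype.ext (Subtype.ext (comm_of_sq hV a.2 b.2))⟩⟩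
  have hU : Nat.card ↥((V ⊔ T).subgroupOf N) = 2 ^ 21 := by
    rw [Nat.card_congr (Subgroup.subgroupOfEquivOfLe (sup_le Subgroup.le_normalizer hTN)).toEquiv,
      card_sup_of_disjoint hTN (by rw [inf_comm, hTV]), hc, hTc]
    norm_num
  have hcop : (Nat.card Vn).Coprime ((V ⊔ T).subgroupOf N).index := by
    rw [Nat.card_congr (Subgroup.subgroupOfEquivOfLe (H := V) Subgroup.le_normalizer).toEquiv, hc]
    refine Nat.Coprime.pow_left _ (Nat.prime_two.coprime_iff_not_dvd.2 fun h => ?_)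
    have hmul := Subgroup.card_mul_index ((V ⊔ T).subgroupOf N)
    rw [hU] at hmul
    obtain ⟨m, hm⟩ := h
    obtain ⟨S⟩ : Nonempty (Sylow 2 G) := inferInstance
    have h22 : 2 ^ 22 ∣ Nat.card G :=
      (Dvd.intro m (by rw [← hmul, hm]; ring)).trans (Subgroup.card_subgroup_dvd_card N)
    rw [(Nat.Prime.pow_dvd_iff_le_factorization Nat.prime_two Nat.card_pos.ne')] at h22
    have hS := c.card_sylow S
    rw [S.card_eq_multiplicity] at hS
    have := Nat.pow_right_injective le_rfl hS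
    omega
  have hdis : T.subgroupOf N ⊓ Vn = ⊥ := by
    rw [eq_bot_iff]
    intro x hx
    have : (x : G) ∈ T ⊓ V := hx
    rw [hTV, Subgroup.mem_bot] at this
    exact Subgroup.mem_bot.2 (Subtype.ext this)
  obtain ⟨K, hK⟩ := CfsgLib.Solvable.Gaschuetz.exists_complement (K := Vn) ((V ⊔ T).subgroupOf N)
    (T.subgroupOf N) (Subgroup.comap_mono le_sup_left) hcop hdis
    (Subgroup.subgroupOf_sup Subgroup.le_normalizer hTN).symm
  have hVn : Vn.map N.subtype = V := Subgroup.map_subgroupOf_eq_of_le Subgroup.le_normalizer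
  refine ⟨K.map N.subtype, Subgroup.map_subtype_le K, ?_, ?_, ?_⟩
  · rw [← hVn, ← Subgroup.map_inf _ _ _ N.subtype_injective, disjoint_iff.1 hK.disjoint.symm,
      Subgroup.map_bot]
  · show K.map N.subtype ⊔ V = N
    rw [← hVn, ← Subgroup.map_sup, sup_comm, hK.sup_eq_top, ← MonoidHom.range_eq_map,
      Subgroup.range_subtype]
  · exact ⟨(K.equivMapOfInjective N.subtype N.subtype_injective).symm.trans
      hK.symm.QuotientMulEquiv.symm⟩

end CfsgLib.Jf18.Ctx
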