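import Cfsg.Agent.J4Type5.Loc
import Cfsg.Agent.LargeFischer45.Mathieu

/-!
Janko-four type: the normaliser of an elementary abelian subgroup of order `2 ^ 11` modulo that
subgroup is `M24`, and so is every complement.
-/

set_option autoImplicit false
set_option linter.unusedSectionVars false

namespace CfsgLib.Jf18.Ctx

open CfsgLib.J4Type67 CfsgLib.J4Type5

universe u

variable {G : Type u} [Group G] [Finite G] {c : Ctx G} {V : Subgroup G} (hB : c.Big V)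

include hB in
theorem Big.exists_mathieu [IsSimpleGroup G] :
    ∃ Φ : ↥(Subgroup.normalizer (V : Set G)) →* ↥Cfsg.M24, Function.Surjective Φ ∧
      Φ.ker = V.subgroupOf (Subgroup.normalizer (V : Set G)) := by
  obtain ⟨t, ht, ht1, htz, -, -, -⟩ := hB.orbits
  obtain ⟨T, hVT, hTz⟩ := c.exists_sylow hB.sq hB.card hB.mem
  obtain ⟨Φ, hΦ, hker, -⟩ := hB.loc.mathieu (fun P => c.card_sylow P) T hVT hTz
    (c.centralizer_le hB.sq hB.card hB.mem) ht ht1 htz
  exact ⟨Φ, hΦ, hker⟩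

include hB in
/-- A complement is a copy of `M24`. -/
theorem Big.complement_iso [IsSimpleGroup G] {K : Subgroup G}
    (hK : K ≤ Subgroup.normalizer (V : Set G)) (hKV : K ⊓ V = ⊥)
    (hsup : K ⊔ V = Subgroup.normalizer (V : Set G)) : Cfsg.Spor.IsoM24 ↥K := by
  obtain ⟨Φ, hΦ, hker⟩ := hB.exists_mathieu
  have hmem : ∀ x : ↥(Subgroup.normalizer (V : Set G)), Φ x = 1 ↔ (x : G) ∈ V := fun x => by
    rw [← MonoidHom.mem_ker, hker, Subgroup.mem_subgroupOf]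
  let f : ↥K →* ↥Cfsg.M24 := Φ.comp (Subgroup.inclusion hK)
  refine ⟨MulEquiv.ofBijective f ⟨(injective_iff_map_eq_one f).2 fun k hk => Subtype.ext ?_, ?_⟩⟩
  · exact Subgroup.mem_bot.1 (hKV.le ⟨k.2, (hmem _).1 hk⟩)
  · intro y
    obtain ⟨⟨x, hx⟩, rfl⟩ := hΦ y
    have hx' : x ∈ K ⊔ V := hsup.ge hx
    rw [← SetLike.mem_coe, Subgroup.coe_mul_of_left_le_normalizer_right K V hK] at hx'
    obtain ⟨k, hk, v, hv, rfl⟩ := Set.mem_mul.1 hx'
    refine ⟨⟨k, hk⟩, ?_⟩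
    show Φ ⟨k, hK hk⟩ = _
    have e : (⟨k * v, hx⟩ : ↥(Subgroup.normalizer (V : Set G))) = ⟨k, hK hk⟩ * ⟨v, Subgroup.le_normalizer hv⟩ := rfl
    rw [e, map_mul, (hmem ⟨v, Subgroup.le_normalizer hv⟩).2 hv, mul_one]

end CfsgLib.Jf18.Ctx
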