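import Cfsg.Agent.LargeFischer45.Model
import Cfsg.Agent.Mathieu.Classes

/-!
The triangular configuration: an automorphism of order two fixing a point fixes more than 64
values, and an elementary abelian 2-group of automorphisms with a common fixed point has order
dividing 16.
-/

set_option autoImplicit false

open scoped Pointwise

namespace CfsgLib.J4Type5.CentPts

open Finset Cfsg CfsgLib.Triangular45

variable {A : Type*} [CommGroup A] [DecidableEq A] {D : Finset A}

theorem exists_code (h : Hyp D) (o : Pts D) :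
    ∃ e : Pts D ≃ GolayPt, ∀ π ∈ setSystemAut (blocks D o), e.permCongrHom π ∈ M24 := by
  classical
  obtain ⟨e, he⟩ := DesignUnique.exists_equiv24 (card_pts h) (steiner h o)
  refine ⟨e, fun π hπ => ?_⟩
  rw [← DesignUnique.aut_octads, ← DesignUnique.map_aut e he]
  exact ⟨π, hπ, rfl⟩

/-- An involution fixing a point fixes eight. -/
theorem fixed_eight (h : Hyp D) (o : Pts D) {π : Equiv.Perm (Pts D)}
    (hπ : π ∈ setSystemAut (blocks D o)) (hsq : π * π = 1) (hne : π ≠ 1) {p : Pts D}
    (hp : π p = p) : (univ.filter fun q => π q = q).card = 8 := by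
  classical
  obtain ⟨e, he⟩ := exists_code h o
  set σ := e.permCongrHom π with hσ
  have hval : ∀ q, σ (e q) = e (π q) := fun q => by simp [hσ, Equiv.permCongrHom]
  have h2 : orderOf σ = 2 := by
    refine orderOf_eq_prime (by rw [pow_two, hσ, ← map_mul, hsq, map_one]) fun e1 => hne ?_
    exact e.permCongrHom.injective (by rw [← hσ, e1, map_one])
  have hmap : (univ.filter fun q => π q = q).map e.toEmbedding = Mathieu.fixedPts σ := by
    ext x
    obtain ⟨q, rfl⟩ := e.surjective x
    simp [Mathieu.fixedPts, hval]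
  have hpos : (Mathieu.fixedPts σ).card ≠ 0 := by
    rw [← hmap, card_map]
    exact Nat.pos_iff_ne_zero.1 (card_pos.2 ⟨p, by simp [hp]⟩)
  have ho := Mathieu.fixedPts_mem_octads (he π hπ) h2 hpos
  rw [← card_map e.toEmbedding, hmap]
  exact (Golay.mem_octads_iff.1 ho).2

/-- An elementary abelian group of automorphisms fixing a point. -/
theorem elementary_dvd (h : Hyp D) (o : Pts D) (Γ : Subgroup (Equiv.Perm (Pts D)))
    (hΓ : Γ ≤ setSystemAut (blocks D o)) (hsq : ∀ x ∈ Γ, x * x = 1) {p : Pts D}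
    (hp : ∀ x ∈ Γ, x p = p) : Nat.card Γ ∣ 16 := by
  classical
  have key := MulAction.sum_card_fixedBy_eq_card_orbits_mul_card_group ↥Γ (Pts D)
  have hf : ∀ x : ↥Γ, Fintype.card (MulAction.fixedBy (Pts D) x) =
      if x = 1 then 24 else 8 := by
    intro x
    have e1 : Fintype.card (MulAction.fixedBy (Pts D) x) =
        (univ.filter fun q => (x : Equiv.Perm (Pts D)) q = q).card := by
      refine Fintype.card_of_finset' _ fun q => ?_
      simp [Subgroup.smul_def]
    rw [e1]
    split_ifs with hx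
    · subst hx
      simpa using card_pts h
    · exact fixed_eight h o (hΓ x.2) (hsq _ x.2) (fun e => hx (Subtype.ext e)) (hp _ x.2)
  rw [Finset.sum_congr rfl (fun x _ => hf x)] at key
  have hsum : (∑ x : ↥Γ, if x = 1 then 24 else 8) = 16 + 8 * Fintype.card ↥Γ := by
    have : ∀ x : ↥Γ, (if x = 1 then 24 else 8) = 8 + (if x = 1 then 16 else 0) := by
      intro x; split_ifs <;> rfl
    rw [sum_congr rfl (fun x _ => this x), sum_add_distrib, sum_ite_eq', if_pos (mem_univ _),
      sum_const, card_univ, smul_eq_mul]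
    ring
  rw [hsum] at key
  rw [Nat.card_eq_fintype_card]
  exact (Nat.dvd_add_left (dvd_mul_left _ 8)).1 (key ▸ dvd_mul_left _ _)

theorem val_image (h : Hyp D) (o : Pts D) (g : MulAut A) (π : Equiv.Perm (Pts D))
    (hπ : ∀ p q, g (duad D p q) = duad D (π p) (π q)) {S : Finset (Pts D)} (hS : Even S.card) :
    val D o (S.image π) = g (val D o S) := by
  classical
  have hp : ∀ p, duad D o (π p) = duad D o (π o) * g (duad D o p) := by
    intro p
    rw [hπ, duad_split h o (π o) (π p), mul_cancel h]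
  obtain ⟨k, hk⟩ := hS
  rw [Triangular45.val, prod_image π.injective.injOn, prod_congr rfl (fun p _ => hp p), prod_mul_distrib,
    prod_const, ← map_prod g, hk, pow_add, h.sq, one_mul]
  rfl

theorem val_inj (h : Hyp D) (o : Pts D) {S T : Finset (Pts D)} (hS : Even S.card) (hT : Even T.card)
    (h6 : S.card + T.card ≤ 6 + 2 * (S ∩ T).card) (e : val D o S = val D o T) : S = T := by
  classical
  have hc := card_symmDiff_add S T
  obtain ⟨a, ha⟩ := hS
  obtain ⟨b, hb⟩ := hT
  refine symmDiff_eq_bot.1 (eq_empty_of_val h o ⟨a + b - (S ∩ T).card, by omega⟩ (by omega) ?_)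
  rw [val_symmDiff h, e, h.sq]

/-- An involution fixing a point fixes more than 64 values. -/
theorem many_fixed [Fintype A] (h : Hyp D) (o : Pts D) (g : MulAut A) {π : Equiv.Perm (Pts D)}
    (hπa : π ∈ setSystemAut (blocks D o)) (hπ : ∀ p q, g (duad D p q) = duad D (π p) (π q))
    (hsq : π * π = 1) (hne : π ≠ 1) {p : Pts D} (hp : π p = p) :
    64 < (univ.filter fun a => g a = a).card := by
  classical
  set F := univ.filter fun q => π q = q with hF
  have hF8 : F.card = 8 := fixed_eight h o hπa hsq hne hp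
  have hpF : p ∈ F := by simp [hF, hp]
  obtain ⟨q, hq⟩ : ∃ q, π q ≠ q := by
    by_contra hno
    push Not at hno
    exact hne (Equiv.ext hno)
  have hqq : π (π q) = q := by rw [← Equiv.Perm.mul_apply, hsq, Equiv.Perm.one_apply]
  set P2 := F.powersetCard 2 with hP2
  set P4 := ((F.erase p).powersetCard 3).image (insert p) with hP4
  set ℱ : Finset (Finset (Pts D)) := insert ∅ (insert {q, π q} (P2 ∪ P4)) with hℱ
  have hm4 : ∀ S ∈ P4, S.card = 4 ∧ S ⊆ F ∧ p ∈ S := by
    intro S hS
    obtain ⟨T, hT, rfl⟩ := mem_image.1 hS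
    obtain ⟨hTs, hTc⟩ := mem_powersetCard.1 hT
    refine ⟨?_, insert_subset hpF (hTs.trans (erase_subset _ _)), mem_insert_self _ _⟩
    rw [card_insert_of_notMem (fun hh => (mem_erase.1 (hTs hh)).1 rfl), hTc]
  have hm2 : ∀ S ∈ P2, S.card = 2 ∧ S ⊆ F := fun S hS =>
    ⟨(mem_powersetCard.1 hS).2, (mem_powersetCard.1 hS).1⟩
  have hqS : ∀ S, S ⊆ F → S ≠ {q, π q} := by
    intro S hS e
    have := hS (e ▸ mem_insert_self q _)
    simp [hF, hq] at this
  have hcard : ℱ.card = 65 := by
    have h2 : P2.card = 28 := by rw [hP2, card_powersetCard, hF8]; decide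
    have h4 : P4.card = 35 := by
      rw [hP4, card_image_of_injOn, card_powersetCard, card_erase_of_mem hpF, hF8]
      · decide
      · intro S hS T hT e
        have hS' : p ∉ S := fun hh => (mem_erase.1 ((mem_powersetCard.1 hS).1 hh)).1 rfl
        have hT' : p ∉ T := fun hh => (mem_erase.1 ((mem_powersetCard.1 hT).1 hh)).1 rfl
        rw [← erase_insert hS', ← erase_insert hT', e]
    have hd : Disjoint P2 P4 := disjoint_left.2 fun S h1 h2' => by
      have := (hm2 S h1).1; have := (hm4 S h2').1; omega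
    rw [hℱ, card_insert_of_notMem, card_insert_of_notMem, card_union_of_disjoint hd, h2, h4]
    · intro hh
      rcases mem_union.1 hh with hh | hh
      · exact hqS _ (hm2 _ hh).2 rfl
      · exact hqS _ (hm4 _ hh).2.1 rfl
    · intro hh
      rcases mem_insert.1 hh with hh | hh
      · exact absurd hh.symm (insert_ne_empty _ _)
      rcases mem_union.1 hh with hh | hh
      · simpa using (hm2 _ hh).1
      · simpa using (hm4 _ hh).1
  have hshape : ∀ S ∈ ℱ, Even S.card ∧ S.image π = S ∧ (S.card ≤ 2 ∨ (S.card = 4 ∧ p ∈ S)) := by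
    have hfix : ∀ S, S ⊆ F → S.image π = S := by
      intro S hS
      refine (image_congr (g := id) fun x hx => ?_).trans image_id
      exact (mem_filter.1 (hS hx)).2
    intro S hS
    rcases mem_insert.1 hS with rfl | hS
    · simp
    rcases mem_insert.1 hS with rfl | hS
    · rw [card_pair (Ne.symm hq), image_insert, image_singleton, hqq, pair_comm]
      exact ⟨⟨1, rfl⟩, rfl, Or.inl le_rfl⟩
    rcases mem_union.1 hS with hS | hS
    · obtain ⟨h1, h2⟩ := hm2 S hS
      exact ⟨⟨1, h1⟩, hfix S h2, Or.inl h1.le⟩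
    · obtain ⟨h1, h2, h3⟩ := hm4 S hS
      exact ⟨⟨2, h1⟩, hfix S h2, Or.inr ⟨h1, h3⟩⟩
  have hle : ℱ.card ≤ (univ.filter fun a => g a = a).card := by
    refine card_le_card_of_injOn (val D o) (fun S hS => ?_) fun S hS T hT e => ?_
    · obtain ⟨he, hi, -⟩ := hshape S hS
      refine mem_filter.2 ⟨mem_univ _, ?_⟩
      rw [← val_image h o g π hπ he, hi]
    · obtain ⟨heS, -, hS'⟩ := hshape S hS
      obtain ⟨heT, -, hT'⟩ := hshape T hT
      refine val_inj h o heS heT ?_ e
      rcases hS' with h1 | ⟨h1, h1'⟩ <;> rcases hT' with h2 | ⟨h2, h2'⟩ <;> try omega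
      have : 0 < (S ∩ T).card := card_pos.2 ⟨p, mem_inter.2 ⟨h1', h2'⟩⟩
      omega
  omega

theorem perm_unique (h : Hyp D) {σ τ : Equiv.Perm (Pts D)}
    (hst : ∀ p q, duad D (σ p) (σ q) = duad D (τ p) (τ q)) : σ = τ := by
  classical
  refine Equiv.ext fun p => ?_
  by_contra hne
  obtain ⟨q, hq⟩ : ∃ q, q ∉ ({p, σ.symm (τ p)} : Finset (Pts D)) := by
    by_contra hno
    push Not at hno
    have h1 := card_le_card (show (univ : Finset (Pts D)) ⊆ {p, σ.symm (τ p)} from fun x _ => hno x)
    have h2 := card_le_two (a := p) (b := σ.symm (τ p))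
    rw [card_univ, card_pts h] at h1
    omega
  simp only [mem_insert, mem_singleton, not_or] at hq
  have hσ : σ p ≠ σ q := fun e => hq.1 (σ.injective e).symm
  have hτ : τ p ≠ τ q := fun e => hq.1 (τ.injective e).symm
  have e := (ends_duad h hσ).symm.trans ((congrArg (ends D) (hst p q)).trans (ends_duad h hτ))
  have hm : τ p ∈ ({σ p, σ q} : Finset (Pts D)) := e ▸ mem_insert_self _ _
  rcases mem_insert.1 hm with hm | hm
  · exact hne hm.symm
  · exact hq.2 (σ.injective (by rw [Equiv.apply_symm_apply, mem_singleton.1 hm])).symm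

theorem aut_eq_one (h : Hyp D) (g : MulAut A) (hg : ∀ p q, g (duad D p q) = duad D p q) :
    g = 1 := by
  classical
  have hD : ∀ a ∈ D, g a = a := by
    intro a ha
    obtain ⟨p, q, hne, e⟩ := card_eq_two.1 (card_ends h ha)
    have hp : a ∈ p.1 := mem_ends.1 (e ▸ mem_insert_self _ _)
    have hq : a ∈ q.1 := mem_ends.1 (e ▸ mem_insert_of_mem (mem_singleton_self _))
    rw [← duad_eq h hne hp hq, hg]
  refine MulEquiv.ext fun a => ?_
  rw [MulAut.one_apply]
  by_cases ha : a ∈ D
  · exact hD a ha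
  by_cases ha1 : a = 1
  · rw [ha1, map_one]
  obtain ⟨u, hu⟩ : (D.filter fun u => a * u ∈ D).Nonempty := by
    rw [← card_pos, h.dec a ha1 ha]; norm_num
  obtain ⟨hu1, hu2⟩ := mem_filter.1 hu
  rw [← mul_cancel' h u a, map_mul, hD _ hu2, hD _ hu1]

/-- The permutation representation on the points. -/
theorem exists_pts_hom (h : Hyp D) (o : Pts D) {M : Type*} [Group M] (ρ : M →* MulAut A)
    (hρ : ∀ m a, a ∈ D → ρ m a ∈ D) :
    ∃ Φ : M →* Equiv.Perm (Pts D), (∀ m, Φ m ∈ setSystemAut (blocks D o)) ∧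
      ∀ m p q, ρ m (duad D p q) = duad D (Φ m p) (Φ m q) := by
  classical
  have hiff : ∀ m a, ρ m a ∈ D ↔ a ∈ D := fun m a => ⟨fun hm => by
    have := hρ m⁻¹ _ hm
    rwa [← MulAut.mul_apply, ← map_mul, inv_mul_cancel, map_one, MulAut.one_apply] at this, hρ m a⟩
  choose σ hσ hσd using fun m => aut_points h o (ρ m) (hiff m)
  refine ⟨MonoidHom.mk' σ fun m n => perm_unique h fun p q => ?_, hσ, hσd⟩
  rw [← hσd, map_mul, MulAut.mul_apply, hσd, hσd]
  rfl

theorem ends_image (h : Hyp D) {g : MulAut A} {π : Equiv.Perm (Pts D)}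
    (hπ : ∀ p q, g (duad D p q) = duad D (π p) (π q)) {a : A} (ha : a ∈ D) (hga : g a = a) :
    (ends D a).image π = ends D a := by
  classical
  obtain ⟨p, q, hne, e⟩ := card_eq_two.1 (card_ends h ha)
  have hp : a ∈ p.1 := mem_ends.1 (e ▸ mem_insert_self _ _)
  have hq : a ∈ q.1 := mem_ends.1 (e ▸ mem_insert_of_mem (mem_singleton_self _))
  have hd : duad D p q = a := duad_eq h hne hp hq
  have h1 : duad D (π p) (π q) = a := by rw [← hπ, hd, hga]
  rw [e, image_insert, image_singleton, ← ends_duad h (fun e' => hne (π.injective e')), h1, e]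

end CfsgLib.J4Type5.CentPts
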