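import Cfsg.Agent.LargeFischer45.Mathieu
import Cfsg.Agent.J4Type5.CentPoints

/-!
The coordinates on the elementary group of order `2 ^ 11`: subgroups without conjugates of `z`, the
point stabiliser inside the stabiliser of a member of the second class, and a member of the first
class turning given members of the second class into members of the second class.
-/

set_option autoImplicit false

namespace CfsgLib.J4Type5.CentFrame

open Cfsg Finset CfsgLib.LargeFischer45 CfsgLib.Triangular45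

variable {G : Type*} [Group G] [Finite G] {z : G} {Q A : Subgroup G}

/-- The group `A` as a commutative group. -/
@[reducible] def comGrp (L : LargeFischer45.Local z Q A) : CommGroup ↥A :=
  { (inferInstance : Group ↥A) with mul_comm := fun a b => Subtype.ext (L.comm a.2 b.2) }

/-- The 276 members inside `A`. -/
noncomputable def mem276 (z : G) (Q A : Subgroup G) : Finset ↥A :=
  @Finset.subtype G (· ∈ A) (Classical.decPred _) (dSet z Q A)

theorem mem_mem276 {a : ↥A} : a ∈ mem276 z Q A ↔ (a : G) ∈ dSet z Q A := by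
  classical
  simp [mem276]

theorem hyp_of_local (L : LargeFischer45.Local z Q A) :
    letI := comGrp L; letI := Classical.decEq ↥A; Triangular45.Hyp (mem276 z Q A) := by
  classical
  letI := comGrp L
  letI := Classical.decEq ↥A
  obtain ⟨-, hD, -⟩ := L.card_sets
  obtain ⟨hd, he, -⟩ := L.ways_eq
  let D : Finset ↥A := mem276 z Q A
  have hmem : ∀ a : ↥A, a ∈ D ↔ (a : G) ∈ dSet z Q A := fun a => mem_mem276
  have hcard : ∀ (p : ↥A → Prop) [DecidablePred p] (p' : G → Prop),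
      (∀ a : ↥A, p a ↔ p' a) → (D.filter p).card = {u | u ∈ dSet z Q A ∧ p' u}.ncard := by
    intro p _ p' hp
    rw [← Finset.card_map (Function.Embedding.subtype (· ∈ A)), ← Set.ncard_coe_finset]
    congr 1
    ext u
    simp only [Finset.coe_map, Function.Embedding.coe_subtype, Set.mem_image, Finset.coe_filter,
      Set.mem_setOf_eq]
    constructor
    · rintro ⟨a, ⟨ha, hpa⟩, rfl⟩
      exact ⟨(hmem a).1 ha, (hp a).1 hpa⟩
    · rintro ⟨hu, hpu⟩
      exact ⟨⟨u, (mem_sel.1 hu).1⟩, ⟨(hmem _).2 hu, (hp _).2 hpu⟩, rfl⟩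
  refine ⟨fun a => Subtype.ext (L.sq a.2), fun h1 => ?_, ?_, fun a ha => ?_,
    fun v hv1 hvD => ?_, fun w hw w' hw' hne hn x hx hxw hxw' => ?_,
    fun w hw w' hw' hne hn => ?_⟩
  · exact ((mem_sel.1 ((hmem 1).1 h1)).2.1).1 rfl
  · show (mem276 z Q A).card = 276
    rw [← Finset.card_map (Function.Embedding.subtype (· ∈ A)), ← hD]
    congr 1
    exact Finset.subtype_map_of_mem fun x hx => (mem_sel.1 hx).1
  · rw [hcard _ (fun u => (a : G) * u ∈ dSet z Q A) fun u => hmem (a * u)]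
    exact hd _ ((hmem a).1 ha)
  · rw [hcard _ (fun u => (v : G) * u ∈ dSet z Q A) fun u => hmem (v * u)]
    exact he _ (L.not_zSet_dSet v.2 (fun e => hv1 (Subtype.ext e)) fun h => hvD ((hmem v).2 h))
  · exact (hmem _).2 ((L.common ((hmem w).1 hw) ((hmem w').1 hw')
      (fun e => hne (Subtype.ext e)) (fun h => hn ((hmem (w * w')).2 h))).1 _ ((hmem x).1 hx)
      ((hmem (x * w)).1 hxw) ((hmem (x * w')).1 hxw'))
  · rw [hcard _ (fun u => u * (w : G) ∈ dSet z Q A ∧ u * (w' : G) ∈ dSet z Q A)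
      fun u => and_congr (hmem (u * w)) (hmem (u * w'))]
    exact (L.common ((hmem w).1 hw) ((hmem w').1 hw') (fun e => hne (Subtype.ext e))
      (fun h => hn ((hmem (w * w')).2 h))).2

theorem not_conj_iff (L : LargeFischer45.Local z Q A) {a : G} (ha : a ∈ A) (h1 : a ≠ 1) :
    ¬ IsConj z a ↔ a ∈ dSet z Q A :=
  ⟨L.card_sets.2.2 a ha h1, fun h => (mem_sel.1 h).2.1.2⟩

/-- Without conjugates of `z` a subgroup has order at most four. -/
theorem card_le_four (L : LargeFischer45.Local z Q A) (B : Subgroup G) (hB : B ≤ A)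
    (hno : ∀ b ∈ B, ¬ IsConj z b) : Nat.card B ≤ 4 := by
  classical
  letI := comGrp L
  letI := Classical.decEq ↥A
  haveI := Fintype.ofFinite ↥A
  haveI := Fintype.ofFinite ↥B
  have h := hyp_of_local L
  have hd : ∀ b : ↥A, (b : G) ∈ B → b ≠ 1 → b ∈ mem276 z Q A := fun b hb h1 =>
    mem_mem276.2 ((not_conj_iff L b.2 fun e => h1 (Subtype.ext e)).1 (hno _ hb))
  by_contra hlt
  push Not at hlt
  set S : Finset ↥A := Finset.univ.filter fun b : ↥A => (b : G) ∈ B with hS
  have hScard : S.card = Nat.card B := by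
    rw [Nat.card_eq_fintype_card]
    refine card_bij' (fun b hb => (⟨(b : G), (mem_filter.1 hb).2⟩ : ↥B))
      (fun b _ => (⟨(b : G), hB b.2⟩ : ↥A)) ?_ ?_ ?_ ?_ <;> simp [hS]
  obtain ⟨t, htS, ht1⟩ := exists_mem_ne (s := S) (by omega) 1
  obtain ⟨a, haS, ha⟩ : ∃ a ∈ S, a ∉ ({1, t} : Finset ↥A) := by
    refine exists_mem_notMem_of_card_lt_card (lt_of_le_of_lt card_le_two ?_)
    omega
  obtain ⟨b, hbS, hb⟩ : ∃ b ∈ S, b ∉ ({1, t, a, a * t} : Finset ↥A) := by
    refine exists_mem_notMem_of_card_lt_card (lt_of_le_of_lt Finset.card_le_four ?_)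
    omega
  simp only [mem_insert, mem_singleton, not_or] at ha hb
  have hm : ∀ x y : ↥A, x ∈ S → y ∈ S → x * y ∈ S := fun x y hx hy =>
    mem_filter.2 ⟨mem_univ _, mul_mem (mem_filter.1 hx).2 (mem_filter.1 hy).2⟩
  have hD : ∀ x ∈ S, x ≠ 1 → x ∈ mem276 z Q A := fun x hx => hd x (mem_filter.1 hx).2
  have hne : ∀ x y : ↥A, x ≠ y → x * y ≠ 1 := fun x y hxy e =>
    hxy (Triangular45.eq_of_mul_eq_one h e)
  exact no_fano h (hD t htS ht1) (hD a haS ha.1) (hD _ (hm _ _ htS haS) (hne _ _ (Ne.symm ha.2)))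
    (hD b hbS hb.1) (hD _ (hm _ _ htS hbS) (hne _ _ (Ne.symm hb.2.1)))
    (hD _ (hm _ _ haS hbS) (hne _ _ (Ne.symm hb.2.2.1))) hb.2.2.2
    (hD _ (hm _ _ (hm _ _ haS htS) hbS) (hne _ _ (Ne.symm hb.2.2.2)))

/-- The elements keeping a point. -/
theorem exists_point (L : LargeFischer45.Local z Q A)
    (hC : Subgroup.centralizer (A : Set G) ≤ A) {t i : G} (ht : t ∈ dSet z Q A)
    (hi : i = 1 ∨ (i ∈ dSet z Q A ∧ t * i ∈ dSet z Q A)) :
    ∃ F : Subgroup G,
      (∀ x ∈ Subgroup.normalizer (A : Set G), ∀ y ∈ Subgroup.normalizer (A : Set G),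
        x * t = t * x → y * t = t * y → x ∉ F → y ∉ F → x⁻¹ * y ∈ F) ∧
      (∀ y ∈ F, y ∉ A → y * y = 1 → 64 < Nat.card ↥(A ⊓ Subgroup.centralizer ({y} : Set G))) ∧
      (∀ X : Subgroup G, X ≤ F → (∀ x ∈ X, x * x = 1) →
        Nat.card X ≤ 16 * Nat.card ↥(X ⊓ A)) ∧
      (i ≠ 1 → ∀ x ∈ Subgroup.normalizer (A : Set G), x * t = t * x → x * i = i * x → x ∈ F) := by
  classical
  letI := comGrp L
  letI := Classical.decEq ↥A
  haveI := Fintype.ofFinite ↥A
  have h := hyp_of_local L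
  set D := mem276 z Q A with hD
  set N := Subgroup.normalizer (A : Set G) with hN
  set tA : ↥A := ⟨t, (mem_sel.1 ht).1⟩ with htA
  have htD : tA ∈ D := mem_mem276.2 ht
  -- the point
  obtain ⟨p, hp, hpi⟩ : ∃ p ∈ ends D tA, i ≠ 1 → ∃ iA : ↥A, (iA : G) = i ∧ iA ∈ D ∧
      ends D tA ∩ ends D iA = {p} := by
    rcases hi with rfl | ⟨hi1, hi2⟩
    · obtain ⟨p, hp⟩ := card_pos.1 (show 0 < (ends D tA).card by rw [card_ends h htD]; norm_num)
      exact ⟨p, hp, fun e => absurd rfl e⟩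
    set iA : ↥A := ⟨i, (mem_sel.1 hi1).1⟩ with hiA
    have hiD : iA ∈ D := mem_mem276.2 hi1
    have htiD : tA * iA ∈ D := mem_mem276.2 hi2
    have hne : tA ≠ iA := ne_of_mem h htiD
    have hlt : (ends D tA ∩ ends D iA).card < 2 := by
      by_contra hge
      push Not at hge
      have e1 := eq_of_subset_of_card_le inter_subset_left
        (by rw [card_ends h htD]; exact hge : (ends D tA).card ≤ (ends D tA ∩ ends D iA).card)
      have e2 := eq_of_subset_of_card_le inter_subset_right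
        (by rw [card_ends h hiD]; exact hge : (ends D iA).card ≤ (ends D tA ∩ ends D iA).card)
      obtain ⟨o, -⟩ := card_pos.1 (show 0 < (ends D tA).card by rw [card_ends h htD]; norm_num)
      refine hne ?_
      rw [← val_ends h o htD, ← val_ends h o hiD, ← e1, e2]
    have hpos : ¬ Disjoint (ends D tA) (ends D iA) := fun hd => not_mem_of_disjoint h htD hiD hd htiD
    obtain ⟨p, hp⟩ := card_eq_one.1 (show (ends D tA ∩ ends D iA).card = 1 by
      rw [disjoint_iff_inter_eq_empty] at hpos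
      have := card_pos.2 (nonempty_iff_ne_empty.2 hpos)
      omega)
    exact ⟨p, (mem_inter.1 (hp ▸ mem_singleton_self p)).1, fun _ => ⟨iA, rfl, hiD, hp⟩⟩
  -- the representation
  set ρ : ↥N →* MulAut ↥A := A.normalizerMonoidHom with hρdef
  have hρ : ∀ m (a : ↥A), ((ρ m a : ↥A) : G) = (m : G) * (a : G) * (m : G)⁻¹ := fun m a => rfl
  obtain ⟨Φ, hΦa, hΦ⟩ := CentPts.exists_pts_hom h p ρ fun m a ha =>
    mem_mem276.2 (by rw [hρ]; exact dSet_conj m.2 (mem_mem276.1 ha))
  set H : Subgroup ↥N := ((MulAction.stabilizer (Equiv.Perm (Pts D)) p).comap Φ) ⊓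
    (Subgroup.centralizer ({t} : Set G)).subgroupOf N with hH
  have hfixρ : ∀ (m : ↥N) (a : ↥A), (m : G) * (a : G) = (a : G) * (m : G) → ρ m a = a := by
    intro m a hma
    exact Subtype.ext (by rw [hρ, hma, mul_inv_cancel_right])
  have hmemH : ∀ m : ↥N, m ∈ H ↔ Φ m p = p ∧ (m : G) * t = t * (m : G) := by
    intro m
    simp [hH, Subgroup.mem_subgroupOf, Subgroup.mem_centralizer_singleton_iff]
  have hmem : ∀ x, x ∈ H.map N.subtype ↔ ∃ hx : x ∈ N, Φ ⟨x, hx⟩ p = p ∧ x * t = t * x := by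
    intro x
    constructor
    · rintro ⟨m, hm, rfl⟩
      exact ⟨m.2, (hmemH m).1 hm⟩
    · rintro ⟨hx, hx'⟩
      exact ⟨⟨x, hx⟩, (hmemH _).2 hx', rfl⟩
  have himg : ∀ (m : ↥N), (m : G) * t = t * (m : G) → (ends D tA).image (Φ m) = ends D tA :=
    fun m hm => CentPts.ends_image h (hΦ m) htD (hfixρ m tA hm)
  refine ⟨H.map N.subtype, ?_, ?_, ?_, ?_⟩
  · -- index two
    intro x hx y hy hxt hyt hxF hyF
    obtain ⟨q, hq, hqe⟩ : ∃ q, q ≠ p ∧ ends D tA = {p, q} := by
      obtain ⟨a, b, hab, e⟩ := card_eq_two.1 (card_ends h htD)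
      rw [e] at hp
      rcases mem_insert.1 hp with rfl | hp
      · exact ⟨b, hab.symm, e⟩
      · rw [mem_singleton.1 hp]
        exact ⟨a, hab, by rw [e, pair_comm]⟩
    have hswap : ∀ m : G, ∀ hm : m ∈ N, m * t = t * m → m ∉ H.map N.subtype →
        Φ ⟨m, hm⟩ p = q := by
      intro m hm hmt hmF
      have hmem' : Φ ⟨m, hm⟩ p ∈ ends D tA := himg ⟨m, hm⟩ hmt ▸ mem_image_of_mem _ hp
      rw [hqe, mem_insert, mem_singleton] at hmem'
      rcases hmem' with e | e
      · exact absurd ((hmem m).2 ⟨hm, e, hmt⟩) hmF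
      · exact e
    refine (hmem _).2 ⟨mul_mem (inv_mem hx) hy, ?_, ?_⟩
    · have : (⟨x⁻¹ * y, mul_mem (inv_mem hx) hy⟩ : ↥N) = (⟨x, hx⟩ : ↥N)⁻¹ * ⟨y, hy⟩ := rfl
      rw [this, map_mul, map_inv, Equiv.Perm.mul_apply, hswap y hy hyt hyF,
        ← hswap x hx hxt hxF, Equiv.Perm.inv_def, Equiv.symm_apply_apply]
    · exact ((show Commute x t from hxt).inv_left.mul_left (show Commute y t from hyt)).eq
  · -- many fixed members
    intro y hy hyA hy2
    obtain ⟨hyN, hyp, -⟩ := (hmem y).1 hy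
    set m : ↥N := ⟨y, hyN⟩ with hm
    have hsq : Φ m * Φ m = 1 := by
      rw [← map_mul, show m * m = 1 from Subtype.ext hy2, map_one]
    have hne : Φ m ≠ 1 := by
      intro e
      refine hyA (hC (Subgroup.mem_centralizer_iff.2 fun a ha => ?_))
      have h1 : ρ m = 1 := CentPts.aut_eq_one h (ρ m) fun u v => by rw [hΦ, e]; rfl
      have h2 : y * a * y⁻¹ = a := by
        have := hρ m ⟨a, ha⟩
        rw [h1, MulAut.one_apply] at this
        exact this.symm
      exact (mul_inv_eq_iff_eq_mul.1 h2).symm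
    refine lt_of_lt_of_le (CentPts.many_fixed h p (ρ m) (hΦa m) (hΦ m) hsq hne hyp) ?_
    rw [← Nat.card_eq_finsetCard]
    refine Nat.card_le_card_of_injective (fun a => ⟨((a : ↥A) : G), Subgroup.mem_inf.2 ⟨a.1.2, ?_⟩⟩) ?_
    · have h2 : y * ((a : ↥A) : G) * y⁻¹ = ((a : ↥A) : G) := by
        have := congrArg Subtype.val (mem_filter.1 a.2).2
        rwa [hρ] at this
      exact Subgroup.mem_centralizer_singleton_iff.2 (mul_inv_eq_iff_eq_mul.1 h2).symm
    · intro a b e
      exact Subtype.ext (Subtype.ext (congrArg Subtype.val e :))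
  · -- elementary subgroups
    intro X hX hsq
    have hXN : X ≤ N := fun x hx => ((hmem x).1 (hX hx)).1
    set f := Φ.comp (Subgroup.inclusion hXN) with hf
    have hdvd := CentPts.elementary_dvd h p f.range
      (by rintro _ ⟨x, rfl⟩; exact hΦa _)
      (by rintro _ ⟨x, rfl⟩; rw [← map_mul, show x * x = 1 from Subtype.ext (hsq x x.2), map_one])
      (p := p) (by rintro _ ⟨x, rfl⟩; exact ((hmem _).1 (hX x.2)).2.1)
    have hker : Nat.card f.ker ≤ Nat.card ↥(X ⊓ A) := by
      refine Nat.card_le_card_of_injective (fun x => ⟨((x : ↥X) : G), Subgroup.mem_inf.2 ⟨x.1.2, ?_⟩⟩) ?_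
      · have e : Φ ⟨((x : ↥X) : G), hXN x.1.2⟩ = 1 := x.2
        refine hC (Subgroup.mem_centralizer_iff.2 fun a ha => ?_)
        set m : ↥N := ⟨((x : ↥X) : G), hXN x.1.2⟩
        have h1 : ρ m = 1 := CentPts.aut_eq_one h (ρ m) fun u v => by rw [hΦ, e]; rfl
        have h2 : (m : G) * a * (m : G)⁻¹ = a := by
          have := hρ m ⟨a, ha⟩
          rw [h1, MulAut.one_apply] at this
          exact this.symm
        exact (mul_inv_eq_iff_eq_mul.1 h2).symm
      · intro a b e
        exact Subtype.ext (Subtype.ext (congrArg Subtype.val e :))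
    rw [← Subgroup.card_mul_index f.ker, Subgroup.index_ker, mul_comm]
    exact Nat.mul_le_mul (Nat.le_of_dvd (by norm_num) hdvd) hker
  · -- the common point
    intro hi1 x hx hxt hxi
    obtain ⟨iA, rfl, hiD, hpe⟩ := hpi hi1
    refine (hmem x).2 ⟨hx, ?_, hxt⟩
    have e1 := himg ⟨x, hx⟩ hxt
    have e2 := CentPts.ends_image h (hΦ ⟨x, hx⟩) hiD (hfixρ ⟨x, hx⟩ iA hxi)
    have : Φ ⟨x, hx⟩ p ∈ ends D tA ∩ ends D iA := by
      have hm : p ∈ ends D tA ∩ ends D iA := hpe ▸ mem_singleton_self p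
      exact mem_inter.2 ⟨e1 ▸ mem_image_of_mem _ (mem_inter.1 hm).1,
        e2 ▸ mem_image_of_mem _ (mem_inter.1 hm).2⟩
    rwa [hpe, mem_singleton] at this

/-- A member of the first class moving given members of the second class into the second class. -/
theorem exists_mover (L : LargeFischer45.Local z Q A) {t i : G} (ht : t ∈ dSet z Q A)
    (hi : i = 1 ∨ (i ∈ dSet z Q A ∧ t * i ∈ dSet z Q A)) :
    ∃ s ∈ A, IsConj z s ∧ ∀ b, b = t ∨ b = i ∨ b = t * i → b ≠ 1 → ¬ IsConj z (s * b) := by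
  classical
  letI := comGrp L
  letI := Classical.decEq ↥A
  have h := hyp_of_local L
  set D := mem276 z Q A with hD
  set tA : ↥A := ⟨t, (mem_sel.1 ht).1⟩ with htA
  have htD : tA ∈ D := mem_mem276.2 ht
  obtain ⟨o, hoD⟩ := card_pos.1 (show 0 < (ends D tA).card by rw [card_ends h htD]; norm_num)
  obtain ⟨U, hU, hUc⟩ : ∃ U : Finset (Pts D),
      (∀ b, b = t ∨ b = i ∨ b = t * i → b ≠ 1 → ∃ bA : ↥A, (bA : G) = b ∧ bA ∈ D ∧ ends D bA ⊆ U) ∧
        U.card ≤ 4 := by
    rcases hi with rfl | ⟨hi1, hi2⟩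
    · refine ⟨ends D tA, ?_, by rw [card_ends h htD]; norm_num⟩
      rintro b (rfl | rfl | rfl) hb
      · exact ⟨tA, rfl, htD, subset_rfl⟩
      · exact absurd rfl hb
      · exact ⟨tA, (mul_one t).symm, htD, subset_rfl⟩
    set iA : ↥A := ⟨i, (mem_sel.1 hi1).1⟩ with hiA
    have hiD : iA ∈ D := mem_mem276.2 hi1
    have htiD : tA * iA ∈ D := mem_mem276.2 hi2
    refine ⟨ends D tA ∪ ends D iA, ?_, ?_⟩
    · rintro b (rfl | rfl | rfl) -
      · exact ⟨tA, rfl, htD, subset_union_left⟩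
      · exact ⟨iA, rfl, hiD, subset_union_right⟩
      refine ⟨tA * iA, rfl, htiD, ?_⟩
      have hsub : symmDiff (ends D tA) (ends D iA) ⊆ ends D tA ∪ ends D iA := symmDiff_le_sup
      have hc := card_symmDiff_add (ends D tA) (ends D iA)
      rw [card_ends h htD, card_ends h hiD] at hc
      have hv : val D o (symmDiff (ends D tA) (ends D iA)) = tA * iA := by
        rw [val_symmDiff h, val_ends h o htD, val_ends h o hiD]
      have e : ends D (tA * iA) = symmDiff (ends D tA) (ends D iA) := by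
        refine CentPts.val_inj h o ⟨1, card_ends h htiD⟩
          ⟨2 - (ends D tA ∩ ends D iA).card, by omega⟩ ?_ ?_
        · rw [card_ends h htiD]; omega
        · rw [hv, val_ends h o htiD]
      exact e ▸ hsub
    · refine (card_union_le _ _).trans ?_
      rw [card_ends h htD, card_ends h hiD]
  obtain ⟨S, hUS, -, hS⟩ := exists_subsuperset_card_eq (s := U) (t := univ) (n := 4) (subset_univ _)
    hUc (by rw [card_univ, card_pts h]; norm_num)
  set s := val D o S with hs
  have hs1 : s ≠ 1 := fun e => by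
    have := eq_empty_of_val h o (S := S) ⟨2, hS⟩ (by omega) e
    simp [this] at hS
  have hsplit : ∀ T ⊆ S, T.card = 2 → val D o (S \ T) ∈ D ∧ s = val D o (S \ T) * val D o T ∧
      (S \ T).card = 2 ∧ val D o T ∈ D := by
    intro T hT hT2
    have hc : (S \ T).card = 2 := by rw [card_sdiff_of_subset hT, hS, hT2]
    exact ⟨(exists_duad_of_card_two h o hc).1, (prod_sdiff hT).symm, hc,
      (exists_duad_of_card_two h o hT2).1⟩
  have hsD : s ∉ D := by
    obtain ⟨T, hT, hT2⟩ := exists_subset_card_eq (n := 2) (s := S) (by omega)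
    obtain ⟨h1, e, hc, h2⟩ := hsplit T hT hT2
    rw [e]
    refine not_mem_of_disjoint h h1 h2 ?_
    rw [(exists_duad_of_card_two h o hc).2, (exists_duad_of_card_two h o hT2).2]
    exact sdiff_disjoint
  refine ⟨(s : G), s.2, ?_, fun b hb hb1 => ?_⟩
  · by_contra hc
    exact hsD (mem_mem276.2 ((not_conj_iff L s.2 fun e => hs1 (Subtype.ext e)).1 hc))
  obtain ⟨bA, rfl, hbD, hbU⟩ := hU b hb hb1
  obtain ⟨h1, e, -, -⟩ := hsplit _ (hbU.trans hUS) (card_ends h hbD)
  rw [val_ends h o hbD] at e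
  have : s * bA ∈ D := by rw [e, mul_cancel' h]; exact h1
  rw [← Subgroup.coe_mul]
  exact (mem_sel.1 (mem_mem276.1 this)).2.1.2

end CfsgLib.J4Type5.CentFrame
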