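import Cfsg.Agent.J4Type67.Facts
import Cfsg.Agent.J4Type13.StabAut
import Cfsg.Agent.Mathieu.Classes

/-!
Certificate data for the complement: a group of order sixteen in the stabiliser of two hexad
groups generating `M22`, and elements centralising an octad involution of `M24`.
-/

set_option autoImplicit false

namespace CfsgLib.J4Type5

open CfsgLib.Mathieu CfsgLib.J4Type67 CfsgLib.Mathieu.Code

/-- The outer generator. -/
def cplC : List ℕ := [23,10,9,8,21,5,13,7,3,2,1,11,12,6,18,20,16,17,14,19,15,4,22,0]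

/-- The inner generators. -/
def cplU : List ℕ := [0,1,9,8,4,19,13,11,3,2,10,7,16,6,14,20,12,22,18,5,15,21,17,23]

/-- The second inner generator. -/
def cplV : List ℕ := [0,2,1,14,21,5,13,16,18,10,9,11,12,6,3,15,7,17,8,22,20,4,19,23]

/-- The element moving the hexad group to its opposite. -/
def cplG : ℕ × ℕ := (974298647185254863429232872758105280, 967153497088602206836474009971437920)

/-- Generators of `M22` as words in the two hexad groups. -/
def cplWords : List (List ℕ) := [[1, 7, 0, 7, 2], [1, 5, 1], [0, 2, 3, 7, 0, 2, 3], [3, 4, 5, 2, 4, 5, 3], [4, 3, 6, 0, 2, 4, 6], [2, 7, 0, 3, 7, 2]]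

/-- Two involutions with product of order three. -/
def cplA : ℕ × ℕ := (983548720921252936276249910206105632, 983548720921252936276249910206105632)

/-- The second one. -/
def cplB : ℕ × ℕ := (984158983359129550953007900942075936, 984158983359129550953007900942075936)

/-- Elements centralising the octad representative moving its two-cycles to the first one. -/
def cplTabs : List (List ℕ) := [
  [1,0,2,3,7,14,11,12,20,22,4,9,10,19,5,13,21,17,15,18,16,8,6,23],
  [11,22,1,0,5,7,21,14,3,18,4,19,12,13,17,2,6,23,8,9,20,15,16,10],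
  [11,22,20,13,4,17,1,23,2,0,7,8,5,21,10,3,19,14,6,16,18,9,15,12],
  [18,21,20,13,5,12,8,17,0,15,23,16,14,22,4,1,2,10,6,3,11,9,19,7],
  [8,15,19,16,5,7,2,17,6,3,14,1,23,18,4,9,22,10,20,11,21,13,0,12],
  [19,16,15,8,17,7,20,5,11,13,14,18,23,0,10,22,6,4,3,9,1,2,21,12],
  [20,13,6,9,14,10,21,7,19,18,4,22,17,3,12,16,0,23,15,1,2,8,11,5],
  [3,2,22,11,5,4,13,10,21,20,14,16,7,9,23,18,8,12,0,15,6,1,19,17]]

/-- The sixteen products. -/
def cplEls : List (ℕ × ℕ × ℕ) :=
  (List.range 2).flatMap fun e => (List.range 4).flatMap fun i => (List.range 2).map fun f => (e, i, f)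

/-- The code of a product. -/
def cplCode (x : ℕ × ℕ × ℕ) : ℕ :=
  let r := cmpC (enc cplU) (enc cplV)
  [List.replicate x.1 (enc cplC), List.replicate x.2.1 r, List.replicate x.2.2 (enc cplU)].flatten.foldl cmpC idC

end CfsgLib.J4Type5
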