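import Cfsg.Agent.J4Type5.ComplData

/-!
Outer involutions of `Aut M22` of octad type, as elements of the pair stabiliser in `M24`, and the
group of order sixteen.
-/

set_option autoImplicit false
set_option linter.style.haveILetI false

open scoped Pointwise

namespace CfsgLib.J4Type5

open Cfsg CfsgLib.Golay CfsgLib.Mathieu CfsgLib.J4Type67 CfsgLib.J4Type13
open CfsgLib.Mathieu.Code (code code_mul code_one code_injective cmpC idC spanR enc)

/-- The pair stabiliser acting on `M22`. -/
def toAut : ↥pairStab →* MulAut M := stabHom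

theorem toAut_apply (x : ↥pairStab) (m : M) :
    ((toAut x m : M) : Equiv.Perm GolayPt) = x * m * (x : Equiv.Perm GolayPt)⁻¹ := rfl

theorem toAut_injective : Function.Injective toAut := stabHom_bijective.1

theorem toAut_surjective : Function.Surjective toAut := stabHom_bijective.2

/-- An element of `M22` in the pair stabiliser. -/
def incl : M →* ↥pairStab :=
  MonoidHom.codRestrict Cfsg.Spor.M22.subtype _ fun m => ⟨m.2.1.1, by
    show (m : Equiv.Perm GolayPt) • ({none, some 0} : Set GolayPt) = _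
    rw [Set.smul_set_insert, Set.smul_set_singleton, m.2.1.2, m.2.2]⟩

theorem incl_val (m : M) : ((incl m : ↥pairStab) : Equiv.Perm GolayPt) = m := rfl

theorem toAut_incl (m : M) : toAut (incl m) = MulAut.conj m :=
  MulEquiv.ext fun _ => Subtype.ext rfl

theorem exists_incl {x : ↥pairStab} (h : (x : Equiv.Perm GolayPt) none = none) :
    ∃ m : M, incl m = x := by
  have h0 : (x : Equiv.Perm GolayPt) (some 0) = some 0 := by
    rcases pairStab_cases x.2 with ⟨-, h2⟩ | ⟨h1, -⟩
    · exact h2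
    · exact absurd (h.symm.trans h1) (by simp)
  exact ⟨⟨x, ⟨x.2.1, h⟩, h0⟩, rfl⟩

/-- An involution interchanging the two base points with eight fixed points. -/
structure IsOct (x : ↥pairStab) : Prop where
  swap : (x : Equiv.Perm GolayPt) none = some 0
  sq : x * x = 1
  fix : (fixedPts (x : Equiv.Perm GolayPt)).card = 8

theorem IsOct.order {x : ↥pairStab} (h : IsOct x) : orderOf (x : Equiv.Perm GolayPt) = 2 := by
  haveI : Fact (Nat.Prime 2) := ⟨Nat.prime_two⟩
  refine orderOf_eq_prime (by rw [pow_two]; exact congrArg Subtype.val h.sq) fun e => ?_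
  have := h.swap
  rw [e] at this
  exact Option.some_ne_none _ this.symm

/-- An outer involution commuting with an element of order three is of octad type. -/
theorem isOct_of_commute {x : ↥pairStab} (hx : (x : Equiv.Perm GolayPt) none = some 0)
    (hx2 : x * x = 1) {y : M} (hy : orderOf y = 3) (hc : Commute x (incl y)) : IsOct x := by
  haveI : Fact (Nat.Prime 2) := ⟨Nat.prime_two⟩
  have h2 : orderOf (x : Equiv.Perm GolayPt) = 2 := orderOf_eq_prime
    (by rw [pow_two]; exact congrArg Subtype.val hx2) fun e => by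
      rw [e] at hx
      exact Option.some_ne_none _ hx.symm
  have h3 : orderOf (y : Equiv.Perm GolayPt) = 3 := by rw [Subgroup.orderOf_coe, hy]
  have hmem : none ∈ fixedPts (y : Equiv.Perm GolayPt) := mem_fixedPts.2 y.2.1.2
  rcases commute_three_two y.2.1.1 x.2.1 h3 h2 (congrArg Subtype.val hc.eq.symm :) with ⟨-, h⟩ | ⟨h, -⟩
  · exact ⟨hx, hx2, h⟩
  · rw [Finset.card_eq_zero] at h
    rw [h] at hmem
    simp at hmem

theorem tabs_ok : (cplTabs.all fun t => tabInM24 t && (fcomp t invOctad == fcomp invOctad t)) = true ∧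
    (List.range 24).all (fun i => (ap (pk invOctad) i == i) ||
      cplTabs.any fun t => ((ap (pk t) i == 0) && (ap (pk t) (ap (pk invOctad) i) == 1)) ||
        ((ap (pk t) i == 1) && (ap (pk t) (ap (pk invOctad) i) == 0))) = true := by
  decide +kernel

/-- An octad involution and a two-cycle are conjugate to the representative and its first one. -/
theorem IsOct.exists_std {x : ↥pairStab} (h : IsOct x) :
    ∃ k ∈ M24, toTab (k * x * k⁻¹) = invOctad ∧
      k • ({none, some 0} : Set GolayPt) = {i2p 0, i2p 1} := by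
  rcases exists_conj_involution x.2.1 h.order with ⟨h0, -⟩ | ⟨-, k, hk, e⟩
  · rw [h.fix] at h0; norm_num at h0
  set r := k * (x : Equiv.Perm GolayPt) * k⁻¹
  have hr : r (k none) = k (some 0) := by simp [r, Equiv.Perm.mul_apply, h.swap]
  have hne : r (k none) ≠ k none := fun e' => by
    rw [hr] at e'
    exact Option.some_ne_none _ (k.injective e')
  set i := p2i (k none)
  have hi : ap (pk invOctad) i = p2i (k (some 0)) := by rw [← e, ap_toTab', hr]
  have hall := List.all_eq_true.1 tabs_ok.2 i (List.mem_range.2 (p2i_lt _))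
  rw [Bool.or_eq_true] at hall
  have hnei : (ap (pk invOctad) i == i) = false := by
    rw [beq_eq_false_iff_ne, hi]
    exact fun e' => hne (hr.trans (p2i_injective e'))
  rw [hnei] at hall
  obtain ⟨t, ht, hti⟩ := List.any_eq_true.1 (hall.resolve_left Bool.false_ne_true)
  have htok := List.all_eq_true.1 tabs_ok.1 t ht
  rw [Bool.and_eq_true, beq_iff_eq] at htok
  obtain ⟨d, hd, rfl⟩ := rep_of_tabInM24 htok.1
  have hdr : d * r = r * d := by
    have := htok.2
    rw [← e, fcomp_toTab, fcomp_toTab] at this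
    exact toTab_injective this
  refine ⟨d * k, M24.mul_mem hd hk, ?_, ?_⟩
  · rw [show d * k * x * (d * k)⁻¹ = d * r * d⁻¹ by simp only [r]; group, hdr, mul_inv_cancel_right,
      e]
  · rw [hi, ap_toTab', ap_toTab'] at hti
    simp only [Bool.or_eq_true, Bool.and_eq_true, beq_iff_eq] at hti
    have key : ∀ p n, n < 24 → p2i p = n → p = i2p n := fun p n hn e' =>
      p2i_injective (by rw [e', p2i_i2p n hn])
    rw [Set.smul_set_insert, Set.smul_set_singleton]
    show ({d (k none), d (k (some 0))} : Set GolayPt) = _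
    rcases hti with ⟨e1, e2⟩ | ⟨e1, e2⟩
    · rw [key _ 0 (by norm_num) e1, key _ 1 (by norm_num) e2]
    · rw [key _ 1 (by norm_num) e1, key _ 0 (by norm_num) e2, Set.pair_comm]

/-- Octad type outer involutions are conjugate. -/
theorem IsOct.exists_conj {x x' : ↥pairStab} (h : IsOct x) (h' : IsOct x') :
    ∃ y : ↥pairStab, y * x * y⁻¹ = x' := by
  obtain ⟨k, hk, e, hp⟩ := h.exists_std
  obtain ⟨k', hk', e', hp'⟩ := h'.exists_std
  have hy : k'⁻¹ * k ∈ pairStab := ⟨M24.mul_mem (M24.inv_mem hk') hk, by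
    show (k'⁻¹ * k) • ({none, some 0} : Set GolayPt) = {none, some 0}
    rw [mul_smul, hp, ← hp', inv_smul_smul]⟩
  refine ⟨⟨_, hy⟩, Subtype.ext ?_⟩
  show k'⁻¹ * k * (x : Equiv.Perm GolayPt) * (k'⁻¹ * k)⁻¹ = x'
  have := toTab_injective (e.trans e'.symm)
  calc k'⁻¹ * k * (x : Equiv.Perm GolayPt) * (k'⁻¹ * k)⁻¹ = k'⁻¹ * (k * x * k⁻¹) * k' := by group
    _ = k'⁻¹ * (k' * x' * k'⁻¹) * k' := by rw [this]
    _ = x' := by group

/-! ### The data -/

/-- The pair of codes of an involution given by a table. -/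
def tp (t : List ℕ) : ℕ × ℕ := (enc t, enc t)

/-- The inner generators. -/
noncomputable def uM : M := el (tp cplU)

/-- The second one. -/
noncomputable def vM : M := el (tp cplV)

/-- The conjugating element. -/
noncomputable def gM : M := el cplG

theorem elOK_all : elOK (tp cplU) = true ∧ elOK (tp cplV) = true ∧ elOK cplG = true ∧
    elOK cplA = true ∧ elOK cplB = true := by decide +kernel

theorem cm_data : cm uM = enc cplU ∧ cm uM⁻¹ = enc cplU ∧ cm vM = enc cplV ∧
    cm vM⁻¹ = enc cplV ∧ cm gM = cplG.1 ∧ cm gM⁻¹ = cplG.2 :=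
  ⟨(el_spec elOK_all.1).1, (el_spec elOK_all.1).2, (el_spec elOK_all.2.1).1,
    (el_spec elOK_all.2.1).2, (el_spec elOK_all.2.2.1).1, (el_spec elOK_all.2.2.1).2⟩

theorem cplC_ok : tabInM24 cplC = true ∧ ap (pk cplC) 23 = 0 ∧ ap (pk cplC) 0 = 23 ∧
    cntFix (pk cplC) 2 = 24 ∧ cntFix (pk cplC) 1 = 8 ∧ cntFix (pk (fcomp cplC cplU)) 1 = 8 ∧
    cntFix (pk (fcomp cplC cplV)) 1 = 8 ∧ fcomp cplC cplU = fcomp cplU cplC ∧
    fcomp cplC cplV = fcomp cplV cplC ∧ fcomp cplU cplU = idTab ∧ fcomp cplV cplV = idTab ∧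
    cntFix (pk (fcomp cplU cplV)) 4 = 24 := by
  decide +kernel

/-- The outer generator. -/
noncomputable def cP : ↥pairStab :=
  ⟨tabPerm cplC, by
    obtain ⟨g, hg, e⟩ := rep_of_tabInM24 cplC_ok.1
    have hin := cplC_ok.1
    simp only [tabInM24, Bool.and_eq_true, beq_iff_eq, decide_eq_true_eq] at hin
    obtain ⟨⟨⟨hl, hr⟩, hn⟩, -⟩ := hin
    have e' : tabPerm cplC = g := toTab_injective ((tabPerm_eq _ hl hr hn).trans e.symm)
    rw [e']
    refine ⟨hg, ?_⟩
    have h1 : g none = some 0 := p2i_injective (by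
      rw [← ap_toTab' g none, e]; exact cplC_ok.2.1)
    have h2 : g (some 0) = none := p2i_injective (by
      rw [← ap_toTab' g (some 0), e]; exact cplC_ok.2.2.1)
    show g • ({none, some 0} : Set GolayPt) = _
    rw [Set.smul_set_insert, Set.smul_set_singleton, Equiv.Perm.smul_def, Equiv.Perm.smul_def, h1,
      h2, Set.pair_comm]⟩

theorem toTab_cP : toTab (cP : Equiv.Perm GolayPt) = cplC := by
  have hin := cplC_ok.1
  simp only [tabInM24, Bool.and_eq_true, beq_iff_eq, decide_eq_true_eq] at hin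
  exact tabPerm_eq _ hin.1.1.1 hin.1.1.2 hin.1.2

theorem toTab_el {t : List ℕ} (h : elOK (tp t) = true) (hl : t.length = 24)
    (ht : t.all (fun i => decide (i < 24)) = true) (hn : t.Nodup) :
    toTab ((el (tp t) : M) : Equiv.Perm GolayPt) = t := by
  have e : code ((el (tp t) : M) : Equiv.Perm GolayPt) = code (tabPerm t) := by
    show cm (el (tp t)) = _
    rw [(el_spec h).1]
    show enc t = enc (toTab (tabPerm t))
    rw [tabPerm_eq t hl ht hn]
  rw [code_injective e, tabPerm_eq t hl ht hn]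

theorem toTab_uv : toTab (uM : Equiv.Perm GolayPt) = cplU ∧ toTab (vM : Equiv.Perm GolayPt) = cplV :=
  ⟨toTab_el elOK_all.1 (by decide) (by decide) (by decide),
    toTab_el elOK_all.2.1 (by decide) (by decide) (by decide)⟩

theorem cP_swap : (cP : Equiv.Perm GolayPt) none = some 0 := p2i_injective (by
  rw [← ap_toTab' _ none, toTab_cP]; exact cplC_ok.2.1)

theorem cP_sq : cP * cP = 1 := by
  refine Subtype.ext ?_
  have := eq_one_of_cntFix cP.2.1 (n := 2) (by rw [toTab_cP, cplC_ok.2.2.2.1]; norm_num)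
  rwa [pow_two] at this

theorem uv_sq : uM * uM = 1 ∧ vM * vM = 1 ∧ (uM * vM) ^ 4 = 1 := by
  refine ⟨Subtype.ext (toTab_injective ?_), Subtype.ext (toTab_injective ?_), Subtype.ext ?_⟩
  · rw [Subgroup.coe_mul, ← fcomp_toTab, toTab_uv.1, Subgroup.coe_one, toTab_one]
    exact cplC_ok.2.2.2.2.2.2.2.2.2.1
  · rw [Subgroup.coe_mul, ← fcomp_toTab, toTab_uv.2, Subgroup.coe_one, toTab_one]
    exact cplC_ok.2.2.2.2.2.2.2.2.2.2.1
  · rw [SubmonoidClass.coe_pow, Subgroup.coe_mul, Subgroup.coe_one]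
    exact eq_one_of_cntFix (M24.mul_mem uM.2.1.1 vM.2.1.1) (by
      rw [← fcomp_toTab, toTab_uv.1, toTab_uv.2, cplC_ok.2.2.2.2.2.2.2.2.2.2.2]; norm_num)

theorem commute_cP : Commute cP (incl uM) ∧ Commute cP (incl vM) := by
  constructor <;> refine Subtype.ext (toTab_injective ?_) <;>
    simp only [Subgroup.coe_mul, incl_val, ← fcomp_toTab, toTab_cP]
  · rw [toTab_uv.1]; exact cplC_ok.2.2.2.2.2.2.2.1
  · rw [toTab_uv.2]; exact cplC_ok.2.2.2.2.2.2.2.2.1

theorem isOct_data : IsOct cP ∧ IsOct (cP * incl uM) ∧ IsOct (cP * incl vM) := by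
  have hs : ∀ m : M, m * m = 1 → Commute cP (incl m) →
      (cP * incl m) * (cP * incl m) = 1 ∧
        ((cP * incl m : ↥pairStab) : Equiv.Perm GolayPt) none = some 0 := by
    intro m hm hc
    refine ⟨?_, ?_⟩
    · rw [hc.symm.mul_mul_mul_comm, cP_sq, ← map_mul, hm, map_one, one_mul]
    · have h : (m : Equiv.Perm GolayPt) none = none := m.2.1.2
      rw [Subgroup.coe_mul, Equiv.Perm.mul_apply, incl_val, h, cP_swap]
  refine ⟨⟨cP_swap, cP_sq, ?_⟩, ⟨(hs _ uv_sq.1 commute_cP.1).2, (hs _ uv_sq.1 commute_cP.1).1, ?_⟩,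
    ⟨(hs _ uv_sq.2.1 commute_cP.2).2, (hs _ uv_sq.2.1 commute_cP.2).1, ?_⟩⟩
  · have := cntFix_toTab (cP : Equiv.Perm GolayPt) 1
    rw [pow_one, toTab_cP, cplC_ok.2.2.2.2.1] at this
    exact this.symm
  · have := cntFix_toTab ((cP * incl uM : ↥pairStab) : Equiv.Perm GolayPt) 1
    rw [pow_one, Subgroup.coe_mul, incl_val, ← fcomp_toTab, toTab_cP, toTab_uv.1,
      cplC_ok.2.2.2.2.2.1] at this
    exact this.symm
  · have := cntFix_toTab ((cP * incl vM : ↥pairStab) : Equiv.Perm GolayPt) 1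
    rw [pow_one, Subgroup.coe_mul, incl_val, ← fcomp_toTab, toTab_cP, toTab_uv.2,
      cplC_ok.2.2.2.2.2.2.1] at this
    exact this.symm

/-! ### The two hexad groups -/

/-- The element of the sixteen with given exponents. -/
noncomputable def elP (x : ℕ × ℕ × ℕ) : ↥pairStab :=
  cP ^ x.1 * incl (uM * vM) ^ x.2.1 * incl uM ^ x.2.2

theorem cpl_span_ok :
    (cplEls.map cplCode).Nodup ∧
    (cplEls.all fun x => (x == (0, 0, 0)) || !((spanR hexBasis).contains (cplCode x))) = true ∧
    ((hexBasis.map Prod.fst).all fun h =>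
      [(enc cplC, enc cplC), (enc cplU, enc cplU), (enc cplV, enc cplV)].all fun w =>
        (spanR hexBasis).contains (cmpC (cmpC w.1 h) w.2) &&
        (spanR hexBasis).contains (cmpC (cmpC (cmpC cplG.2 (cmpC w.1 cplG.1)) h)
          (cmpC cplG.2 (cmpC w.2 cplG.1)))) = true ∧
    genCheck hexBasis cplG cplWords = true := by
  decide +kernel

theorem foldl_code (n : ℕ) : ∀ a b : Equiv.Perm GolayPt,
    (List.replicate n (code b)).foldl cmpC (code a) = code (a * b ^ n) := by
  induction n with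
  | zero => intro a b; simp
  | succ n ih => intro a b; rw [List.replicate_succ, List.foldl_cons, ← code_mul, ih, pow_succ',
      mul_assoc]

theorem code_elP (x : ℕ × ℕ × ℕ) :
    code ((elP x : ↥pairStab) : Equiv.Perm GolayPt) = cplCode x := by
  have hc : enc cplC = code (cP : Equiv.Perm GolayPt) := by rw [code, toTab_cP]
  have hu : enc cplU = code (uM : Equiv.Perm GolayPt) := by rw [code, toTab_uv.1]
  have hv : enc cplV = code (vM : Equiv.Perm GolayPt) := by rw [code, toTab_uv.2]
  rw [cplCode]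
  simp only [hc, hu, hv, ← code_mul, List.flatten_cons, List.flatten_nil, List.append_nil,
    List.foldl_append]
  rw [← code_one, foldl_code, foldl_code, foldl_code, one_mul]
  simp only [elP, Subgroup.coe_mul, SubmonoidClass.coe_pow, incl_val, map_mul]

theorem elP_injOn {x y : ℕ × ℕ × ℕ} (hx : x ∈ cplEls) (hy : y ∈ cplEls) (h : elP x = elP y) :
    x = y :=
  List.inj_on_of_nodup_map cpl_span_ok.1 hx hy (by rw [← code_elP, ← code_elP, h])

theorem elP_not_hex {x : ℕ × ℕ × ℕ} (hx : x ∈ cplEls) {m : M} (hm : m ∈ hex)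
    (h : elP x = incl m) : x = (0, 0, 0) := by
  have := List.all_eq_true.1 cpl_span_ok.2.1 x hx
  simp only [Bool.or_eq_true, beq_iff_eq] at this
  refine this.resolve_right fun h' => ?_
  rw [Bool.not_eq_true', List.contains_eq_mem, decide_eq_false_iff_not, ← code_elP, h] at h'
  exact h' ((mem_sub basis_ok.1).1 hm)

theorem hex_sup_opp : hex ⊔ conjS gM hex = ⊤ :=
  sup_conj_eq_top basis_ok.1 basis_ok.2.1 cpl_span_ok.2.2.2

/-- A table permutation normalising both hexad groups. -/
theorem normalizes_hex {x : ↥pairStab} {a : ℕ}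
    (ha : code (x : Equiv.Perm GolayPt) = a) (hai : code ((x : Equiv.Perm GolayPt)⁻¹) = a)
    (hmem : (a, a) ∈ [(enc cplC, enc cplC), (enc cplU, enc cplU), (enc cplV, enc cplV)]) :
    hex.map (toAut x).toMonoidHom = hex ∧
      (conjS gM hex).map (toAut x).toMonoidHom = conjS gM hex := by
  have hgen : ∀ m ∈ hex, ∀ w : ↥pairStab, ∀ w1 w2, code (w : Equiv.Perm GolayPt) = w1 →
      code ((w : Equiv.Perm GolayPt)⁻¹) = w2 →
      (∀ h ∈ hexBasis.map Prod.fst, (spanR hexBasis).contains (cmpC (cmpC w1 h) w2) = true) →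
      toAut w m ∈ hex := by
    intro m hm w w1 w2 h1 h2 hall
    have key : (CfsgLib.Mathieu.Code.grpOf hexBasis).map
        (MulAut.conj (w : Equiv.Perm GolayPt)).toMonoidHom ≤
        CfsgLib.Mathieu.Code.grpOf hexBasis := by
      rw [Subgroup.map_le_iff_le_comap, CfsgLib.Mathieu.Code.grpOf, Subgroup.closure_le]
      intro t ht
      show (w : Equiv.Perm GolayPt) * t * (w : Equiv.Perm GolayPt)⁻¹ ∈
        CfsgLib.Mathieu.Code.grpOf hexBasis
      rw [(CfsgLib.Mathieu.Code.spanSpec _ basis_ok.1).mem_iff, code_mul, code_mul, h1, h2]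
      simpa using hall _ ht
    exact key ⟨(m : Equiv.Perm GolayPt), hm, rfl⟩
  have hall := cpl_span_ok.2.2.1
  simp only [List.all_eq_true, Bool.and_eq_true] at hall
  have hA : ∀ m ∈ hex, toAut x m ∈ hex := fun m hm =>
    hgen m hm x a a ha hai fun h hh => (hall h hh _ hmem).1
  constructor
  · refine Subgroup.eq_of_le_of_card_ge ?_ (by
      rw [Subgroup.card_map_of_injective (toAut x).injective])
    rintro _ ⟨m, hm, rfl⟩
    exact hA m hm
  · refine Subgroup.eq_of_le_of_card_ge ?_ (by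
      rw [Subgroup.card_map_of_injective (f := (toAut x).toMonoidHom) (toAut x).injective])
    rintro _ ⟨_, ⟨m, hm, rfl⟩, rfl⟩
    refine mem_conjS.2 ?_
    set w := (incl gM)⁻¹ * x * incl gM
    have hw : toAut w m = gM⁻¹ * toAut x (gM * m * gM⁻¹) * gM := by
      apply Subtype.ext
      simp only [toAut_apply, Subgroup.coe_mul, InvMemClass.coe_inv, w, incl_val]
      group
    show gM⁻¹ * toAut x (gM * m * gM⁻¹) * gM ∈ hex
    rw [← hw]
    refine hgen m hm w (cmpC cplG.2 (cmpC a cplG.1)) (cmpC cplG.2 (cmpC a cplG.1)) ?_ ?_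
      fun h hh => (hall h hh _ hmem).2
    · simp only [w, Subgroup.coe_mul, InvMemClass.coe_inv, incl_val, mul_assoc, code_mul, ha]
      rw [show code (gM : Equiv.Perm GolayPt) = cplG.1 from cm_data.2.2.2.2.1,
        show code ((gM : Equiv.Perm GolayPt))⁻¹ = cplG.2 from cm_data.2.2.2.2.2]
    · simp only [w, Subgroup.coe_mul, InvMemClass.coe_inv, incl_val, mul_inv_rev, inv_inv,
        code_mul, hai]
      rw [show code (gM : Equiv.Perm GolayPt) = cplG.1 from cm_data.2.2.2.2.1,
        show code ((gM : Equiv.Perm GolayPt))⁻¹ = cplG.2 from cm_data.2.2.2.2.2]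

theorem normalizes_data : ∀ x ∈ [cP, incl uM, incl vM],
    hex.map (toAut x).toMonoidHom = hex ∧
      (conjS gM hex).map (toAut x).toMonoidHom = conjS gM hex := by
  intro x hx
  simp only [List.mem_cons, List.not_mem_nil, or_false] at hx
  rcases hx with rfl | rfl | rfl
  · refine normalizes_hex (a := enc cplC) (by rw [code, toTab_cP]) ?_ (by simp)
    rw [inv_eq_of_mul_eq_one_right (congrArg Subtype.val cP_sq :), code, toTab_cP]
  · exact normalizes_hex (a := enc cplU) cm_data.1 cm_data.2.1 (by simp)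
  · exact normalizes_hex (a := enc cplV) cm_data.2.2.1 cm_data.2.2.2.1 (by simp)

/-- Two involutions with product of order three. -/
theorem exists_pair_three : ∃ a b : M, a * a = 1 ∧ a ≠ 1 ∧ b * b = 1 ∧ b ≠ 1 ∧
    orderOf (a * b) = 3 := by
  have h : cmpC cplA.1 cplA.1 = idC ∧ cmpC cplB.1 cplB.1 = idC ∧ cplA.1 ≠ idC ∧ cplB.1 ≠ idC ∧
      cmpC cplA.1 cplB.1 ≠ idC ∧
      cmpC (cmpC (cmpC cplA.1 cplB.1) (cmpC cplA.1 cplB.1)) (cmpC cplA.1 cplB.1) = idC := by
    decide +kernel
  have ha := (el_spec elOK_all.2.2.2.1).1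
  have hb := (el_spec elOK_all.2.2.2.2).1
  haveI : Fact (Nat.Prime 3) := ⟨Nat.prime_three⟩
  refine ⟨el cplA, el cplB, cm_injective ?_, fun e => h.2.2.1 ?_, cm_injective ?_,
    fun e => h.2.2.2.1 ?_, orderOf_eq_prime (cm_injective ?_) fun e => h.2.2.2.2.1 ?_⟩
  · rw [cm_mul, ha, h.1, cm_one]
  · rw [← ha, e, cm_one]
  · rw [cm_mul, hb, h.2.1, cm_one]
  · rw [← hb, e, cm_one]
  · simp only [pow_succ, pow_zero, one_mul, cm_mul, ha, hb, h.2.2.2.2.2, cm_one]
  · rw [← ha, ← hb, ← cm_mul, e, cm_one]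

end CfsgLib.J4Type5
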