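import Cfsg.Agent.J4Type5.Counts

/-!
Janko-four type: the 36 other involutions of `V ∩ E` generate `V ∩ E`.
-/

set_option autoImplicit false
set_option linter.unusedSectionVars false

namespace CfsgLib.Jf18.Ctx

open CfsgLib.J4Type67
open CfsgLib.LargeFischer45 (Other other_conj)
open scoped Pointwise

universe u

variable {G : Type u} [Group G] [Finite G] {c : Ctx G} {V : Subgroup G}

theorem Big.other_span (hB : c.Big V)
    (h36 : {x | x ∈ V ∧ x ∈ c.E ∧ Other c.z x}.ncard = 36) {K : Subgroup G}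
    (hK : ∀ x ∈ V, x ∈ c.E → Other c.z x → x ∈ K) : ∀ x ∈ V, x ∈ c.E → x ∈ K := by
  classical
  set d := c.setup with hd
  obtain ⟨B, hBV⟩ : ∃ B : BigElem d, ∀ x : c.H, x ∈ B.V ↔ (x : G) ∈ V := hB.exists_bigElem
  have hEd : ∀ {x : c.H}, x ∈ d.E ↔ (x : G) ∈ c.E := Iff.rfl
  set S : Set c.H := {x | (x : G) ∈ V ∧ (x : G) ∈ c.E ∧ Other c.z (x : G)}
  set L := Subgroup.closure S
  have hSL : S ⊆ L := Subgroup.subset_closure
  have hLD : L ≤ B.V ⊓ d.E := (Subgroup.closure_le _).2 fun x hx => ⟨(hBV x).2 hx.1, hEd.2 hx.2.1⟩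
  have hLK : L ≤ K.comap c.H.subtype := (Subgroup.closure_le _).2 fun x hx =>
    hK _ hx.1 hx.2.1 hx.2.2
  have hZc : ∀ {x : c.H}, x ∈ d.Z → x = 1 ∨ x = d.z := fun hx => d.mem_Z.1 hx
  -- a member outside the centre
  obtain ⟨x₀, hx₀⟩ : ∃ x : c.H, x ∈ S := by
    obtain ⟨x, hxV, hxE, hxo⟩ :=
      Set.nonempty_of_ncard_ne_zero (s := {x | x ∈ V ∧ x ∈ c.E ∧ Other c.z x}) (by omega)
    exact ⟨⟨x, hB.le_H hxV⟩, hxV, hxE, hxo⟩
  have hx₀Z : x₀ ∉ d.Z := fun h => by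
    rcases hZc h with h | h
    · exact hx₀.2.2.1 (congrArg Subtype.val h)
    · exact hx₀.2.2.2 (by rw [congrArg Subtype.val h]; exact IsConj.refl _)
  have hconjS : ∀ g : c.H, (∀ x ∈ B.V, g * x * g⁻¹ ∈ B.V) → ∀ x ∈ L, g * x * g⁻¹ ∈ L := by
    intro g hg x hx
    refine (show L ≤ L.comap (MulAut.conj g).toMonoidHom from (Subgroup.closure_le _).2 ?_) hx
    intro y hy
    exact hSL ⟨(hBV _).1 (hg y ((hBV y).2 hy.1)), c.normal_E g.2 hy.2.1, (other_conj (g : G)).2 hy.2.2⟩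
  have hzL : d.z ∈ L := by
    obtain ⟨e, he, hne⟩ : ∃ e ∈ d.E, ¬ Commute x₀ e := by
      by_contra h
      push Not at h
      exact hx₀Z (d.mem_Z.2 (d.centE x₀ (hEd.2 hx₀.2.1) h))
    rcases d.commE e he x₀ (hEd.2 hx₀.2.1) with h | h
    · exact absurd (mul_inv_eq_iff_eq_mul.1 (mul_inv_eq_one.1 h)).symm hne
    · rw [← h]
      exact mul_mem (hconjS e (fun y hy => B.conj_E he hy) x₀ (hSL hx₀)) (inv_mem (hSL hx₀))
  -- the image in the module
  set r := d.rep.twist B.g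
  set Lb : Subgroup d.W := (L.subgroupOf d.E).map (QuotientGroup.mk' (d.Z.subgroupOf d.E))
  have hF : r.F hex = d.rep.F B.A := d.rep.twist_F B.g hex
  have hLF : Lb ≤ r.F hex := by
    rintro w ⟨e, he, rfl⟩
    obtain ⟨_, h⟩ := d.mem_pre.1 (B.inf_E.le (hLD he))
    rw [hF]
    exact h
  have hinv : ∀ s, conjS (r.proj s) hex = hex →
      ∀ w ∈ ((Lb : Set d.W) \ {1}), r.act s w ∈ ((Lb : Set d.W) \ {1}) := by
    intro s
    induction s using QuotientGroup.induction_on with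
    | H g =>
      intro hs w hw
      obtain ⟨⟨⟨e, heE⟩, he, rfl⟩, hw1⟩ := hw
      have hn : conjS (d.sigma g) B.A = B.A := by
        have e' : r.proj (QuotientGroup.mk g) = B.g⁻¹ * d.sigma g * B.g := by
          simp [r, Rep.twist]; rfl
        rw [e'] at hs
        ext a
        rw [mem_conjS, mem_conjS, mem_conjS]
        have := SetLike.ext_iff.1 hs (B.g⁻¹ * a * B.g)
        rw [mem_conjS] at this
        simpa [mul_assoc] using this
      have heL : (g : c.H) * e * (g : c.H)⁻¹ ∈ L :=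
        hconjS _ (fun y hy => B.conj_C g.2 hn hy) e he
      have heq : r.act (QuotientGroup.mk g) (d.q e heE) =
          d.q ((g : c.H) * e * (g : c.H)⁻¹) (d.normalE g e heE) := d.actH_q (g : c.H) heE
      refine ⟨⟨⟨_, d.normalE g e heE⟩, heL, heq.symm⟩, fun h => hw1 ?_⟩
      have h' := heq.symm.trans h
      refine d.q_one_iff.2 ?_
      have := d.z_conj (g : c.H)⁻¹ (d.q_one_iff.1 h')
      rw [show (g : c.H)⁻¹ * ((g : c.H) * e * (g : c.H)⁻¹) * ((g : c.H)⁻¹)⁻¹ = e by group]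
        at this
      rw [this]
      exact d.q_one_iff.1 h'
  have := d.rep.finite_W
  obtain ⟨hcases, -⟩ := card_invariant r (T := (Lb : Set d.W) \ {1})
    (fun w hw => hLF hw.1) (fun h => h.2 rfl) hinv
  have hcard : Nat.card ↥((Lb : Set d.W) \ {1}) + 1 = Nat.card Lb := by
    rw [Nat.card_coe_set_eq, ← SetLike.coe_sort_coe Lb, Nat.card_coe_set_eq]
    exact Set.ncard_sdiff_singleton_add_one (one_mem Lb) (Lb : Set d.W).toFinite
  have hdvd : Nat.card Lb ∣ 64 := (Subgroup.card_dvd_of_le hLF).trans (by rw [r.card_F_hex])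
  have hne : Nat.card Lb ≠ 1 := fun h => by
    have hm : d.q x₀ (hEd.2 hx₀.2.1) ∈ Lb := ⟨⟨x₀, hEd.2 hx₀.2.1⟩, hSL hx₀, rfl⟩
    rw [Subgroup.card_eq_one.1 h, Subgroup.mem_bot] at hm
    exact hx₀Z (d.q_one_iff.1 hm)
  have h64 : Nat.card Lb = 64 := by
    rcases hcases with h | h | h | h <;> rw [h] at hcard
    · omega
    · exact absurd hdvd (by rw [← hcard]; norm_num)
    · exact absurd hdvd (by rw [← hcard]; norm_num)
    · omega
  have htop : Lb = r.F hex := Subgroup.eq_of_le_of_card_ge hLF (by rw [h64, r.card_F_hex])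
  intro x hxV hxE
  obtain ⟨hxd, hxF⟩ := d.mem_pre.1
    (B.inf_E.le (⟨(hBV ⟨x, hB.le_H hxV⟩).2 hxV, (hEd (x := ⟨x, hB.le_H hxV⟩)).2 hxE⟩ :
      (⟨x, hB.le_H hxV⟩ : c.H) ∈ B.V ⊓ d.E))
  rw [← hF, ← htop] at hxF
  obtain ⟨⟨e, heE⟩, he, heq⟩ := hxF
  have hdiv : e⁻¹ * (⟨x, hB.le_H hxV⟩ : c.H) ∈ L := by
    rcases hZc (d.q_eq_iff.1 (show d.q e heE = d.q _ hxd from heq)) with h | h <;> rw [h]
    · exact one_mem _
    · exact hzL
  have hmem := hLK (mul_mem (show e ∈ L from he) hdiv)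
  rw [mul_inv_cancel_left] at hmem
  exact hmem

end CfsgLib.Jf18.Ctx
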